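import Cfsg.Agent.Lib.H94.M24Fix
import Cfsg.Agent.Lib.H94.M24Pair

/-!
The centraliser of a fixed-point-free involution of `M24`.
-/

set_option autoImplicit false

namespace H94.M24Inv

open Cfsg H8.GolayCode H8.GolayCount H8.GolayBasic H8.M24Mem H8.M24Trans H32.M24Kit H32.Sextet H32.Octad H94.M24Fast
  H94.M24Lists H94.M24Enum H94.M24Cls H94.M24Fix
open scoped Pointwise

/-- elements commuting with `T0` moving the point 23 anywhere -/
def LC1 : List ℕ := [0x4133a31d63c5b259aa87a8a418837, 0xd58443c6781669a36ca92e2675c02, 0x11ec8224b590e6fa2d8a8362675c01, 0x1a64b69c2fb0a75a220a6122675c05, 0x24921159703b66ca15eaa8e2675c08, 0x2be0d5d44960667a124ab222675c03, 0x335893ae68850642d6c293e2175c0a, 0x3c16a332b26bc762cc824522175c09, 0x441e20b1b2aae76a0d2a3962675c04, 0x4c886559f04546c2d1626ce2175c07, 0x522c74928d94c6b2bd828562175c06, 0x5b2a32c0967a272a08ea4862675c0d, 0x6542653ec7149696d0682ce2475c10, 0x6d8e51c90c49270a06aa78a2675c0b, 0x749ea3580caddb05d0e84cca418831, 0x7b1b3a413659c722a90221a2175c15,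 0x81c6a326552d96f6cc281522475c0c, 0x8b0e6542f2481b65cde8ad0a41882e, 0x93c549d6090b167698a81aa2475c16, 0x9924faa0cbb286d29e026262175c14, 0xa2e157b544618682a642b1e2175c13, 0xad9149c8ec22470299a25aa2175c0f, 0xb24b3a1d8f1c1756a84809a2475c12, 0xbdab49ca307b9ac5a928398a418820]
/-- elements commuting with `T0` fixing 23 and moving the point 1 off the tetrad of 23 -/
def LC2 : List ℕ := [0xbdab49ca307b9ac5a928398a418820, 0xbd51063dc724669a59aa5c8a618440, 0xbc8f3a5a2c4b9b0599e8aa84409460, 0xbbe549d627b38a91a982819a15a080, 0xba5b691dcf5c675a410a2304608ca0, 0xbc88115a2c439f0a8da9596879a8c0, 0xbc948259d03446c2ae829b6a17a4e0, 0xbc8474d9d00c66ca3caa1d5a659100, 0xbccb2b522a1b9a65c028132a479d20, 0xbb4f062dc84c4642daa27ca8199940, 0xbd613a3e29638a719ac29290123560, 0xb9cc51a5d55456f68668a0ac494180, 0xbb0afac1d61c672a1c4a0a50622da0, 0xbda64449cca44702b4c252d213d5e0, 0xba96939a336b8b41bd02256c193200, 0xba68329dcf9c575689483060465a40, 0xbd9620ca306b9eca950920d4735260, 0xb92b6921cb7c46d2c0e24b14134e80,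 0xb983062a34139b35c8a81d9243bea0, 0xbd10face26238aa1a56269e0164ac0]
def LC3 : List ℕ := [0xbdab49ca307b9ac5a928398a418820, 0xb9c92b25d54466fa316a6c06628820]
def LC4 : List ℕ := [0xbdab49ca307b9ac5a928398a418820, 0xbc92655a2c3b9706cea47d0a818820, 0xbb1f3a4232ab916218ed4a8ab18820, 0xbae957b6289ba44b1cd0524ac18820, 0xbc0ea332364b892451ebaccad18820, 0xbb4c93ae2453ac893e8c9d4b018820, 0xba1474922b3398d85676a3cb218820, 0xb926faa22da3a0b6255231cb618820]
/-- translations of the standard octad not commuting with `T0` -/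
def LN : List ℕ := [0xb9e086be3593a6952d94b10a618820, 0xb99b28523343aaa4b16f258a718820, 0xba91094e346b9e63d8955b0a918820, 0xba64d4562f83a87312d362caa18820, 0xbd17661a2a23933ac1a7448af18820, 0xbd6cb22627638cfa224a834b318820, 0xbbd8459e29b39559b606920b418820, 0xbcc8cb2a265b8f47c9096c0b518820]
/-- a fixed-point-free element of order 3 commuting with `T0` -/
def TH : ℕ := 0x1524facc66b15ca8a59781da05a081

/-- commuting tables -/
def okComm (T c : ℕ) : Bool := okTab c && (List.range 24).all fun i => Nat.beq (tab c (tab T i)) (tab T (tab c i))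

theorem pm_comm {T c : ℕ} (hT : okTab T = true) (h : okComm T c = true) : pm c * pm T = pm T * pm c := by
  unfold okComm at h
  rw [Bool.and_eq_true, List.all_eq_true] at h
  apply Equiv.ext
  intro p
  apply idx_injective
  rw [Equiv.Perm.mul_apply, Equiv.Perm.mul_apply, pm_idx h.1, pm_idx hT, pm_idx hT, pm_idx h.1]
  exact Nat.eq_of_beq_eq_true (h.2 _ (List.mem_range.2 (idx_lt p)))

/-- `c` commutes with `T0`, fixes the points of `A` and moves `a` to `b` -/
def okMv (A : List ℕ) (a b c : ℕ) : Bool :=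
  okComm T0 c && (A.all fun i => Nat.beq (tab c i) i) && Nat.beq (tab c a) b

/-- the centraliser -/
noncomputable abbrev τ : M24 := ⟨pm T0, pm_mem T0⟩
noncomputable abbrev C : Subgroup M24 := Subgroup.centralizer {τ}

theorem mem_C {g : M24} : g ∈ C ↔ g.1 * pm T0 = pm T0 * g.1 := by
  rw [Subgroup.mem_centralizer_iff]
  constructor
  · intro h
    exact (congrArg Subtype.val (h τ rfl)).symm
  · rintro h _ rfl
    exact Subtype.ext h.symm

theorem okMv_spec {A : List ℕ} {a b c : ℕ} (h : okMv A a b c = true) (hA : ∀ i ∈ A, i < 24) (ha : a < 24) :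
    (⟨pm c, pm_mem c⟩ : M24) ∈ C ∧ (∀ i ∈ A, pm c (pt i) = pt i) ∧ pm c (pt a) = pt b := by
  unfold okMv at h
  simp only [Bool.and_eq_true, List.all_eq_true] at h
  obtain ⟨⟨h1, h2⟩, h3⟩ := h
  have hc : okTab c = true := by
    unfold okComm at h1
    rw [Bool.and_eq_true] at h1
    exact h1.1
  refine ⟨mem_C.2 (pm_comm okT0 h1), ?_, ?_⟩
  · intro i hi
    rw [pm_pt hc i (hA i hi), Nat.eq_of_beq_eq_true (h2 i hi)]
  · rw [pm_pt hc a ha, Nat.eq_of_beq_eq_true h3]

theorem cert1 : (List.range 24).all (fun q => LC1.any (okMv [] 23 q)) = true := by decide +kernel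
theorem cert2 : (List.range 24).all (fun q => Nat.testBit 0x824001 q || LC2.any (okMv [23] 1 q)) = true := by
  decide +kernel
theorem cert3 : [14, 17].all (fun q => LC3.any (okMv [23, 1] 14 q)) = true := by decide +kernel
theorem cert4 : [4, 8, 11, 12, 13, 16, 18, 22].all (fun q => LC4.any (okMv [23, 1, 14] 4 q)) = true := by decide +kernel
theorem cert5 : (List.range 24).all (fun q => Nat.testBit 0x82402f q || [4, 8, 11, 12, 13, 16, 18, 22].contains q ||
    LN.any fun c => okTab c && ((List.range 24).all fun i => !Nat.testBit 0x82402f i || Nat.beq (tab c i) i) &&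
      Nat.beq (tab c 4) q && !((List.range 24).all fun i => Nat.beq (tab c (tab T0 i)) (tab T0 (tab c i)))) = true := by
  decide +kernel

/-- all six tetrads are fixed by `T0` -/
def fixAll (e : ℕ) : Bool :=
  cond (Nat.beq (actF WT0 (lk 24 e 0)) (lk 24 e 0)) (cond (Nat.beq (actF WT0 (lk 24 e 1)) (lk 24 e 1))
    (cond (Nat.beq (actF WT0 (lk 24 e 2)) (lk 24 e 2)) (cond (Nat.beq (actF WT0 (lk 24 e 3)) (lk 24 e 3))
      (cond (Nat.beq (actF WT0 (lk 24 e 4)) (lk 24 e 4)) (Nat.beq (actF WT0 (lk 24 e 5)) (lk 24 e 5)) false) false) false)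
        false) false

theorem cntAll : cntS fixAll = 1 := by decide +kernel

theorem fixAll_iff {e : ℕ} : fixAll e = true ↔ ∀ t ∈ sxFam e, t.image (pm T0) = t := by
  have key : ∀ j, Nat.beq (actF WT0 (lk 24 e j)) (lk 24 e j) = true ↔ (fs (lk 24 e j)).image (pm T0) = fs (lk 24 e j) := by
    intro j
    rw [okW_image okWT0 (lk24_lt _ _), Nat.beq_eq]
    constructor
    · intro h; rw [h]
    · intro h; exact fs_inj (actF_lt okWT0 (lk24_lt _ _)) (lk24_lt _ _) h
  unfold fixAll
  simp only [cond_and, key]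
  constructor
  · rintro ⟨h0, h1, h2, h3, h4, h5⟩ t ht
    obtain ⟨j, hj, rfl⟩ := mem_sxFam.1 ht
    interval_cases j
    exacts [h0, h1, h2, h3, h4, h5]
  · intro h
    exact ⟨h _ (mem_sxFam.2 ⟨0, by norm_num, rfl⟩), h _ (mem_sxFam.2 ⟨1, by norm_num, rfl⟩),
      h _ (mem_sxFam.2 ⟨2, by norm_num, rfl⟩), h _ (mem_sxFam.2 ⟨3, by norm_num, rfl⟩),
      h _ (mem_sxFam.2 ⟨4, by norm_num, rfl⟩), h _ (mem_sxFam.2 ⟨5, by norm_num, rfl⟩)⟩

/-- the sextet of `T0` -/
noncomputable abbrev U : Finset (Finset GolayPt) := sxFam (sxE 771)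

theorem U_mem : U ∈ sextets := (okSx_iff (sx_ok (i := 771) (by norm_num))).mem

theorem fixAll_U : fixAll (sxE 771) = true := by decide +kernel

theorem U_fix : ∀ t ∈ U, t.image (pm T0) = t := fixAll_iff.1 fixAll_U

theorem U_unique {S : Finset (Finset GolayPt)} (hS : S ∈ sextets) (h : ∀ t ∈ S, t.image (pm T0) = t) : S = U := by
  have h1 := ncard_sextets (fun S => ∀ t ∈ S, t.image (pm T0) = t) fixAll (fun e _ => fixAll_iff)
  rw [cntAll, Set.ncard_eq_one] at h1
  obtain ⟨V, hV⟩ := h1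
  have e1 : S ∈ ({V} : Set (Finset (Finset GolayPt))) := by rw [← hV]; exact ⟨hS, h⟩
  have e2 : U ∈ ({V} : Set (Finset (Finset GolayPt))) := by rw [← hV]; exact ⟨U_mem, U_fix⟩
  rw [Set.mem_singleton_iff] at e1 e2
  rw [e1, e2]

theorem C_U {g : Equiv.Perm GolayPt} (hg : g ∈ M24) (h : g * pm T0 = pm T0 * g) : g • U = U := by
  apply U_unique (smul_sextet hg U_mem)
  intro t ht
  obtain ⟨u, hu, rfl⟩ := mem_smul_fam.1 ht
  rw [← image_mul, ← h, image_mul, U_fix u hu]

theorem m0 : lk 24 (sxE 771) 0 = 0x824001 := by decide +kernel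

theorem t1_mem : fs 0x824001 ∈ U := by rw [← m0]; exact mem_sxFam.2 ⟨0, by norm_num, rfl⟩

theorem pt23_t1 : pt 23 ∈ fs 0x824001 := by rw [mem_fs, idx_pt 23 (by norm_num)]; decide

theorem C_t1 {g : Equiv.Perm GolayPt} (hg : g ∈ M24) (h : g * pm T0 = pm T0 * g) (h23 : g (pt 23) = pt 23) :
    (fs 0x824001).image g = fs 0x824001 := by
  have h1 : (fs 0x824001).image g ∈ U := by
    rw [← C_U hg h]; exact mem_smul_fam.2 ⟨_, t1_mem, rfl⟩
  have h2 : pt 23 ∈ (fs 0x824001).image g := by
    rw [← h23]; exact Finset.mem_image_of_mem _ pt23_t1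
  rw [(okSx_iff (sx_ok (show 771 < 1771 by norm_num))).unique h1 h2, m0]

theorem C_T0 {g : Equiv.Perm GolayPt} (h : g * pm T0 = pm T0 * g) {i j : ℕ} (hi : i < 24) (hij : tab T0 i = j)
    (hg : g (pt i) = pt i) : g (pt j) = pt j := by
  have h1 := congrArg (fun f : Equiv.Perm GolayPt => f (pt i)) h
  simp only [Equiv.Perm.mul_apply] at h1
  rwa [pm_pt okT0 i hi, hij, hg, pm_pt okT0 i hi, hij] at h1

/-! ### the chain -/

noncomputable abbrev H1 : Subgroup M24 := C ⊓ MulAction.stabilizer M24 (pt 23)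
noncomputable abbrev H2 : Subgroup M24 := H1 ⊓ MulAction.stabilizer M24 (pt 1)
noncomputable abbrev H3 : Subgroup M24 := H2 ⊓ MulAction.stabilizer M24 (pt 14)

theorem orbC : MulAction.orbit C (pt 23) = Set.univ := by
  rw [Set.eq_univ_iff_forall]
  intro q
  have h := List.all_eq_true.1 cert1 (idx q) (List.mem_range.2 (idx_lt q))
  rw [List.any_eq_true] at h
  obtain ⟨c, -, hc⟩ := h
  obtain ⟨h1, -, h3⟩ := okMv_spec hc (by simp) (by norm_num)
  exact ⟨⟨_, h1⟩, by show pm c (pt 23) = q; rw [h3, pt_idx]⟩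

theorem orb1 : MulAction.orbit H1 (pt 1) = {p | p ∉ fs 0x824001} := by
  ext q
  constructor
  · rintro ⟨g, rfl⟩ hq
    have hgC := mem_C.1 g.2.1
    have h1 := C_t1 (g : M24).2 hgC g.2.2
    rw [← h1, Finset.mem_image] at hq
    obtain ⟨p, hp, hpq⟩ := hq
    have : p = pt 1 := (g : M24).1.injective hpq
    rw [this, mem_fs, idx_pt 1 (by norm_num)] at hp
    exact absurd hp (by decide)
  · intro hq
    have h := List.all_eq_true.1 cert2 (idx q) (List.mem_range.2 (idx_lt q))
    have hq' : Nat.testBit 0x824001 (idx q) = false := by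
      have : q ∉ fs 0x824001 := hq
      rw [mem_fs] at this
      simpa using this
    rw [hq', Bool.false_or, List.any_eq_true] at h
    obtain ⟨c, -, hc⟩ := h
    obtain ⟨h1, h2, h3⟩ := okMv_spec hc (by simp) (by norm_num)
    exact ⟨⟨_, h1, h2 23 (by simp)⟩, by show pm c (pt 1) = q; rw [h3, pt_idx]⟩

theorem orb2 : MulAction.orbit H2 (pt 14) = {pt 14, pt 17} := by
  ext q
  constructor
  · rintro ⟨g, rfl⟩
    have hgC := mem_C.1 g.2.1.1
    have g23 : (g : M24).1 (pt 23) = pt 23 := g.2.1.2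
    have h1 := C_t1 (g : M24).2 hgC g23
    have g0 := C_T0 hgC (i := 23) (j := 0) (by norm_num) (by decide +kernel) g23
    have h2 : (g : M24).1 (pt 14) ∈ fs 0x824001 := by
      rw [← h1]
      apply Finset.mem_image_of_mem
      rw [mem_fs, idx_pt 14 (by norm_num)]; decide
    have n23 : (g : M24).1 (pt 14) ≠ pt 23 := by
      intro h; rw [← g23] at h
      have := congrArg idx ((g : M24).1.injective h)
      rw [idx_pt 14 (by norm_num), idx_pt 23 (by norm_num)] at this
      omega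
    have n0 : (g : M24).1 (pt 14) ≠ pt 0 := by
      intro h; rw [← g0] at h
      have := congrArg idx ((g : M24).1.injective h)
      rw [idx_pt 14 (by norm_num), idx_pt 0 (by norm_num)] at this
      omega
    have key : ∀ i < 24, Nat.testBit 0x824001 i = true → i = 23 ∨ i = 0 ∨ i = 14 ∨ i = 17 := by decide
    have h3 := key _ (idx_lt _) (mem_fs.1 h2)
    show (g : M24).1 (pt 14) ∈ ({pt 14, pt 17} : Set GolayPt)
    rcases h3 with h3 | h3 | h3 | h3
    · exact absurd ((pt_idx ((g : M24).1 (pt 14))).symm.trans (congrArg pt h3)) n23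
    · exact absurd ((pt_idx ((g : M24).1 (pt 14))).symm.trans (congrArg pt h3)) n0
    · left
      exact (pt_idx ((g : M24).1 (pt 14))).symm.trans (congrArg pt h3)
    · right
      exact (pt_idx ((g : M24).1 (pt 14))).symm.trans (congrArg pt h3)
  · intro hq
    have hq' : idx q ∈ [14, 17] := by
      rcases hq with rfl | hq
      · rw [idx_pt 14 (by norm_num)]; simp
      · rw [show q = pt 17 from hq, idx_pt 17 (by norm_num)]; simp
    have h := List.all_eq_true.1 cert3 (idx q) hq'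
    rw [List.any_eq_true] at h
    obtain ⟨c, -, hc⟩ := h
    obtain ⟨h1, h2, h3⟩ := okMv_spec hc (by simp) (by norm_num)
    exact ⟨⟨_, ⟨h1, h2 23 (by simp)⟩, h2 1 (by simp)⟩, by show pm c (pt 14) = q; rw [h3, pt_idx]⟩

theorem H3_fix {g : M24} (hg : g ∈ H3) : ∀ p ∈ fs 0x82402f, g.1 p = p := by
  have hgC := mem_C.1 hg.1.1.1
  have g23 : g.1 (pt 23) = pt 23 := hg.1.1.2
  have g1 : g.1 (pt 1) = pt 1 := hg.1.2
  have g14 : g.1 (pt 14) = pt 14 := hg.2
  have g0 := C_T0 hgC (i := 23) (j := 0) (by norm_num) (by decide +kernel) g23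
  have g2 := C_T0 hgC (i := 1) (j := 2) (by norm_num) (by decide +kernel) g1
  have g17 := C_T0 hgC (i := 14) (j := 17) (by norm_num) (by decide +kernel) g14
  apply H94.M24Pair.fix6 g.2 (E := fs 0x824007) ?_ (isOct_spec (by decide +kernel)).2
  · intro p hp
    rw [mem_fs] at hp ⊢
    have : ∀ i < 24, Nat.testBit 0x824007 i = true → Nat.testBit 0x82402f i = true := by decide
    exact this _ (idx_lt p) hp
  · intro p hp
    rw [mem_fs] at hp
    have : ∀ i < 24, Nat.testBit 0x824007 i = true → i = 23 ∨ i = 0 ∨ i = 1 ∨ i = 2 ∨ i = 14 ∨ i = 17 := by decide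
    rcases this _ (idx_lt p) hp with h | h | h | h | h | h <;>
    · rw [← pt_idx p, h]; assumption
  · rw [card_fs (by norm_num)]; decide +kernel

theorem orb3 : MulAction.orbit H3 (pt 4) = pt '' {i | i ∈ [4, 8, 11, 12, 13, 16, 18, 22]} := by
  ext q
  constructor
  · rintro ⟨g, rfl⟩
    have hfix := H3_fix g.2
    have hgC := mem_C.1 g.2.1.1.1
    have h4 : pt 4 ∉ fs 0x82402f := by rw [mem_fs, idx_pt 4 (by norm_num)]; decide
    have hq : (g : M24).1 (pt 4) ∉ fs 0x82402f := by
      intro h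
      have := hfix _ h
      have := (g : M24).1.injective this
      rw [this] at h
      exact h4 h
    have h := List.all_eq_true.1 cert5 (idx ((g : M24).1 (pt 4))) (List.mem_range.2 (idx_lt _))
    have hq' : Nat.testBit 0x82402f (idx ((g : M24).1 (pt 4))) = false := by
      rw [mem_fs] at hq
      simpa using hq
    rw [hq', Bool.false_or, Bool.or_eq_true] at h
    rcases h with h | h
    · refine ⟨idx ((g : M24).1 (pt 4)), by simpa using h, pt_idx _⟩
    · exfalso
      rw [List.any_eq_true] at h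
      obtain ⟨c, -, hc⟩ := h
      simp only [Bool.and_eq_true] at hc
      obtain ⟨⟨⟨k1, k2⟩, k3⟩, k4⟩ := hc
      rw [List.all_eq_true] at k2
      have heq : (g : M24).1 = pm c := by
        apply H94.M24Pair.eq_of_octad (g : M24).2 (pm_mem c) (isOct_spec (m := 0x82402f) (by decide +kernel)).2 h4
        · intro x hx
          rw [hfix x hx]
          have := k2 (idx x) (List.mem_range.2 (idx_lt x))
          rw [mem_fs] at hx
          rw [hx, Bool.not_true, Bool.false_or] at this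
          apply idx_injective
          rw [pm_idx k1, Nat.eq_of_beq_eq_true this]
        · apply idx_injective
          rw [pm_idx k1, idx_pt 4 (by norm_num), Nat.eq_of_beq_eq_true k3]
      rw [heq] at hgC
      have : ((List.range 24).all fun i => Nat.beq (tab c (tab T0 i)) (tab T0 (tab c i))) = true := by
        rw [List.all_eq_true]
        intro i hi
        rw [List.mem_range] at hi
        have h5 := congrArg (fun f : Equiv.Perm GolayPt => idx (f (pt i))) hgC
        simp only [Equiv.Perm.mul_apply] at h5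
        rw [pm_idx k1, pm_idx okT0, pm_idx okT0, pm_idx k1, idx_pt i hi] at h5
        rw [h5]; simp
      rw [this] at k4
      exact absurd k4 (by simp)
  · rintro ⟨i, hi, rfl⟩
    have h := List.all_eq_true.1 cert4 i hi
    rw [List.any_eq_true] at h
    obtain ⟨c, -, hc⟩ := h
    obtain ⟨h1, h2, h3⟩ := okMv_spec hc (by simp) (by norm_num)
    exact ⟨⟨_, ⟨⟨h1, h2 23 (by simp)⟩, h2 1 (by simp)⟩, h2 14 (by simp)⟩, by show pm c (pt 4) = pt i; rw [h3]⟩

theorem bot4 : H3 ⊓ MulAction.stabilizer M24 (pt 4) = ⊥ := by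
  rw [eq_bot_iff]
  intro g hg
  rw [Subgroup.mem_bot]
  apply Subtype.ext
  exact H32.OctadStab.fix_eq_one (isOct_spec (m := 0x82402f) (by decide +kernel)).2
    (p := pt 4) (by rw [mem_fs, idx_pt 4 (by norm_num)]; decide) g.2 (H3_fix hg.1) hg.2

theorem pt_injOn {s : Set ℕ} (hs : ∀ i ∈ s, i < 24) : Set.InjOn pt s := by
  intro i hi j hj h
  rw [← idx_pt i (hs i hi), ← idx_pt j (hs j hj), h]

/-- the centraliser of `T0` in `M24` has order 7680 -/
theorem card_C : Nat.card C = 7680 := by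
  have h0 := H94.M24Pair.card_inf_stab C (pt 23)
  have h1 := H94.M24Pair.card_inf_stab H1 (pt 1)
  have h2 := H94.M24Pair.card_inf_stab H2 (pt 14)
  have h3 := H94.M24Pair.card_inf_stab H3 (pt 4)
  have e0 : Nat.card GolayPt = 24 := by rw [Nat.card_eq_fintype_card, card_pt]
  rw [orbC, Set.ncard_univ, e0] at h0
  rw [orb1] at h1
  have e1 : {p | p ∉ fs 0x824001}.ncard = 20 := by
    have : {p | p ∉ fs 0x824001} = (((fs 0x824001)ᶜ : Finset GolayPt) : Set GolayPt) := by
      ext p; simp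
    rw [this, Set.ncard_coe_finset, Finset.card_compl, card_pt, card_fs (by norm_num)]
    decide +kernel
  rw [e1] at h1
  have e2 : ({pt 14, pt 17} : Set GolayPt).ncard = 2 := by
    apply Set.ncard_pair
    intro h
    have := congrArg idx h
    rw [idx_pt 14 (by norm_num), idx_pt 17 (by norm_num)] at this
    omega
  rw [orb2, e2] at h2
  have e3 : (pt '' {i | i ∈ [4, 8, 11, 12, 13, 16, 18, 22]}).ncard = 8 := by
    rw [(pt_injOn (s := {i | i ∈ [4, 8, 11, 12, 13, 16, 18, 22]}) (by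
      intro i hi
      have : ∀ i ∈ [4, 8, 11, 12, 13, 16, 18, 22], i < 24 := by decide
      exact this i hi)).ncard_image]
    have : {i | i ∈ [4, 8, 11, 12, 13, 16, 18, 22]} = ((({4, 8, 11, 12, 13, 16, 18, 22} : Finset ℕ)) : Set ℕ) := by
      ext i; simp
    rw [this, Set.ncard_coe_finset]
    decide
  rw [orb3, e3, bot4, Subgroup.card_bot] at h3
  have f2 : Nat.card H2 = 16 := by rw [← h2, ← h3]
  have f1 : Nat.card H1 = 320 := by rw [← h1, f2]
  rw [← h0, f1]

theorem card_C' : Nat.card {c : Equiv.Perm GolayPt // c ∈ M24 ∧ c * pm T0 = pm T0 * c} = 7680 := by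
  rw [← card_C]
  exact Nat.card_congr ⟨fun c => ⟨⟨c.1, c.2.1⟩, mem_C.2 c.2.2⟩, fun c => ⟨c.1.1, c.1.2, mem_C.1 c.2⟩,
    fun _ => rfl, fun _ => rfl⟩

theorem okTH : okMv [] 0 (tab TH 0) TH = true := by decide +kernel
theorem okTH3 : okOrd3 TH = true := by decide +kernel
theorem fixTH : ((Finset.range 24).filter fun i => tab TH i = i).card = 0 := by decide +kernel

end H94.M24Inv
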