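import Cfsg.Agent.Lib.H94.M24Lists
import Cfsg.Agent.Lib.H94.M24Pair
import Cfsg.Agent.Lib.H32.SextetStab

/-!
Orbits of `M24` on pairs of objects from explicit spanning forests of the second kind of objects.
-/

set_option autoImplicit false

namespace H94.M24Forest

open Cfsg H8.GolayCode H8.GolayCount H8.GolayBasic H8.M24Mem H8.M24Trans H32.M24Kit H32.Sextet H32.Octad H94.M24Fast
  H94.M24Lists
open scoped Pointwise

/-! ### pairs -/

section Pairs
variable {G X Y : Type*} [Group G] [MulAction G X] [MulAction G Y]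

/-- the group is transitive on the pairs with a given value of the invariant -/
structure PairTrans (G : Type*) {X Y : Type*} [Group G] [MulAction G X] [MulAction G Y] (SX : Set X) (SY : Set Y)
    (J : X → Y → ℕ) : Prop where
  invX : ∀ (g : G), ∀ x ∈ SX, g • x ∈ SX
  invY : ∀ (g : G), ∀ y ∈ SY, g • y ∈ SY
  inv : ∀ (g : G) x y, J (g • x) (g • y) = J x y
  trans : ∀ x ∈ SX, ∀ y ∈ SY, ∀ x' ∈ SX, ∀ y' ∈ SY, J x y = J x' y' → ∃ g : G, g • x = x' ∧ g • y = y'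

theorem pairTrans_of {SX : Set X} {SY : Set Y} {J : X → Y → ℕ} (invX : ∀ (g : G), ∀ x ∈ SX, g • x ∈ SX)
    (invY : ∀ (g : G), ∀ y ∈ SY, g • y ∈ SY) (inv : ∀ (g : G) x y, J (g • x) (g • y) = J x y)
    (x0 : X) (hX : ∀ x ∈ SX, ∃ g : G, g • x = x0) (k : ℕ) (R : ℕ → Y) (c : ℕ → ℕ)
    (hc : ∀ r < k, J x0 (R r) = c r) (hinj : ∀ r < k, ∀ r' < k, c r = c r' → r = r')
    (hY : ∀ y ∈ SY, ∃ r < k, ∃ g : G, g • x0 = x0 ∧ g • R r = y) : PairTrans G SX SY J := by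
  refine ⟨invX, invY, inv, ?_⟩
  have key : ∀ x ∈ SX, ∀ y ∈ SY, ∃ r < k, ∃ g : G, g • x = x0 ∧ g • y = R r := by
    intro x hx y hy
    obtain ⟨g, hg⟩ := hX x hx
    obtain ⟨r, hr, f, hf, hfy⟩ := hY _ (invY g y hy)
    refine ⟨r, hr, f⁻¹ * g, ?_, ?_⟩
    · rw [mul_smul, hg, inv_smul_eq_iff, hf]
    · rw [mul_smul, inv_smul_eq_iff, hfy]
  intro x hx y hy x' hx' y' hy' h
  obtain ⟨r, hr, g, h1, h2⟩ := key x hx y hy
  obtain ⟨r', hr', g', h1', h2'⟩ := key x' hx' y' hy'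
  have : r = r' := by
    apply hinj r hr r' hr'
    rw [← hc r hr, ← hc r' hr', ← h2, ← h2', ← h1]
    conv_rhs => rw [h1, ← h1']
    rw [inv, inv, h]
  subst this
  refine ⟨g'⁻¹ * g, ?_, ?_⟩
  · rw [mul_smul, h1, inv_smul_eq_iff, h1']
  · rw [mul_smul, h2, inv_smul_eq_iff, h2']

theorem PairTrans.symm {SX : Set X} {SY : Set Y} {J : X → Y → ℕ} (h : PairTrans G SX SY J) :
    PairTrans G SY SX (fun y x => J x y) :=
  ⟨h.invY, h.invX, fun g y x => h.inv g x y, fun y hy x hx y' hy' x' hx' hh => by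
    obtain ⟨g, h1, h2⟩ := h.trans x hx y hy x' hx' y' hy' hh
    exact ⟨g, h2, h1⟩⟩

theorem PairTrans.orbit {SX : Set X} {SY : Set Y} {J : X → Y → ℕ} (h : PairTrans G SX SY J) {x : X} (hx : x ∈ SX)
    {y : Y} (hy : y ∈ SY) : MulAction.orbit (MulAction.stabilizer G x) y = {y' | y' ∈ SY ∧ J x y' = J x y} := by
  ext y'
  constructor
  · rintro ⟨g, rfl⟩
    have hg : (g : G) • x = x := g.2
    refine ⟨h.invY _ _ hy, ?_⟩
    show J x ((g : G) • y) = J x y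
    have h1 := h.inv (g : G) x y
    rwa [hg] at h1
  · rintro ⟨h1, h2⟩
    obtain ⟨g, h3, h4⟩ := h.trans x hx y hy x hx y' h1 h2.symm
    exact ⟨⟨g, h3⟩, h4⟩

theorem PairTrans.exists_of {SX : Set X} {SY : Set Y} {J : X → Y → ℕ} (h : PairTrans G SX SY J)
    (hX : ∀ x ∈ SX, ∀ x' ∈ SX, ∃ g : G, g • x = x')
    {x0 : X} {y0 : Y} (hx0 : x0 ∈ SX) (hy0 : y0 ∈ SY) {x : X} (hx : x ∈ SX) : ∃ y ∈ SY, J x y = J x0 y0 := by
  obtain ⟨g, rfl⟩ := hX x0 hx0 x hx
  exact ⟨g • y0, h.invY _ _ hy0, h.inv _ _ _⟩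

theorem PairTrans.ncard_eq {SX : Set X} {SY : Set Y} {J : X → Y → ℕ} (h : PairTrans G SX SY J)
    (hX : ∀ x ∈ SX, ∀ x' ∈ SX, ∃ g : G, g • x = x')
    {x0 x : X} (hx0 : x0 ∈ SX) (hx : x ∈ SX) (c : ℕ) : {y' | y' ∈ SY ∧ J x y' = c}.ncard =
      {y' | y' ∈ SY ∧ J x0 y' = c}.ncard := by
  obtain ⟨g, rfl⟩ := hX x0 hx0 x hx
  rw [← Set.ncard_image_of_injective {y' | y' ∈ SY ∧ J x0 y' = c} (MulAction.injective g)]
  congr 1
  ext y
  constructor
  · rintro ⟨h1, h2⟩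
    refine ⟨g⁻¹ • y, ⟨h.invY _ _ h1, ?_⟩, smul_inv_smul g y⟩
    rw [← h.inv g, smul_inv_smul, h2]
  · rintro ⟨z, ⟨h1, h2⟩, rfl⟩
    exact ⟨h.invY _ _ h1, by rw [h.inv]; exact h2⟩

/-- double counting -/
theorem double {x : X} {y : Y} [Finite G] :
    (MulAction.orbit (MulAction.stabilizer G x) y).ncard * (MulAction.orbit G x).ncard =
      (MulAction.orbit (MulAction.stabilizer G y) x).ncard * (MulAction.orbit G y).ncard := by
  have h1 := H94.M24Pair.card_inf_stab (MulAction.stabilizer G x) y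
  have h2 := H94.M24Pair.card_inf_stab (MulAction.stabilizer G y) x
  have h3 := (MulAction.stabilizer G x).card_mul_index
  have h4 := (MulAction.stabilizer G y).card_mul_index
  rw [MulAction.index_stabilizer] at h3 h4
  rw [inf_comm] at h2
  set a := Nat.card (MulAction.stabilizer G x ⊓ MulAction.stabilizer G y : Subgroup G) with ha
  have hpos : 0 < a := Nat.card_pos
  apply Nat.eq_of_mul_eq_mul_left hpos
  rw [← mul_assoc, ← mul_assoc, h1, h2, h3, h4]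

end Pairs

/-! ### forests -/

theorem forest {G Y : Type*} [Group G] [MulAction G Y] (H : Subgroup G) (N : ℕ) (F : ℕ → Y) (dep rt R : ℕ → ℕ)
    (h : ∀ i < N, i = R (rt i) ∨ ∃ p < N, dep p < dep i ∧ rt p = rt i ∧ ∃ g ∈ H, F i = g • F p) :
    ∀ i < N, ∃ g ∈ H, F i = g • F (R (rt i)) := by
  have key : ∀ n, ∀ i < N, dep i ≤ n → ∃ g ∈ H, F i = g • F (R (rt i)) := by
    intro n
    induction n with
    | zero =>
      intro i hi hd
      rcases h i hi with h1 | ⟨p, hp, h1, h2, g, hg, h3⟩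
      · exact ⟨1, H.one_mem, by rw [one_smul, ← h1]⟩
      · omega
    | succ n ih =>
      intro i hi hd
      rcases h i hi with h1 | ⟨p, hp, h1, h2, g, hg, h3⟩
      · exact ⟨1, H.one_mem, by rw [one_smul, ← h1]⟩
      · obtain ⟨f, hf, h4⟩ := ih p hp (by omega)
        exact ⟨g * f, H.mul_mem hg hf, by rw [mul_smul, h3, h4, h2]⟩
  intro i hi
  exact key _ i hi le_rfl

/-! ### data layout: depth (bits 0-4), generator (5-6), direction (7), parent (8-19), root (20-23) -/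

def pd (P i : ℕ) : ℕ := lk 24 P i
def dDep (d : ℕ) : ℕ := Nat.land d 31
def dGen (d : ℕ) : ℕ := Nat.land (Nat.shiftRight d 5) 3
def dDir (d : ℕ) : ℕ := Nat.land (Nat.shiftRight d 7) 1
def dPar (d : ℕ) : ℕ := Nat.land (Nat.shiftRight d 8) 4095
def dRt (d : ℕ) : ℕ := Nat.shiftRight d 20

/-- check of one entry of a forest: `E W p i` tests that the element with action table `W` maps the
object number `p` to the object number `i` -/
def okNode (E : ℕ → ℕ → ℕ → Bool) (N : ℕ) (P WW RT : ℕ) (i : ℕ) : Bool :=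
  cond (Nat.beq (dDep (pd P i)) 0) (Nat.beq i (lk 12 RT (dRt (pd P i))))
    (cond (Nat.blt (dPar (pd P i)) N)
      (cond (Nat.blt (dDep (pd P (dPar (pd P i)))) (dDep (pd P i)))
        (cond (Nat.beq (dRt (pd P (dPar (pd P i)))) (dRt (pd P i)))
          (cond (Nat.beq (dDir (pd P i)) 0)
            (E (lk 18432 WW (dGen (pd P i))) (dPar (pd P i)) i)
            (E (lk 18432 WW (dGen (pd P i))) i (dPar (pd P i))))
          false) false) false)

theorem okNode_spec {E : ℕ → ℕ → ℕ → Bool} {N P WW RT i : ℕ} (h : okNode E N P WW RT i = true) :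
    i = lk 12 RT (dRt (pd P i)) ∨ ∃ p < N, dDep (pd P p) < dDep (pd P i) ∧ dRt (pd P p) = dRt (pd P i) ∧
      ∃ j < 4, E (lk 18432 WW j) p i = true ∨ E (lk 18432 WW j) i p = true := by
  unfold okNode at h
  cases h1 : Nat.beq (dDep (pd P i)) 0
  · rw [h1, cond_false] at h
    right
    simp only [cond_and] at h
    obtain ⟨h2, h3, h4, h5⟩ := h
    rw [Nat.blt_eq] at h2 h3
    refine ⟨_, h2, h3, Nat.eq_of_beq_eq_true h4, dGen (pd P i), ?_, ?_⟩
    · exact lt_of_le_of_lt Nat.and_le_right (by norm_num)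
    · cases h6 : Nat.beq (dDir (pd P i)) 0
      · rw [h6, cond_false] at h5; exact Or.inr h5
      · rw [h6, cond_true] at h5; exact Or.inl h5
  · rw [h1, cond_true] at h
    exact Or.inl (Nat.eq_of_beq_eq_true h)

/-- the forest principle for `M24` -/
theorem forest_of {Y : Type*} [MulAction M24 Y] (H : Subgroup M24) (N : ℕ) (F : ℕ → Y)
    (E : ℕ → ℕ → ℕ → Bool) (P WW RT D : ℕ) (hN : N ≤ 2 ^ D)
    (hg : ∀ j < 4, ∃ g ∈ H, ∀ p < N, ∀ i < N, E (lk 18432 WW j) p i = true → F i = g • F p)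
    (hcheck : allT (fun i => cond (Nat.blt i N) (okNode E N P WW RT i) true) D 0 = true) :
    ∀ i < N, ∃ g ∈ H, F i = g • F (lk 12 RT (dRt (pd P i))) := by
  apply forest H N F (fun i => dDep (pd P i)) (fun i => dRt (pd P i)) (fun r => lk 12 RT r)
  intro i hi
  have h1 := allT_spec _ D 0 hcheck i (by omega)
  rw [zero_add, show Nat.blt i N = true by simpa [Nat.blt_eq] using hi, cond_true] at h1
  rcases okNode_spec h1 with h2 | ⟨p, hp, h2, h3, j, hj, h4⟩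
  · exact Or.inl h2
  · right
    refine ⟨p, hp, h2, h3, ?_⟩
    obtain ⟨g, hgH, hgE⟩ := hg j hj
    rcases h4 with h4 | h4
    · exact ⟨g, hgH, hgE p hp i hi h4⟩
    · refine ⟨g⁻¹, H.inv_mem hgH, ?_⟩
      rw [hgE i hi p hp h4, inv_smul_smul]

/-- number of entries with root `r` -/
def cntR (N D P r : ℕ) : ℕ := cntT (fun i => cond (Nat.blt i N) (Nat.beq (dRt (pd P i)) r) false) D 0

theorem ncard_root {Y : Type*} (N : ℕ) (F : ℕ → Y) (P D r : ℕ) (hN : N ≤ 2 ^ D)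
    (hinj : Set.InjOn F (Finset.range N : Set ℕ)) :
    {y | ∃ i < N, F i = y ∧ dRt (pd P i) = r}.ncard = cntR N D P r := by
  classical
  have h1 : {y | ∃ i < N, F i = y ∧ dRt (pd P i) = r} =
      F '' (((Finset.range N).filter fun i => dRt (pd P i) = r : Finset ℕ) : Set ℕ) := by
    ext y
    simp only [Set.mem_ofPred_eq, Set.mem_image, Finset.coe_filter, Finset.mem_range]
    constructor
    · rintro ⟨i, hi, h, h'⟩; exact ⟨i, ⟨hi, h'⟩, h⟩
    · rintro ⟨i, ⟨hi, h'⟩, h⟩; exact ⟨i, hi, h, h'⟩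
  rw [h1, Set.InjOn.ncard_image, Set.ncard_coe_finset, cntR, cntT_eq]
  · refine congrArg Finset.card (Finset.ext fun i => ?_)
    simp only [Finset.mem_filter, Finset.mem_range, zero_add, cond_and, Nat.blt_eq, Nat.beq_eq]
    constructor
    · rintro ⟨h2, h3⟩
      exact ⟨by omega, h2, h3⟩
    · rintro ⟨_, h2, h3⟩
      exact ⟨h2, h3⟩
  · apply hinj.mono
    intro i hi
    simp only [Finset.coe_filter, Set.mem_ofPred_eq] at hi
    exact hi.1

/-! ### edges -/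

/-- the element with action table `W` maps sextet number `p` to sextet number `i` -/
def eS (W p i : ℕ) : Bool := memS (actF W (lk 24 (sxE p) 0)) (sxE i)

/-- the element with action table `W` maps trio number `p` to trio number `i` -/
def eT (W p i : ℕ) : Bool :=
  cond (memT (actF W (lk 24 (trE p) 0)) (trE i)) (memT (actF W (lk 24 (trE p) 1)) (trE i)) false

theorem eS_spec {c W p i : ℕ} (h : okW c W = true) (hp : p < 1771) (hi : i < 1771) (he : eS W p i = true) :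
    sxFam (sxE i) = (⟨pm c, pm_mem c⟩ : M24) • sxFam (sxE p) := by
  unfold eS at he
  rw [memS_iff (actF_lt h (lk24_lt _ _)), ← okW_image h (lk24_lt _ _)] at he
  have h1 := okSx_iff (sx_ok hp)
  have h2 := okSx_iff (sx_ok hi)
  have h3 : (fs (lk 24 (sxE p) 0)).image (pm c) ∈ pm c • sxFam (sxE p) :=
    mem_smul_fam.2 ⟨_, mem_sxFam.2 ⟨0, by norm_num, rfl⟩, rfl⟩
  show _ = pm c • sxFam (sxE p)
  rw [H32.Sextet.eq_sx (smul_sextet (pm_mem c) h1.mem) h3, ← H32.Sextet.eq_sx h2.mem he]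

theorem eT_spec {c W p i : ℕ} (h : okW c W = true) (hp : p < 3795) (hi : i < 3795) (he : eT W p i = true) :
    trFam (trE i) = (⟨pm c, pm_mem c⟩ : M24) • trFam (trE p) := by
  unfold eT at he
  rw [cond_and, memT_iff (actF_lt h (lk24_lt _ _)), memT_iff (actF_lt h (lk24_lt _ _)), ← okW_image h (lk24_lt _ _),
    ← okW_image h (lk24_lt _ _)] at he
  have h1 := okTr_iff (tr_ok hp)
  have h2 := okTr_iff (tr_ok hi)
  have h3 : (fs (lk 24 (trE p) 0)).image (pm c) ∈ pm c • trFam (trE p) :=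
    mem_smul_fam.2 ⟨_, mem_trFam.2 (Or.inr (Or.inl rfl)), rfl⟩
  have h4 : (fs (lk 24 (trE p) 1)).image (pm c) ∈ pm c • trFam (trE p) :=
    mem_smul_fam.2 ⟨_, mem_trFam.2 (Or.inl rfl), rfl⟩
  have hne : (fs (lk 24 (trE p) 0)).image (pm c) ≠ (fs (lk 24 (trE p) 1)).image (pm c) := by
    intro h'
    have := fs_inj (lk24_lt _ _) (lk24_lt _ _) (Finset.image_injective (pm c).injective h')
    have := h1.l1
    omega
  show _ = pm c • trFam (trE p)
  rw [H32.Octad.eq_trio (smul_trio (pm_mem c) h1.mem) h3 h4 hne, ← H32.Octad.eq_trio h2.mem he.1 he.2 hne]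

/-! ### the invariants -/

/-- sum of `φ` of the sizes of the intersections -/
def J1 (φ : ℕ → ℕ) (x : Finset GolayPt) (y : Finset (Finset GolayPt)) : ℕ := ∑ t ∈ y, φ (x ∩ t).card

def J2 (φ : ℕ → ℕ) (x y : Finset (Finset GolayPt)) : ℕ := ∑ a ∈ x, J1 φ a y

theorem smul_fam_eq (g : M24) (y : Finset (Finset GolayPt)) : g • y = y.image (fun t => g • t) := rfl

theorem J1_inv (φ : ℕ → ℕ) (g : M24) (x : Finset GolayPt) (y : Finset (Finset GolayPt)) :
    J1 φ (g • x) (g • y) = J1 φ x y := by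
  unfold J1
  rw [smul_fam_eq, Finset.sum_image (fun a _ b _ h => MulAction.injective g h)]
  apply Finset.sum_congr rfl
  intro t _
  rw [← Finset.smul_finset_inter, Finset.card_smul_finset]

theorem J2_inv (φ : ℕ → ℕ) (g : M24) (x y : Finset (Finset GolayPt)) : J2 φ (g • x) (g • y) = J2 φ x y := by
  unfold J2
  rw [smul_fam_eq g x, Finset.sum_image (fun a _ b _ h => MulAction.injective g h)]
  apply Finset.sum_congr rfl
  intro t _
  exact J1_inv φ g t y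

theorem sum_sxFam {e : ℕ} (he : OkSx e) (f : Finset GolayPt → ℕ) :
    ∑ t ∈ sxFam e, f t = ∑ j ∈ Finset.range 6, f (fs (lk 24 e j)) := by
  rw [sxFam, Finset.sum_image]
  intro i hi j hj hij
  rw [Finset.mem_coe, Finset.mem_range] at hi hj
  exact he.inj i hi j hj (fs_inj (lk24_lt _ _) (lk24_lt _ _) hij)

theorem sum_trFam {e : ℕ} (he : OkTr e) (f : Finset GolayPt → ℕ) :
    ∑ t ∈ trFam e, f t = f (fs (lk 24 e 1)) + (f (fs (lk 24 e 0)) + f (fs (thd e))) := by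
  have h1 := he.l1
  have h2 := he.l2
  have n1 : fs (lk 24 e 1) ∉ ({fs (lk 24 e 0), fs (thd e)} : Finset (Finset GolayPt)) := by
    rw [Finset.mem_insert, Finset.mem_singleton]
    rintro (h | h)
    · have := fs_inj (lk24_lt _ _) (lk24_lt _ _) h; omega
    · have := fs_inj (lk24_lt _ _) (thd_lt _) h; omega
  have n2 : fs (lk 24 e 0) ∉ ({fs (thd e)} : Finset (Finset GolayPt)) := by
    rw [Finset.mem_singleton]
    intro h
    have := fs_inj (lk24_lt _ _) (thd_lt _) h; omega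
  rw [trFam, Finset.sum_insert n1, Finset.sum_insert n2, Finset.sum_singleton]

theorem card_fs_inter {m n : ℕ} (hm : m < 2 ^ 24) : (fs m ∩ fs n).card = pop (m &&& n) := by
  rw [fs_inter, card_fs (lt_of_le_of_lt Nat.and_le_left hm)]

theorem J1_sx {e : ℕ} (he : OkSx e) (φ : ℕ → ℕ) {m : ℕ} (hm : m < 2 ^ 24) :
    J1 φ (fs m) (sxFam e) = ∑ j ∈ Finset.range 6, φ (pop (m &&& lk 24 e j)) := by
  unfold J1
  rw [sum_sxFam he]
  apply Finset.sum_congr rfl
  intro j _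
  rw [card_fs_inter hm]

theorem J1_tr {e : ℕ} (he : OkTr e) (φ : ℕ → ℕ) {m : ℕ} (hm : m < 2 ^ 24) :
    J1 φ (fs m) (trFam e) = φ (pop (m &&& lk 24 e 1)) + (φ (pop (m &&& lk 24 e 0)) + φ (pop (m &&& thd e))) := by
  unfold J1
  rw [sum_trFam he, card_fs_inter hm, card_fs_inter hm, card_fs_inter hm]

/-! ### transitivity of `M24` -/

theorem octads_trans : ∀ o ∈ octads, ∀ o' ∈ octads, ∃ g : M24, g • o = o' := by
  intro o ho o' ho'
  obtain ⟨g, hg, h⟩ := octad_trans ho ho'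
  exact ⟨⟨g, hg⟩, h⟩

theorem invOct (g : M24) : ∀ o ∈ octads, g • o ∈ octads := fun _ ho => (H32.Octad.image_mem_octads g.2).2 ho
theorem invSx (g : M24) : ∀ S ∈ sextets, g • S ∈ sextets := fun _ hS => smul_sextet g.2 hS
theorem invTr (g : M24) : ∀ S ∈ trios, g • S ∈ trios := fun _ hS => smul_trio g.2 hS

theorem sextets_trans : ∀ S ∈ sextets, ∀ S' ∈ sextets, ∃ g : M24, g • S = S' := by
  intro S hS S' hS'
  obtain ⟨g, hg, h⟩ := H32.SextetStab.trans_sextets hS hS'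
  exact ⟨⟨g, hg⟩, h⟩

theorem trios_trans : ∀ T ∈ trios, ∀ T' ∈ trios, ∃ g : M24, g • T = T' := by
  have h2 : ∀ T ∈ trios, ∃ a ∈ T, ∃ b ∈ T, a ≠ b := fun T hT =>
    Finset.one_lt_card.1 (by rw [hT.1]; norm_num)
  intro T hT T' hT'
  obtain ⟨a, ha, b, hb, hab⟩ := h2 T hT
  obtain ⟨a', ha', b', hb', hab'⟩ := h2 T' hT'
  have d1 := hT.2.2 a ha b hb hab
  have d2 := hT'.2.2 a' ha' b' hb' hab'
  rw [Finset.disjoint_iff_inter_eq_empty] at d1 d2
  obtain ⟨g, hg, h1, h3⟩ := H32.OctadOrb.octad_pair_trans' (hT.2.1 a ha) (hT.2.1 b hb) (hT'.2.1 a' ha') (hT'.2.1 b' hb')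
    (by rw [d1, d2])
  refine ⟨⟨g, hg⟩, ?_⟩
  have e1 : a.image g ∈ g • T := mem_smul_fam.2 ⟨a, ha, rfl⟩
  have e2 : b.image g ∈ g • T := mem_smul_fam.2 ⟨b, hb, rfl⟩
  have hne : a.image g ≠ b.image g := fun h => hab (Finset.image_injective g.injective h)
  show g • T = T'
  rw [H32.Octad.eq_trio (smul_trio hg hT) e1 e2 hne, h1, h3, ← H32.Octad.eq_trio hT' ha' hb' hab']

/-! ### assembling -/

/-- a verified forest: objects `F i` (`i < N`) of the set `SY`, rooted at `RT r` (`r < k`) -/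
structure Verified {X Y : Type*} [MulAction M24 X] [MulAction M24 Y] (x0 : X) (SY : Set Y) (J : X → Y → ℕ)
    (N k : ℕ) (F : ℕ → Y) (rt R c : ℕ → ℕ) : Prop where
  mem : ∀ i < N, F i ∈ SY
  all : ∀ y ∈ SY, ∃ i < N, y = F i
  inj : Set.InjOn F (Finset.range N : Set ℕ)
  rt_lt : ∀ i < N, rt i < k
  R_lt : ∀ r < k, R r < N
  red : ∀ i < N, ∃ g : M24, g • x0 = x0 ∧ F i = g • F (R (rt i))
  Jinv : ∀ (g : M24) x y, J (g • x) (g • y) = J x y
  val : ∀ r < k, J x0 (F (R r)) = c r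
  cinj : ∀ r < k, ∀ r' < k, c r = c r' → r = r'

variable {X Y : Type*} [MulAction M24 X] [MulAction M24 Y] {x0 : X} {SX : Set X} {SY : Set Y} {J : X → Y → ℕ}
  {N k : ℕ} {F : ℕ → Y} {rt R c : ℕ → ℕ}

theorem Verified.J_eq (h : Verified x0 SY J N k F rt R c) {i : ℕ} (hi : i < N) : J x0 (F i) = c (rt i) := by
  obtain ⟨g, hg, h1⟩ := h.red i hi
  rw [h1, ← h.val _ (h.rt_lt i hi)]
  have := h.Jinv g x0 (F (R (rt i)))
  rwa [hg] at this

theorem Verified.pairTrans (h : Verified x0 SY J N k F rt R c) (invX : ∀ (g : M24), ∀ x ∈ SX, g • x ∈ SX)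
    (invY : ∀ (g : M24), ∀ y ∈ SY, g • y ∈ SY) (hX : ∀ x ∈ SX, ∃ g : M24, g • x = x0) :
    PairTrans M24 SX SY J := by
  apply pairTrans_of invX invY h.Jinv x0 hX k (fun r => F (R r)) c h.val h.cinj
  intro y hy
  obtain ⟨i, hi, rfl⟩ := h.all y hy
  obtain ⟨g, hg, h1⟩ := h.red i hi
  exact ⟨rt i, h.rt_lt i hi, g, hg, h1.symm⟩

theorem Verified.ncard (h : Verified x0 SY J N k F rt R c) {r : ℕ} (hr : r < k) :
    {y | y ∈ SY ∧ J x0 y = c r}.ncard = {y | ∃ i < N, F i = y ∧ rt i = r}.ncard := by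
  congr 1
  ext y
  constructor
  · rintro ⟨h1, h2⟩
    obtain ⟨i, hi, rfl⟩ := h.all y h1
    rw [h.J_eq hi] at h2
    exact ⟨i, hi, rfl, h.cinj _ (h.rt_lt i hi) _ hr h2⟩
  · rintro ⟨i, hi, rfl, rfl⟩
    exact ⟨h.mem i hi, h.J_eq hi⟩

theorem Verified.right (h : Verified x0 SY J N k F rt R c) (invX : ∀ (g : M24), ∀ x ∈ SX, g • x ∈ SX)
    (invY : ∀ (g : M24), ∀ y ∈ SY, g • y ∈ SY) (hX : ∀ x ∈ SX, ∃ g : M24, g • x = x0) {x : X} (hx : x ∈ SX) :
    (∀ r < k, ∃ y ∈ SY, MulAction.orbit (MulAction.stabilizer M24 x) y = {y' | y' ∈ SY ∧ J x y' = c r} ∧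
      (MulAction.orbit (MulAction.stabilizer M24 x) y).ncard = {y | ∃ i < N, F i = y ∧ rt i = r}.ncard) ∧
      ∀ y ∈ SY, ∃ r < k, J x y = c r := by
  have hP := h.pairTrans invX invY hX
  obtain ⟨g, hg⟩ := hX x hx
  have hx' : x = g⁻¹ • x0 := by rw [← hg, inv_smul_smul]
  have hx0 : x0 ∈ SX := by rw [← hg]; exact invX g x hx
  have hX' : ∀ x ∈ SX, ∀ x' ∈ SX, ∃ g : M24, g • x = x' := by
    intro x hx x' hx'
    obtain ⟨a, ha⟩ := hX x hx
    obtain ⟨b, hb⟩ := hX x' hx'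
    exact ⟨b⁻¹ * a, by rw [mul_smul, ha, ← hb, inv_smul_smul]⟩
  constructor
  · intro r hr
    have hm := h.mem _ (h.R_lt r hr)
    have hJ : J x (g⁻¹ • F (R r)) = c r := by rw [hx', h.Jinv, h.val r hr]
    refine ⟨g⁻¹ • F (R r), invY _ _ hm, ?_, ?_⟩
    · rw [hP.orbit hx (invY _ _ hm), hJ]
    · rw [hP.orbit hx (invY _ _ hm), hJ, hP.ncard_eq hX' hx0 hx, h.ncard hr]
  · intro y hy
    obtain ⟨i, hi, h1⟩ := h.all _ (invY g y hy)
    refine ⟨rt i, h.rt_lt i hi, ?_⟩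
    rw [← h.J_eq hi, ← h1, ← hg, h.Jinv]

theorem Verified.left (h : Verified x0 SY J N k F rt R c) (invX : ∀ (g : M24), ∀ x ∈ SX, g • x ∈ SX)
    (invY : ∀ (g : M24), ∀ y ∈ SY, g • y ∈ SY) (hX : ∀ x ∈ SX, ∃ g : M24, g • x = x0) (hx0 : x0 ∈ SX)
    (hY : ∀ y ∈ SY, ∀ y' ∈ SY, ∃ g : M24, g • y = y') {y : Y} (hy : y ∈ SY) :
    (∀ r < k, ∃ x ∈ SX, MulAction.orbit (MulAction.stabilizer M24 y) x = {x' | x' ∈ SX ∧ J x' y = c r} ∧
      {y | ∃ i < N, F i = y ∧ rt i = r}.ncard * SX.ncard =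
        (MulAction.orbit (MulAction.stabilizer M24 y) x).ncard * SY.ncard) ∧
      ∀ x ∈ SX, ∃ r < k, J x y = c r := by
  have hP := h.pairTrans invX invY hX
  have hX' : ∀ x ∈ SX, ∀ x' ∈ SX, ∃ g : M24, g • x = x' := by
    intro x hx x' hx'
    obtain ⟨a, ha⟩ := hX x hx
    obtain ⟨b, hb⟩ := hX x' hx'
    exact ⟨b⁻¹ * a, by rw [mul_smul, ha, ← hb, inv_smul_smul]⟩
  constructor
  · intro r hr
    have hm := h.mem _ (h.R_lt r hr)
    obtain ⟨g, hg⟩ := hY _ hm y hy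
    have hJ : J (g • x0) y = c r := by rw [← hg, h.Jinv, h.val r hr]
    have hmx := invX g _ hx0
    refine ⟨g • x0, hmx, ?_, ?_⟩
    · have := hP.symm.orbit hy hmx
      rw [this]
      ext x'
      simp only [Set.mem_ofPred_eq, hJ]
    · have h1 : (MulAction.orbit (MulAction.stabilizer M24 (g • x0)) y).ncard =
          {y | ∃ i < N, F i = y ∧ rt i = r}.ncard := by
        rw [hP.orbit hmx hy, hJ, hP.ncard_eq hX' hx0 hmx, h.ncard hr]
      have h2 := double (G := M24) (x := g • x0) (y := y)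
      have h3 : MulAction.orbit M24 (g • x0) = SX := by
        ext x'
        constructor
        · rintro ⟨f, rfl⟩; exact invX _ _ hmx
        · intro hx'
          obtain ⟨f, hf⟩ := hX' _ hmx x' hx'
          exact ⟨f, hf⟩
      have h4 : MulAction.orbit M24 y = SY := by
        ext y'
        constructor
        · rintro ⟨f, rfl⟩; exact invY _ _ hy
        · intro hy'
          obtain ⟨f, hf⟩ := hY _ hy y' hy'
          exact ⟨f, hf⟩
      rw [h1, h3, h4] at h2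
      exact h2
  · intro x hx
    obtain ⟨g, hg⟩ := hX x hx
    obtain ⟨i, hi, h1⟩ := h.all _ (invY g y hy)
    refine ⟨rt i, h.rt_lt i hi, ?_⟩
    rw [← h.J_eq hi, ← h1, ← hg, h.Jinv]

theorem three_union {Z : Type*} {SZ : Set Z} {J : Z → ℕ} {c : ℕ → ℕ} {O : ℕ → Set Z}
    (hO : ∀ r < 3, O r = {z | z ∈ SZ ∧ J z = c r}) (h : ∀ z ∈ SZ, ∃ r < 3, J z = c r) : SZ = O 0 ∪ O 1 ∪ O 2 := by
  ext z
  rw [hO 0 (by norm_num), hO 1 (by norm_num), hO 2 (by norm_num)]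
  constructor
  · intro hz
    obtain ⟨r, hr, h1⟩ := h z hz
    interval_cases r
    · exact Or.inl (Or.inl ⟨hz, h1⟩)
    · exact Or.inl (Or.inr ⟨hz, h1⟩)
    · exact Or.inr ⟨hz, h1⟩
  · rintro ((hz | hz) | hz) <;> exact hz.1

theorem four_union {Z : Type*} {SZ : Set Z} {J : Z → ℕ} {c : ℕ → ℕ} {O : ℕ → Set Z}
    (hO : ∀ r < 4, O r = {z | z ∈ SZ ∧ J z = c r}) (h : ∀ z ∈ SZ, ∃ r < 4, J z = c r) :
    SZ = O 0 ∪ O 1 ∪ O 2 ∪ O 3 := by
  ext z
  rw [hO 0 (by norm_num), hO 1 (by norm_num), hO 2 (by norm_num), hO 3 (by norm_num)]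
  constructor
  · intro hz
    obtain ⟨r, hr, h1⟩ := h z hz
    interval_cases r
    · exact Or.inl (Or.inl (Or.inl ⟨hz, h1⟩))
    · exact Or.inl (Or.inl (Or.inr ⟨hz, h1⟩))
    · exact Or.inl (Or.inr ⟨hz, h1⟩)
    · exact Or.inr ⟨hz, h1⟩
  · rintro (((hz | hz) | hz) | hz) <;> exact hz.1

/-- three orbits -/
theorem three_orbits {G Z : Type*} [Group G] [MulAction G Z] (H : Subgroup G) {SZ : Set Z} {J : Z → ℕ} {c : ℕ → ℕ}
    {n : ℕ → ℕ} (h : ∀ r < 3, ∃ z ∈ SZ, MulAction.orbit H z = {z' | z' ∈ SZ ∧ J z' = c r} ∧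
      (MulAction.orbit H z).ncard = n r) (hc : ∀ z ∈ SZ, ∃ r < 3, J z = c r) :
    ∃ z₁ ∈ SZ, ∃ z₂ ∈ SZ, ∃ z₃ ∈ SZ, (MulAction.orbit H z₁).ncard = n 0 ∧ (MulAction.orbit H z₂).ncard = n 1 ∧
      (MulAction.orbit H z₃).ncard = n 2 ∧ SZ = MulAction.orbit H z₁ ∪ MulAction.orbit H z₂ ∪ MulAction.orbit H z₃ := by
  obtain ⟨a, ha, ha1, ha2⟩ := h 0 (by norm_num)
  obtain ⟨b, hb, hb1, hb2⟩ := h 1 (by norm_num)
  obtain ⟨d, hd, hd1, hd2⟩ := h 2 (by norm_num)
  refine ⟨a, ha, b, hb, d, hd, ha2, hb2, hd2, ?_⟩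
  rw [ha1, hb1, hd1]
  exact three_union (O := fun r => {z' | z' ∈ SZ ∧ J z' = c r}) (fun r _ => rfl) hc

/-- four orbits -/
theorem four_orbits {G Z : Type*} [Group G] [MulAction G Z] (H : Subgroup G) {SZ : Set Z} {J : Z → ℕ} {c : ℕ → ℕ}
    {n : ℕ → ℕ} (h : ∀ r < 4, ∃ z ∈ SZ, MulAction.orbit H z = {z' | z' ∈ SZ ∧ J z' = c r} ∧
      (MulAction.orbit H z).ncard = n r) (hc : ∀ z ∈ SZ, ∃ r < 4, J z = c r) :
    ∃ z₁ ∈ SZ, ∃ z₂ ∈ SZ, ∃ z₃ ∈ SZ, ∃ z₄ ∈ SZ, (MulAction.orbit H z₁).ncard = n 0 ∧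
      (MulAction.orbit H z₂).ncard = n 1 ∧ (MulAction.orbit H z₃).ncard = n 2 ∧ (MulAction.orbit H z₄).ncard = n 3 ∧
      SZ = MulAction.orbit H z₁ ∪ MulAction.orbit H z₂ ∪ MulAction.orbit H z₃ ∪ MulAction.orbit H z₄ := by
  obtain ⟨a, ha, ha1, ha2⟩ := h 0 (by norm_num)
  obtain ⟨b, hb, hb1, hb2⟩ := h 1 (by norm_num)
  obtain ⟨d, hd, hd1, hd2⟩ := h 2 (by norm_num)
  obtain ⟨e, he, he1, he2⟩ := h 3 (by norm_num)
  refine ⟨a, ha, b, hb, d, hd, e, he, ha2, hb2, hd2, he2, ?_⟩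
  rw [ha1, hb1, hd1, he1]
  exact four_union (O := fun r => {z' | z' ∈ SZ ∧ J z' = c r}) (fun r _ => rfl) hc

theorem verified_sx (x0 : X) (J : X → Finset (Finset GolayPt) → ℕ) (Jinv : ∀ (g : M24) x y, J (g • x) (g • y) = J x y)
    (k : ℕ) (c : ℕ → ℕ) (CC WW P RT : ℕ)
    (hc : ∀ j < 4, okW (lk 120 CC j) (lk 18432 WW j) = true)
    (hH : ∀ j < 4, (⟨pm (lk 120 CC j), pm_mem _⟩ : M24) • x0 = x0)
    (hcheck : allT (fun i => cond (Nat.blt i 1771) (cond (okNode eS 1771 P WW RT i) (Nat.blt (dRt (pd P i)) k) false) true)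
      11 0 = true)
    (hRT : ∀ r < k, lk 12 RT r < 1771)
    (hval : ∀ r < k, J x0 (sxFam (sxE (lk 12 RT r))) = c r) (cinj : ∀ r < k, ∀ r' < k, c r = c r' → r = r') :
    Verified x0 sextets J 1771 k (fun i => sxFam (sxE i)) (fun i => dRt (pd P i)) (fun r => lk 12 RT r) c := by
  have hch : ∀ i < 1771, okNode eS 1771 P WW RT i = true ∧ dRt (pd P i) < k := by
    intro i hi
    have h1 := allT_spec _ 11 0 hcheck i (by omega)
    rw [zero_add, show Nat.blt i 1771 = true by simpa [Nat.blt_eq] using hi, cond_true, cond_and, Nat.blt_eq] at h1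
    exact h1
  refine ⟨fun i hi => (okSx_iff (sx_ok hi)).mem, fun y hy => exists_entry hy, sx_injOn, fun i hi => (hch i hi).2, hRT, ?_,
    Jinv, hval, cinj⟩
  intro i hi
  obtain ⟨g, hg, h⟩ := forest (MulAction.stabilizer M24 x0) 1771 (fun i => sxFam (sxE i)) (fun i => dDep (pd P i))
    (fun i => dRt (pd P i)) (fun r => lk 12 RT r) (by
      intro i hi
      rcases okNode_spec (hch i hi).1 with h2 | ⟨p, hp, h2, h3, j, hj, h4⟩
      · exact Or.inl h2
      · right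
        refine ⟨p, hp, h2, h3, ?_⟩
        rcases h4 with h4 | h4
        · exact ⟨_, hH j hj, eS_spec (hc j hj) hp hi h4⟩
        · refine ⟨(⟨pm (lk 120 CC j), pm_mem _⟩ : M24)⁻¹, (MulAction.stabilizer M24 x0).inv_mem (hH j hj), ?_⟩
          show sxFam (sxE i) = _ • sxFam (sxE p)
          rw [eS_spec (hc j hj) hi hp h4, inv_smul_smul]) i hi
  exact ⟨g, hg, h⟩

theorem verified_tr (x0 : X) (J : X → Finset (Finset GolayPt) → ℕ) (Jinv : ∀ (g : M24) x y, J (g • x) (g • y) = J x y)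
    (k : ℕ) (c : ℕ → ℕ) (CC WW P RT : ℕ)
    (hc : ∀ j < 4, okW (lk 120 CC j) (lk 18432 WW j) = true)
    (hH : ∀ j < 4, (⟨pm (lk 120 CC j), pm_mem _⟩ : M24) • x0 = x0)
    (hcheck : allT (fun i => cond (Nat.blt i 3795) (cond (okNode eT 3795 P WW RT i) (Nat.blt (dRt (pd P i)) k) false) true)
      12 0 = true)
    (hRT : ∀ r < k, lk 12 RT r < 3795)
    (hval : ∀ r < k, J x0 (trFam (trE (lk 12 RT r))) = c r) (cinj : ∀ r < k, ∀ r' < k, c r = c r' → r = r') :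
    Verified x0 trios J 3795 k (fun i => trFam (trE i)) (fun i => dRt (pd P i)) (fun r => lk 12 RT r) c := by
  have hch : ∀ i < 3795, okNode eT 3795 P WW RT i = true ∧ dRt (pd P i) < k := by
    intro i hi
    have h1 := allT_spec _ 12 0 hcheck i (by omega)
    rw [zero_add, show Nat.blt i 3795 = true by simpa [Nat.blt_eq] using hi, cond_true, cond_and, Nat.blt_eq] at h1
    exact h1
  refine ⟨fun i hi => (okTr_iff (tr_ok hi)).mem, fun y hy => exists_entryT hy, tr_injOn, fun i hi => (hch i hi).2, hRT, ?_,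
    Jinv, hval, cinj⟩
  intro i hi
  obtain ⟨g, hg, h⟩ := forest (MulAction.stabilizer M24 x0) 3795 (fun i => trFam (trE i)) (fun i => dDep (pd P i))
    (fun i => dRt (pd P i)) (fun r => lk 12 RT r) (by
      intro i hi
      rcases okNode_spec (hch i hi).1 with h2 | ⟨p, hp, h2, h3, j, hj, h4⟩
      · exact Or.inl h2
      · right
        refine ⟨p, hp, h2, h3, ?_⟩
        rcases h4 with h4 | h4
        · exact ⟨_, hH j hj, eT_spec (hc j hj) hp hi h4⟩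
        · refine ⟨(⟨pm (lk 120 CC j), pm_mem _⟩ : M24)⁻¹, (MulAction.stabilizer M24 x0).inv_mem (hH j hj), ?_⟩
          show trFam (trE i) = _ • trFam (trE p)
          rw [eT_spec (hc j hj) hi hp h4, inv_smul_smul]) i hi
  exact ⟨g, hg, h⟩

end H94.M24Forest
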