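import Cfsg.Agent.Lib.H9.CoMat3
import Cfsg.Agent.Lib.H35.StemPerf
import Cfsg.Agent.Lib.H63.LeechHS2
import Cfsg.Agent.Lib.H9.OutPair

/-!
# Words in elements of `Co0` given by matrices
-/

set_option autoImplicit false

namespace H94.CoWord

open Cfsg H40.PermCode H40.MathieuBase H8.GolayCode H9.Leech H9.LeechGood H9.CoMat H35.Stem MulAction

section

variable {X : Type}

/-- matrix of a signed letter -/
noncomputable def mt (m mi : X → List ℕ) (a : X × Bool) : List ℕ := bif a.2 then m a.1 else mi a.1

/-- image of a packed vector under a word -/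
noncomputable def vw (m mi : X → List ℕ) : W X → ℕ → ℕ
  | [], e => e
  | a :: t, e => img (vw m mi t e) (mt m mi a)

/-- the computation is correct -/
noncomputable def vok (m mi : X → List ℕ) : W X → ℕ → Bool
  | [], e => wfr e
  | a :: t, e => vok m mi t e && (wfr (vw m mi (a :: t) e) &&
      rowOK (vw m mi t e) (mt m mi a) (vw m mi (a :: t) e))

variable {m mi : X → List ℕ} {g : X → Co0}

theorem vok_wfr : ∀ (w : W X) {e : ℕ}, vok m mi w e = true → wfr (vw m mi w e) = true := by
  intro w e h
  cases w with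
  | nil => exact h
  | cons a t =>
    rw [vok, Bool.and_eq_true, Bool.and_eq_true] at h
    exact h.2.1

/-- hypotheses on the matrices -/
structure Data (m mi : X → List ℕ) (g : X → Co0) : Prop where
  rep : ∀ x, RepC (g x) (m x)
  repi : ∀ x, RepC (g x)⁻¹ (mi x)
  wf : ∀ x, wfM (m x) = true
  wfi : ∀ x, wfM (mi x) = true

theorem Data.el (D : Data m mi g) (a : X × Bool) : RepC (el g a) (mt m mi a) ∧ wfM (mt m mi a) = true := by
  rcases a with ⟨x, b⟩
  cases b
  · exact ⟨D.repi x, D.wfi x⟩
  · exact ⟨D.rep x, D.wf x⟩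

theorem Data.vw (D : Data m mi g) : ∀ (w : W X) {e : ℕ} {x : leechLattice}, (x : GolayPt → ℤ) = vec e →
    vok m mi w e = true → ((ev g w • x : leechLattice) : GolayPt → ℤ) = vec (vw m mi w e) := by
  intro w
  induction w with
  | nil =>
    intro e x hx _
    rw [ev_nil, one_smul, hx]
    rfl
  | cons a t ih =>
    intro e x hx h
    rw [vok, Bool.and_eq_true, Bool.and_eq_true] at h
    obtain ⟨h1, h2, h3⟩ := h
    have h4 := ih hx h1
    rw [ev_cons, mul_smul]
    obtain ⟨hr, hw⟩ := D.el a
    funext p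
    have h5 := hr.apply (ev g t • x) p
    rw [h4, row_vec (vok_wfr t h1) h2 hw h3] at h5
    exact (mul_right_inj' (by norm_num)).mp h5

/-- the word has the matrix `B` -/
noncomputable def isM (m mi : X → List ℕ) (w : W X) (B : List ℕ) : Bool :=
  allN (fun k => vok m mi w (row idM k) && Nat.beq (H94.CoWord.vw m mi w (row idM k)) (row B k)) 24

theorem Data.isM (D : Data m mi g) {w : W X} {B : List ℕ} (h : isM m mi w B = true) : RepC (ev g w) B := by
  intro k hk
  rw [CoWord.isM, allN_iff] at h
  have h1 := h k hk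
  rw [Bool.and_eq_true, Nat.beq_eq] at h1
  have h2 : ((e8 (pt k) : leechLattice) : GolayPt → ℤ) = vec (row idM k) := by
    rw [vec_idM hk]
    rfl
  rw [D.vw w h2 h1.1, h1.2]

theorem Data.one (D : Data m mi g) {w : W X} (h : H94.CoWord.isM m mi w idM = true) : ev g w = 1 :=
  (D.isM h).eq_one

/-- words in a subgroup -/
theorem Data.one' {H : Subgroup Co0} {g : X → H} (D : Data m mi fun x => (g x : Co0)) {w : W X}
    (h : H94.CoWord.isM m mi w idM = true) : ev g w = 1 := by
  apply Subtype.ext
  have h1 := ev_hom H.subtype g w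
  change H.subtype (ev g w) = 1
  rw [h1]
  exact D.one h

theorem Data.eq' {H : Subgroup Co0} {g : X → H} (D : Data m mi fun x => (g x : Co0)) {w : W X} {B : List ℕ} {y : H}
    (hy : RepC (y : Co0) B) (h : H94.CoWord.isM m mi w B = true) : ev g w = y := by
  apply Subtype.ext
  have h1 := ev_hom H.subtype g w
  change H.subtype (ev g w) = y
  rw [h1]
  exact (D.isM h).inj hy

/-- image of a lattice vector -/
theorem Data.vw' {H : Subgroup Co0} {g : X → H} (D : Data m mi fun x => (g x : Co0)) {w : W X} {e : ℕ}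
    {x : leechLattice} (hx : (x : GolayPt → ℤ) = vec e) (h : vok m mi w e = true) :
    ((ev g w • x : leechLattice) : GolayPt → ℤ) = vec (H94.CoWord.vw m mi w e) := by
  have h1 : ((ev g w : H) : Co0) = ev (fun x => (g x : Co0)) w := ev_hom H.subtype g w
  have h2 := D.vw w hx h
  rw [← h1] at h2
  exact h2

end

/-! ### permutations -/

open H63.LeechFrame

/-- matrix of a permutation of the coordinates -/
noncomputable def pm (c : ℕ) : List ℕ := (List.range 24).map fun k => 8 * ones + 8 <<< (16 * tab 5 c k)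

theorem row_pm (c : ℕ) {k : ℕ} (hk : k < 24) : row (pm c) k = 8 * ones + 8 <<< (16 * tab 5 c k) := by
  unfold row pm
  rw [List.getD_eq_getElem _ _ (by simpa using hk)]
  simp

theorem rep_perm {σ : Equiv.Perm GolayPt} (hσ : σ ∈ M24) {c : ℕ} (h : Rep E24 5 σ c) : RepC (perm σ hσ) (pm c) := by
  intro k hk
  rw [perm_e8]
  have h1 := h (pt k)
  have h2 : idx (pt k) = k := idx_pt k hk
  change idx (σ (pt k)) = tab 5 c (idx (pt k)) at h1
  rw [h2] at h1
  rw [row_pm c hk, ← h1]
  have h3 : row idM (idx (σ (pt k))) = 8 * ones + 8 <<< (16 * idx (σ (pt k))) := by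
    unfold row idM
    rw [List.getD_eq_getElem _ _ (by simpa using idx_lt _)]
    simp
  rw [← h3, vec_idM (idx_lt _), pt_idx]
  rfl

/-! ### distinct vectors -/

theorem vec_inj {e e' : ℕ} (h : wfr e = true) (h' : wfr e' = true) (hv : vec e = vec e') : e = e' := by
  have h1 : pack 16 (tab 16 e) 24 = pack 16 (tab 16 e') 24 := by
    apply pack_congr
    intro i hi
    have h2 := congrFun hv (pt i)
    rw [vec_pt e hi, vec_pt e' hi] at h2
    have h3 : (dg e i : ℤ) = (dg e' i : ℤ) := by linarith
    exact_mod_cast h3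
  rw [pack_tab' (wfr_spec h).1, pack_tab' (wfr_spec h').1] at h1
  exact h1

/-- the vectors of the words of a list -/
noncomputable def orbOK {X : Type} (m mi : X → List ℕ) (S : X → Bool) (ws : List (W X)) (e : ℕ) : Bool :=
  (ws.all fun w => vok m mi w e && w.all fun a => S a.1) && decide ((ws.map fun w => vw m mi w e).Nodup)

theorem exists_orbit {X : Type} {m mi : X → List ℕ} {H : Subgroup Co0} {g : X → H}
    (D : Data m mi fun x => (g x : Co0)) {S : X → Bool} {ws : List (W X)} {e : ℕ} {x : leechLattice}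
    (hx : (x : GolayPt → ℤ) = vec e) (h : orbOK m mi S ws e = true) :
    ∃ s : Finset leechLattice, s.card = ws.length ∧ ∀ y ∈ s, ∃ h ∈ Kl g S, h • x = y := by
  classical
  rw [orbOK, Bool.and_eq_true, List.all_eq_true, decide_eq_true_eq] at h
  obtain ⟨h1, h2⟩ := h
  have h3 : ∀ w ∈ ws, vok m mi w e = true := fun w hw => by
    have := h1 w hw
    rw [Bool.and_eq_true] at this
    exact this.1
  have h4 : (ws.map fun w => ev g w • x).Nodup := by
    have h5 : ∀ w ∈ ws, ∀ w' ∈ ws, ev g w • x = ev g w' • x → vw m mi w e = vw m mi w' e := by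
      intro w hw w' hw' heq
      apply vec_inj (vok_wfr w (h3 w hw)) (vok_wfr w' (h3 w' hw'))
      rw [← D.vw' hx (h3 w hw), ← D.vw' hx (h3 w' hw'), heq]
    rw [List.nodup_map_iff_inj_on (List.Nodup.of_map _ h2)]
    rw [List.nodup_map_iff_inj_on (List.Nodup.of_map _ h2)] at h2
    intro w hw w' hw' heq
    exact h2 w hw w' hw' (h5 w hw w' hw' heq)
  refine ⟨(ws.map fun w => ev g w • x).toFinset, ?_, ?_⟩
  · rw [List.toFinset_card_of_nodup h4, List.length_map]
  · intro y hy
    rw [List.mem_toFinset, List.mem_map] at hy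
    obtain ⟨w, hw, rfl⟩ := hy
    refine ⟨ev g w, ?_, rfl⟩
    apply ev_mem_Kl
    have := h1 w hw
    rw [Bool.and_eq_true] at this
    exact this.2

end H94.CoWord
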