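import Cfsg.Agent.Lib.H94.Transv

/-!
Functionals attached to two-argument forms that are linear in the first argument; basic linear algebra for the
overgroup theorems of similarity groups.
-/

set_option autoImplicit false

namespace H94.FormRow

open Matrix Cfsg.Geo H94.Transv
open scoped MatrixGroups

variable {ι : Type} [Fintype ι] [DecidableEq ι] {F : Type*} [Field F]

/-- the functional x ↦ f x v as a frow vector -/
def frow (f : (ι → F) → (ι → F) → F) (v : ι → F) : ι → F := fun i => f (Pi.single i 1) v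

/-- linearity in the first argument -/
structure LinLeft (f : (ι → F) → (ι → F) → F) : Prop where
  add_left : ∀ x y v, f (x + y) v = f x v + f y v
  smul_left : ∀ (c : F) (x v : ι → F), f (c • x) v = c * f x v

variable {f : (ι → F) → (ι → F) → F}

theorem LinLeft.frow_dot (h : LinLeft f) (v x : ι → F) : frow f v ⬝ᵥ x = f x v := by
  let L : (ι → F) →ₗ[F] F :=
    { toFun := fun x => f x v
      map_add' := fun a b => h.add_left a b v
      map_smul' := fun c a => h.smul_left c a v }
  exact dotProduct_of_linear L x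

theorem LinLeft.zero_left (h : LinLeft f) (v : ι → F) : f 0 v = 0 := by
  have := h.smul_left 0 0 v
  simpa using this

theorem LinLeft.neg_left (h : LinLeft f) (x v : ι → F) : f (-x) v = - f x v := by
  have := h.smul_left (-1) x v
  simpa using this

theorem LinLeft.sub_left (h : LinLeft f) (x y v : ι → F) : f (x - y) v = f x v - f y v := by
  rw [sub_eq_add_neg, h.add_left, h.neg_left, sub_eq_add_neg]

/-- the transvection x ↦ x + a f(x,v) v in terms of rows -/
theorem LinLeft.tm_frow_mulVec (h : LinLeft f) (v x : ι → F) (a : F) :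
    tm v (a • frow f v) *ᵥ x = x + (a * f x v) • v := by
  rw [tm_mulVec, smul_dotProduct, h.frow_dot, smul_eq_mul]

/-- two frow vectors with equal values are equal -/
theorem frow_ext {φ ψ : ι → F} (h : ∀ x, φ ⬝ᵥ x = ψ ⬝ᵥ x) : φ = ψ := by
  ext i
  have := h (Pi.single i 1)
  simpa using this

/-- if ψ vanishes on the kernel of φ then ψ is a multiple of φ -/
theorem mem_span_of_ker_le {φ ψ : ι → F} (h : ∀ x, φ ⬝ᵥ x = 0 → ψ ⬝ᵥ x = 0) : ψ ∈ Submodule.span F {φ} := by
  by_cases h0 : ∀ x, φ ⬝ᵥ x = 0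
  · have : ψ = 0 := frow_ext fun x => by rw [h x (h0 x), zero_dotProduct]
    rw [this]; exact Submodule.zero_mem _
  · push Not at h0
    obtain ⟨x0, hx0⟩ := h0
    refine Submodule.mem_span_singleton.2 ⟨(ψ ⬝ᵥ x0) * (φ ⬝ᵥ x0)⁻¹, ?_⟩
    apply frow_ext
    intro x
    have h1 : φ ⬝ᵥ (x - ((φ ⬝ᵥ x) * (φ ⬝ᵥ x0)⁻¹) • x0) = 0 := by
      rw [dotProduct_sub, dotProduct_smul, smul_eq_mul]; field_simp; ring
    have h2 := h _ h1
    rw [dotProduct_sub, dotProduct_smul, smul_eq_mul, sub_eq_zero] at h2
    rw [smul_dotProduct, smul_eq_mul, h2]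
    ring

/-- If for all w the functional `frow f' w` is a multiple of `frow f w` (both forms additive in the second variable, f
right-nondegenerate and semilinear in the second variable in the weak sense below) then the multiple is constant. -/
theorem const_multiple {f f' : (ι → F) → (ι → F) → F}
    (hadd : ∀ x v w, f x (v + w) = f x v + f x w) (hadd' : ∀ x v w, f' x (v + w) = f' x v + f' x w)
    (hnd : ∀ v, (∀ x, f x v = 0) → v = 0)
    (σ : F → F) (hσ : ∀ c x v, f x (c • v) = σ c * f x v) (hσ' : ∀ c x v, f' x (c • v) = σ c * f' x v)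
    (hσs : Function.Surjective σ)
    (h : ∀ w, ∃ c : F, ∀ x, f' x w = c * f x w) : ∃ c : F, ∀ x w, f' x w = c * f x w := by
  by_cases hz : ∀ w : ι → F, w = 0
  · refine ⟨0, fun x w => ?_⟩
    obtain ⟨c, hc⟩ := h w
    have h0 : f x w = 0 := by
      have := hadd x w w
      rw [hz (w + w), ← hz w] at this
      simpa using this
    rw [hc, h0]; simp
  push Not at hz
  obtain ⟨w1, hw1⟩ := hz
  obtain ⟨c1, hc1⟩ := h w1
  refine ⟨c1, fun x w => ?_⟩
  by_cases hdep : w ∈ Submodule.span F {w1}
  · obtain ⟨a, rfl⟩ := Submodule.mem_span_singleton.1 hdep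
    rw [hσ', hσ, hc1]; ring
  · obtain ⟨c2, hc2⟩ := h w
    obtain ⟨c3, hc3⟩ := h (w + w1)
    -- (c3 - c2) f(x,w) + (c3 - c1) f(x,w1) = 0
    obtain ⟨a, ha⟩ := hσs (c3 - c2)
    obtain ⟨b, hb⟩ := hσs (c3 - c1)
    have key : a • w + b • w1 = 0 := by
      apply hnd
      intro y
      rw [hadd, hσ, hσ, ha, hb]
      have h1 := hc3 y
      rw [hadd', hadd, hc1, hc2] at h1
      linear_combination (-1) * h1
    have ha0 : a = 0 := by
      by_contra ha0
      apply hdep
      refine Submodule.mem_span_singleton.2 ⟨-(a⁻¹ * b), ?_⟩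
      have : a⁻¹ • (a • w + b • w1) = 0 := by rw [key, smul_zero]
      rw [smul_add, smul_smul, smul_smul, inv_mul_cancel₀ ha0, one_smul] at this
      rw [neg_smul]
      exact (eq_neg_of_add_eq_zero_left this).symm
    rw [ha0, zero_smul, zero_add] at key
    have hb0 : b = 0 := by
      rcases smul_eq_zero.1 key with h | h
      · exact h
      · exact absurd h hw1
    have e0 : σ 0 = 0 := by
      have h0 : ∃ x, f x w1 ≠ 0 := by
        by_contra hcon
        push Not at hcon
        exact hw1 (hnd w1 hcon)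
      obtain ⟨y, hy⟩ := h0
      have h2 := hσ 0 y w1
      rw [zero_smul] at h2
      have h3 : f y 0 = 0 := by
        have := hadd y 0 0
        simpa using this
      rw [h3] at h2
      exact (mul_eq_zero.1 h2.symm).resolve_right hy
    rw [ha0, e0] at ha
    rw [hb0, e0] at hb
    have e1 : c3 = c2 := (sub_eq_zero.1 ha.symm)
    have e2 : c3 = c1 := (sub_eq_zero.1 hb.symm)
    rw [hc2, ← e1, e2]

/-- the pulled-back functional: (frow f (g⁻¹ w) ᵥ* g⁻¹) · x = f (g⁻¹ x) (g⁻¹ w) -/
theorem LinLeft.pull_dot (h : LinLeft f) (g : GL ι F) (w x : ι → F) :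
    (frow f (((g⁻¹ : GL ι F) : Matrix ι ι F) *ᵥ w) ᵥ* ((g⁻¹ : GL ι F) : Matrix ι ι F)) ⬝ᵥ x =
      f (((g⁻¹ : GL ι F) : Matrix ι ι F) *ᵥ x) (((g⁻¹ : GL ι F) : Matrix ι ι F) *ᵥ w) := by
  rw [← dotProduct_mulVec, h.frow_dot]

theorem mulVec_inv_mulVec (g : GL ι F) (w : ι → F) :
    (g : Matrix ι ι F) *ᵥ (((g⁻¹ : GL ι F) : Matrix ι ι F) *ᵥ w) = w := by
  rw [mulVec_mulVec, ← Units.val_mul, mul_inv_cancel, Units.val_one, one_mulVec]

theorem inv_mulVec_mulVec (g : GL ι F) (w : ι → F) :
    ((g⁻¹ : GL ι F) : Matrix ι ι F) *ᵥ ((g : Matrix ι ι F) *ᵥ w) = w := by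
  rw [mulVec_mulVec, ← Units.val_mul, inv_mul_cancel, Units.val_one, one_mulVec]

/-- surjectivity of `frow`: every functional is `frow f y` when f is additive + σ-semilinear, nondegenerate on the right.
We phrase it for bilinear f. -/
theorem exists_frow_eq (hl : LinLeft f) (hadd : ∀ x v w, f x (v + w) = f x v + f x w)
    (hsm : ∀ c x v, f x (c • v) = c * f x v) (hnd : ∀ v, (∀ x, f x v = 0) → v = 0) (φ : ι → F) :
    ∃ y, frow f y = φ := by
  let L : (ι → F) →ₗ[F] (ι → F) :=
    { toFun := fun y => frow f y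
      map_add' := fun a b => by ext i; exact hadd _ a b
      map_smul' := fun c a => by ext i; exact hsm c _ a }
  have hinj : Function.Injective L := by
    rw [← LinearMap.ker_eq_bot, LinearMap.ker_eq_bot']
    intro m hm
    apply hnd
    intro x
    rw [← hl.frow_dot]
    have : frow f m = 0 := hm
    rw [this, zero_dotProduct]
  exact (LinearMap.injective_iff_surjective.1 hinj) φ

end H94.FormRow
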