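import Cfsg.Agent.Lib.H94.Transv

/-!
Subspace stabilisers in GL(ι, F).
-/

set_option autoImplicit false

namespace H94.Stab

open Matrix Cfsg.Geo H94.Transv
open scoped MatrixGroups

variable {ι : Type} [Fintype ι] [DecidableEq ι] {F : Type*} [Field F]

theorem mem_stab_iff (W : Submodule F (ι → F)) (g : GL ι F) :
    g ∈ subspaceStabilizer W ↔ ∀ v, v ∈ W ↔ (g : Matrix ι ι F) *ᵥ v ∈ W := Iff.rfl

theorem mulVec_injective (g : GL ι F) : Function.Injective (fun v : ι → F => (g : Matrix ι ι F) *ᵥ v) := by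
  intro x y hxy
  have := congrArg (fun z => ((g⁻¹ : GL ι F) : Matrix ι ι F) *ᵥ z) hxy
  simpa [mulVec_mulVec, ← Units.val_mul] using this

theorem mem_stab_of_le (W : Submodule F (ι → F)) (g : GL ι F) (h : ∀ v ∈ W, (g : Matrix ι ι F) *ᵥ v ∈ W) :
    g ∈ subspaceStabilizer W := by
  rw [mem_stab_iff]
  have hle : W.map (Matrix.toLin' (g : Matrix ι ι F)) ≤ W := by
    rintro _ ⟨v, hv, rfl⟩
    simpa using h v hv
  have hinj : Function.Injective (Matrix.toLin' (g : Matrix ι ι F)) := by
    intro x y hxy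
    exact mulVec_injective g (by simpa using hxy)
  have heq : W.map (Matrix.toLin' (g : Matrix ι ι F)) = W := by
    apply Submodule.eq_of_le_of_finrank_eq hle
    exact (Submodule.equivMapOfInjective _ hinj W).finrank_eq.symm
  intro v
  refine ⟨h v, fun hv => ?_⟩
  rw [← heq] at hv
  obtain ⟨w, hw, e⟩ := hv
  have : w = v := hinj (by simpa using e)
  rwa [← this]

theorem tGL_mem_stab_of_mem {W : Submodule F (ι → F)} {v φ : ι → F} (h : φ ⬝ᵥ v = 0) (hv : v ∈ W) :
    tGL v φ h ∈ subspaceStabilizer W := by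
  apply mem_stab_of_le
  intro x hx
  rw [tGL_val, tm_mulVec]
  exact W.add_mem hx (W.smul_mem _ hv)

theorem tGL_mem_stab_of_ann {W : Submodule F (ι → F)} {v φ : ι → F} (h : φ ⬝ᵥ v = 0)
    (hφ : ∀ w ∈ W, φ ⬝ᵥ w = 0) : tGL v φ h ∈ subspaceStabilizer W := by
  apply mem_stab_of_le
  intro x hx
  rw [tGL_val, tm_mulVec, hφ x hx, zero_smul, add_zero]
  exact hx

/-- The stabiliser of a proper non-zero subspace in SL is maximal in SL. -/
theorem stab_maximal {W : Submodule F (ι → F)} (hW0 : W ≠ ⊥) (hW1 : W ≠ ⊤) :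
    IsMaximalIn (specialLinear ι F) (subspaceStabilizer W ⊓ specialLinear ι F) := by
  obtain ⟨w0, hw0, hw00⟩ := (Submodule.ne_bot_iff W).1 hW0
  obtain ⟨u0, hu0⟩ : ∃ u, u ∉ W := by
    by_contra h
    push Not at h
    exact hW1 (eq_top_iff.2 fun x _ => h x)
  refine ⟨lt_of_le_of_ne inf_le_right ?_, ?_⟩
  · intro h
    have hn : w0 ∉ Submodule.span F {u0} := by
      intro hm
      obtain ⟨c, rfl⟩ := Submodule.mem_span_singleton.1 hm
      have hc : c ≠ 0 := by rintro rfl; simp at hw00
      apply hu0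
      have := W.smul_mem c⁻¹ hw0
      rwa [smul_smul, inv_mul_cancel₀ hc, one_smul] at this
    obtain ⟨φ, h1, h2⟩ := exists_functional hn
    have hg : tGL u0 φ h1 ∈ subspaceStabilizer W ⊓ specialLinear ι F := by
      rw [h]; exact tGL_mem_specialLinear _ _ _
    have := ((mem_stab_iff _ _).1 hg.1 w0).1 hw0
    rw [tGL_val, tm_mulVec, h2, one_smul] at this
    exact hu0 ((Submodule.add_mem_iff_right W hw0).1 this)
  · intro M hM1 hM2
    by_cases hM : M ≤ subspaceStabilizer W ⊓ specialLinear ι F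
    · exact Or.inl (le_antisymm hM hM1)
    right
    apply le_antisymm hM2
    apply specialLinear_le_of_full
    have hWf : ∀ v ∈ W, v ∈ fullSubmodule M := fun v hv φ hφ =>
      HasT.mk hφ (hM1 ⟨tGL_mem_stab_of_mem hφ hv, tGL_mem_specialLinear _ _ _⟩)
    obtain ⟨g, hgM, hg⟩ : ∃ g ∈ M, g ∉ subspaceStabilizer W := by
      by_contra hcon
      push Not at hcon
      exact hM fun g hg => ⟨hcon g hg, hM2 hg⟩
    obtain ⟨w, hw, hgw⟩ : ∃ w ∈ W, (g : Matrix ι ι F) *ᵥ w ∉ W := by
      by_contra hcon
      push Not at hcon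
      exact hg (mem_stab_of_le W g hcon)
    set x := (g : Matrix ι ι F) *ᵥ w with hx
    have hxf : x ∈ fullSubmodule M := fullSubmodule_stable hgM (hWf w hw)
    rw [eq_top_iff]
    intro u _
    by_cases huW : u - x ∈ W
    · have := (fullSubmodule M).add_mem hxf (hWf _ huW)
      simpa using this
    · by_cases hc : x ∈ W ⊔ Submodule.span F {u - x}
      · obtain ⟨a, ha, b, hb, hab⟩ := Submodule.mem_sup.1 hc
        obtain ⟨c, rfl⟩ := Submodule.mem_span_singleton.1 hb
        have hc0 : c ≠ 0 := by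
          rintro rfl
          apply hgw
          rw [zero_smul, add_zero] at hab
          rwa [← hab]
        have h3 : c • (u - x) ∈ fullSubmodule M := by
          have : c • (u - x) = x - a := eq_sub_of_add_eq' hab
          rw [this]
          exact (fullSubmodule M).sub_mem hxf (hWf a ha)
        have h4 : u - x ∈ fullSubmodule M := by
          have := (fullSubmodule M).smul_mem c⁻¹ h3
          rwa [smul_smul, inv_mul_cancel₀ hc0, one_smul] at this
        have := (fullSubmodule M).add_mem hxf h4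
        simpa using this
      · obtain ⟨φ, h1, h2⟩ := exists_functional_submodule hc
        have hφ : φ ⬝ᵥ (u - x) = 0 := h1 _ (Submodule.mem_sup_right (Submodule.mem_span_singleton_self _))
        have hmem : tGL (u - x) φ hφ ∈ M := hM1
          ⟨tGL_mem_stab_of_ann hφ fun w hw => h1 w (Submodule.mem_sup_left hw), tGL_mem_specialLinear _ _ _⟩
        have := fullSubmodule_stable hmem hxf
        rw [tGL_val, tm_mulVec, h2, one_smul] at this
        simpa using this

end H94.Stab
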