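import Cfsg.Agent.Lib.H94.FormRow
import Cfsg.Agent.Lib.H94.Stab

/-!
Two transvections with φ(w) ≠ 0 ≠ ψ(v) in a subgroup M of GL over a finite field: some element of M maps the line of v
to the line of w, and fixes ker φ ∩ ker ψ pointwise (Gleason's lemma).
-/

set_option autoImplicit false
set_option linter.unusedSectionVars false

namespace H94.Gleason

open Matrix Cfsg.Geo H94.Transv H94.FormRow H94.Stab
open scoped MatrixGroups

variable {ι : Type} [Fintype ι] [DecidableEq ι] {F : Type*} [Field F]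

/-- pointwise stabiliser of ker φ ∩ ker ψ -/
def fixer (φ ψ : ι → F) : Subgroup (GL ι F) where
  carrier := {g | ∀ u, φ ⬝ᵥ u = 0 → ψ ⬝ᵥ u = 0 → (g : Matrix ι ι F) *ᵥ u = u}
  mul_mem' {a b} ha hb u h1 h2 := by
    rw [Units.val_mul, ← mulVec_mulVec, hb u h1 h2, ha u h1 h2]
  one_mem' u _ _ := by simp
  inv_mem' {a} ha u h1 h2 := by
    have := inv_mulVec_mulVec a u
    rwa [ha u h1 h2] at this

theorem mem_fixer {φ ψ : ι → F} {g : GL ι F} :
    g ∈ fixer φ ψ ↔ ∀ u, φ ⬝ᵥ u = 0 → ψ ⬝ᵥ u = 0 → (g : Matrix ι ι F) *ᵥ u = u := Iff.rfl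

theorem gleason [Finite F] {M : Subgroup (GL ι F)} {v w φ ψ : ι → F} (h1 : HasT M v φ) (h2 : HasT M w ψ)
    (hφ : φ ⬝ᵥ w ≠ 0) (hψ : ψ ⬝ᵥ v ≠ 0) :
    ∃ z ∈ M, z ∈ fixer φ ψ ∧ ∃ c : F, c ≠ 0 ∧ (z : Matrix ι ι F) *ᵥ v = c • w := by
  classical
  have : Fintype F := Fintype.ofFinite F
  obtain ⟨p, hp⟩ := CharP.exists F
  have hpp : Fact p.Prime := ⟨CharP.char_is_prime F p⟩
  set E : Submodule F (ι → F) := Submodule.span F {v, w} with hE
  have hvE : v ∈ E := Submodule.subset_span (by simp)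
  have hwE : w ∈ E := Submodule.subset_span (by simp)
  set D : Subgroup (GL ι F) := M ⊓ subspaceStabilizer E ⊓ fixer φ ψ with hD
  have hx : tGL v φ h1.1 ∈ D := by
    refine ⟨⟨h1.mem, tGL_mem_stab_of_mem _ hvE⟩, ?_⟩
    intro u h3 _
    rw [tGL_val, tm_mulVec, h3, zero_smul, add_zero]
  have hy : tGL w ψ h2.1 ∈ D := by
    refine ⟨⟨h2.mem, tGL_mem_stab_of_mem _ hwE⟩, ?_⟩
    intro u _ h3
    rw [tGL_val, tm_mulVec, h3, zero_smul, add_zero]
  by_contra hcon
  have hcon' : ∀ z ∈ D, ∀ c : F, c ≠ 0 → (z : Matrix ι ι F) *ᵥ v ≠ c • w := by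
    intro z hz c hc h
    exact hcon ⟨z, hz.1.1, hz.2, c, hc, h⟩
  let S : Set (ι → F) := {u | ∃ z ∈ D, ∃ c : F, c ≠ 0 ∧ u = c • ((z : Matrix ι ι F) *ᵥ v)}
  have hSE : ∀ u ∈ S, u ∈ E := by
    rintro _ ⟨z, hz, c, -, rfl⟩
    exact E.smul_mem c ((mem_stab_iff _ _).1 hz.1.2 v |>.1 hvE)
  have hSne : ∀ u ∈ S, u ≠ 0 := by
    rintro _ ⟨z, hz, c, hc, rfl⟩ h0
    rcases smul_eq_zero.1 h0 with h | h
    · exact hc h
    · have h3 : v = 0 := by
        have := inv_mulVec_mulVec z v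
        rw [h, mulVec_zero] at this
        exact this.symm
      rw [h3] at hψ
      exact hψ (dotProduct_zero _)
  have hSmul : ∀ g ∈ D, ∀ u ∈ S, (g : Matrix ι ι F) *ᵥ u ∈ S := by
    rintro g hg _ ⟨z, hz, c, hc, rfl⟩
    refine ⟨g * z, D.mul_mem hg hz, c, hc, ?_⟩
    rw [Units.val_mul, ← mulVec_mulVec, mulVec_smul]
  -- the two maps
  have key : ∀ (v' φ' : ι → F) (h : φ' ⬝ᵥ v' = 0), v' ≠ 0 → tGL v' φ' h ∈ D →
      Nat.card S ≡ Nat.card {u : S // φ' ⬝ᵥ (u : ι → F) = 0} [MOD p] := by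
    intro v' φ' h hv' hm
    let f : Function.End S := fun u => ⟨((tGL v' φ' h : GL ι F) : Matrix ι ι F) *ᵥ u, hSmul _ hm _ u.2⟩
    have hiter : ∀ (k : ℕ) (u : S), ((f ^ k) u : ι → F) = u + (k * (φ' ⬝ᵥ (u : ι → F))) • v' := by
      intro k u
      induction k with
      | zero =>
        show (u : ι → F) = _
        simp
      | succ k ih =>
        rw [pow_succ']
        show ((tGL v' φ' h : GL ι F) : Matrix ι ι F) *ᵥ ((f ^ k) u : ι → F) = _
        rw [tGL_val, tm_mulVec, ih, dotProduct_add, dotProduct_smul, h, smul_zero, add_zero, add_assoc, ← add_smul]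
        congr 2
        push_cast; ring
    have hfp : f ^ p ^ 1 = 1 := by
      funext u
      apply Subtype.ext
      rw [pow_one, hiter p u]
      have : (p : F) = 0 := CharP.cast_eq_zero F p
      rw [this, zero_mul, zero_smul, add_zero]
      rfl
    have h3 := Equiv.Perm.card_fixedPoints_modEq (p := p) (n := 1) (f := f) hfp
    rw [Nat.card_eq_fintype_card]
    refine h3.trans ?_
    rw [Nat.card_eq_fintype_card]
    have : Fintype.card f.fixedPoints = Fintype.card {u : S // φ' ⬝ᵥ (u : ι → F) = 0} := by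
      apply Fintype.card_congr
      apply Equiv.subtypeEquivRight
      intro u
      show f u = u ↔ _
      rw [Subtype.ext_iff]
      show tm v' φ' *ᵥ (u : ι → F) = u ↔ _
      rw [tm_mulVec, add_eq_left, smul_eq_zero]
      simp [hv']
    rw [this]
  have hv0 : v ≠ 0 := by
    rintro rfl
    exact hψ (dotProduct_zero _)
  have hw0 : w ≠ 0 := by
    rintro rfl
    exact hφ (dotProduct_zero _)
  have k1 := key v φ h1.1 hv0 hx
  have k2 := key w ψ h2.1 hw0 hy
  have c1 : Nat.card {u : S // φ ⬝ᵥ (u : ι → F) = 0} = Nat.card Fˣ := by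
    symm
    refine Nat.card_congr (Equiv.ofBijective
      (fun c : Fˣ => ⟨⟨(c : F) • v, 1, D.one_mem, c, c.ne_zero, by simp⟩, by
        show φ ⬝ᵥ ((c : F) • v) = 0
        rw [dotProduct_smul, h1.1, smul_zero]⟩) ⟨?_, ?_⟩)
    · intro c d hcd
      have : (c : F) • v = (d : F) • v := congrArg (fun u => ((u.1 : S) : ι → F)) hcd
      have h3 : ((c : F) - d) • v = 0 := by rw [sub_smul, this, sub_self]
      exact Units.ext (sub_eq_zero.1 ((smul_eq_zero.1 h3).resolve_right hv0))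
    · rintro ⟨⟨u, hu⟩, hu0⟩
      have hu0' : φ ⬝ᵥ u = 0 := hu0
      obtain ⟨a, b, hab⟩ := Submodule.mem_span_pair.1 (hSE u hu)
      have hb : b = 0 := by
        rw [← hab, dotProduct_add, dotProduct_smul, dotProduct_smul, h1.1, smul_zero, zero_add] at hu0'
        exact (smul_eq_zero.1 hu0').resolve_right hφ
      rw [hb, zero_smul, add_zero] at hab
      have ha : a ≠ 0 := by
        rintro rfl
        exact hSne u hu (by rw [← hab, zero_smul])
      exact ⟨Units.mk0 a ha, Subtype.ext (Subtype.ext hab)⟩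
  have c2 : Nat.card {u : S // ψ ⬝ᵥ (u : ι → F) = 0} = 0 := by
    have : IsEmpty {u : S // ψ ⬝ᵥ (u : ι → F) = 0} := by
      refine ⟨?_⟩
      rintro ⟨⟨u, hu⟩, hu0⟩
      have hu0' : ψ ⬝ᵥ u = 0 := hu0
      obtain ⟨a, b, hab⟩ := Submodule.mem_span_pair.1 (hSE u hu)
      have ha : a = 0 := by
        rw [← hab, dotProduct_add, dotProduct_smul, dotProduct_smul, h2.1, smul_zero, add_zero] at hu0'
        exact (smul_eq_zero.1 hu0').resolve_right hψ
      rw [ha, zero_smul, zero_add] at hab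
      obtain ⟨z, hz, c, hc, e⟩ := hu
      have hb : b ≠ 0 := by
        rintro rfl
        exact hSne u ⟨z, hz, c, hc, e⟩ (by rw [← hab, zero_smul])
      refine hcon' z hz (c⁻¹ * b) (mul_ne_zero (inv_ne_zero hc) hb) ?_
      rw [mul_smul, hab, e, smul_smul, inv_mul_cancel₀ hc, one_smul]
    exact Nat.card_of_isEmpty
  rw [c1] at k1
  rw [c2] at k2
  have k3 : Nat.card Fˣ ≡ 0 [MOD p] := k1.symm.trans k2
  have k4 : p ∣ Nat.card Fˣ := (Nat.modEq_zero_iff_dvd).1 k3
  have k5 : p ∣ Fintype.card F := by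
    obtain ⟨n, -, hn⟩ := FiniteField.card F p
    rw [hn]; exact dvd_pow_self p n.ne_zero
  have k6 : Nat.card Fˣ + 1 = Fintype.card F := by
    rw [Nat.card_eq_fintype_card, Fintype.card_units]
    have : 0 < Fintype.card F := Fintype.card_pos
    omega
  have k7 : p ∣ 1 := (Nat.dvd_add_right k4).1 (k6 ▸ k5)
  exact hpp.out.one_lt.ne' (Nat.dvd_one.1 k7)

end H94.Gleason
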