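import Cfsg.Agent.Lib.H8.GolayBasic

/-!
Abstract self-dual binary codes of length 24 and minimum distance 8: sextets by counting, octads form S(5,8,24),
spanned by octads, doubly even.
-/

set_option autoImplicit false
set_option linter.unusedSectionVars false

namespace H94.GolayAbs

open Cfsg H8.GolayCount H8.GolayBasic Finset

abbrev V : Type := Fin 24 → ZMod 2

variable {C : Submodule (ZMod 2) V}

theorem neg_eq (v : V) : -v = v := by
  ext i
  show -(v i) = v i
  generalize v i = a
  revert a; decide

theorem sub_eq (v w : V) : v - w = v + w := by rw [sub_eq_add_neg, neg_eq]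

theorem add_self (v : V) : v + v = 0 := by
  have := sub_eq v v
  rw [sub_self] at this; exact this.symm

theorem support_zero : support₂ (0 : V) = ∅ := by ext; simp [support₂]

theorem card_add (v w : V) : (support₂ (v + w)).card + 2 * (support₂ v ∩ support₂ w).card =
    (support₂ v).card + (support₂ w).card := by
  rw [support_add]; exact H8.GolayBasic.card_symmDiff _ _

theorem card_ofSupp (s : Finset (Fin 24)) : (support₂ (ofSupp s)).card = s.card := by rw [support_ofSupp]

section
variable (hdim : Module.finrank (ZMod 2) C = 12) (hmin : ∀ w ∈ C, w ≠ 0 → 8 ≤ hammingNorm w)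

include hmin in
theorem eq_of_small {v w : V} (h : v + w ∈ C) (hlt : (support₂ (v + w)).card < 8) : v = w := by
  by_contra hne
  have h0 : v + w ≠ 0 := by
    intro h0
    apply hne
    have := congrArg (fun x => x + w) h0
    simp only [add_assoc, add_self, add_zero, zero_add] at this
    exact this
  have := hmin _ h h0
  rw [hammingNorm_eq_card] at this
  omega

include hdim in
theorem card_quot : Nat.card (V ⧸ C) = 4096 := by
  have h1 := C.card_eq_card_quotient_mul_card
  have h2 : Nat.card V = 2 ^ 24 := by simp [V]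
  have h3 : Nat.card C = 2 ^ 12 := by
    rw [Module.natCard_eq_pow_finrank (K := ZMod 2), hdim]; simp
  rw [h2, h3] at h1
  have : (2 : ℕ) ^ 12 * 4096 = 2 ^ 12 * Nat.card (V ⧸ C) := by rw [← h1]; norm_num
  exact (Nat.eq_of_mul_eq_mul_left (by norm_num) this).symm

/-- class of a set -/
def cl (C : Submodule (ZMod 2) V) (s : Finset (Fin 24)) : V ⧸ C := Submodule.Quotient.mk (ofSupp s)

theorem cl_eq_iff (s t : Finset (Fin 24)) : cl C s = cl C t ↔ ofSupp s + ofSupp t ∈ C := by
  rw [cl, cl, Submodule.Quotient.eq, sub_eq]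

theorem card_add_ofSupp (s t : Finset (Fin 24)) : (support₂ (ofSupp s + ofSupp t)).card + 2 * (s ∩ t).card =
    s.card + t.card := by
  have := card_add (ofSupp s) (ofSupp t)
  rwa [support_ofSupp, support_ofSupp] at this

theorem ofSupp_injective : Function.Injective (ofSupp : Finset (Fin 24) → V) := by
  intro s t h
  rw [← support_ofSupp s, h, support_ofSupp]

def SA : Finset (Finset (Fin 24)) := (range 4).biUnion fun k => powersetCard k univ

theorem mem_SA {s : Finset (Fin 24)} : s ∈ SA ↔ s.card ≤ 3 := by
  simp only [SA, mem_biUnion, mem_range, mem_powersetCard, subset_univ, true_and]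
  constructor
  · rintro ⟨k, hk, rfl⟩; omega
  · intro h; exact ⟨s.card, by omega, rfl⟩

theorem card_SA : SA.card = 2325 := by
  rw [SA, card_biUnion]
  · simp only [card_powersetCard, card_univ, Fintype.card_fin]
    decide
  · intro i _ j _ hij
    rw [Function.onFun, disjoint_left]
    intro s hs ht
    rw [mem_powersetCard] at hs ht
    exact hij (hs.2.symm.trans ht.2)

def SB : Finset (Finset (Fin 24)) := powersetCard 4 univ

theorem mem_SB {s : Finset (Fin 24)} : s ∈ SB ↔ s.card = 4 := by simp [SB, mem_powersetCard]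

theorem card_SB : SB.card = 10626 := by
  rw [SB, card_powersetCard, card_univ, Fintype.card_fin]
  decide

include hmin

theorem inj_A {s t : Finset (Fin 24)} (hs : s.card ≤ 3) (ht : t.card ≤ 4) (h : cl C s = cl C t) : s = t := by
  rw [cl_eq_iff] at h
  have h1 := card_add_ofSupp s t
  exact ofSupp_injective (eq_of_small hmin h (by omega))

theorem disj_B {s t : Finset (Fin 24)} (hs : s.card = 4) (ht : t.card = 4) (h : cl C s = cl C t) (hst : s ≠ t) :
    Disjoint s t := by
  rw [cl_eq_iff] at h
  have h1 := card_add_ofSupp s t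
  have h2 : ¬ (support₂ (ofSupp s + ofSupp t)).card < 8 := fun h3 => hst (ofSupp_injective (eq_of_small hmin h h3))
  rw [disjoint_iff_inter_eq_empty, ← card_eq_zero]
  omega

open Classical in
theorem fiber_le (q : V ⧸ C) : (SB.filter fun t => cl C t = q).card ≤ 6 := by
  have h1 : ((SB.filter fun t => cl C t = q).biUnion id).card = (SB.filter fun t => cl C t = q).card * 4 := by
    rw [card_biUnion, sum_const_nat (m := 4)]
    · intro t ht; rw [mem_filter, mem_SB] at ht; exact ht.1
    · intro s hs t ht hst
      simp only [coe_filter, Set.mem_setOf_eq, mem_SB] at hs ht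
      exact disj_B hmin hs.1 ht.1 (hs.2.trans ht.2.symm) hst
  have h2 := card_le_univ ((SB.filter fun t => cl C t = q).biUnion id)
  rw [h1, Fintype.card_fin] at h2
  omega

include hdim

open Classical in
/-- every coset containing a 4-set contains exactly six of them -/
theorem fiber_eq {s : Finset (Fin 24)} (hs : s.card = 4) : (SB.filter fun t => cl C t = cl C s).card = 6 := by
  have hfin : Finite (V ⧸ C) := inferInstance
  have : Fintype (V ⧸ C) := Fintype.ofFinite _
  have hq := card_quot hdim
  rw [Nat.card_eq_fintype_card] at hq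
  have hAimg : (SA.image (cl C)).card = 2325 := by
    rw [card_image_of_injOn, card_SA]
    intro a ha b hb hab
    rw [mem_coe, mem_SA] at ha hb
    exact inj_A hmin ha (by omega) hab
  have hdisj : Disjoint (SA.image (cl C)) (SB.image (cl C)) := by
    rw [disjoint_left]
    intro q h1 h2
    rw [mem_image] at h1 h2
    obtain ⟨a, ha, rfl⟩ := h1
    obtain ⟨b, hb, hab⟩ := h2
    rw [mem_SA] at ha
    rw [mem_SB] at hb
    have := inj_A hmin ha (by omega) hab.symm
    rw [this] at ha
    omega
  have hle : (SA.image (cl C)).card + (SB.image (cl C)).card ≤ 4096 := by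
    rw [← card_union_of_disjoint hdisj, ← hq]
    exact card_le_univ _
  have hsum := card_eq_sum_card_image (cl C) SB
  rw [card_SB] at hsum
  by_contra hne
  have hlt : (SB.filter fun t => cl C t = cl C s).card < 6 := lt_of_le_of_ne (fiber_le hmin _) hne
  have hmem : cl C s ∈ SB.image (cl C) := mem_image_of_mem _ (mem_SB.2 hs)
  have : ∑ q ∈ SB.image (cl C), (SB.filter fun t => cl C t = q).card < ∑ q ∈ SB.image (cl C), 6 :=
    sum_lt_sum (fun q _ => fiber_le hmin q) ⟨_, hmem, hlt⟩
  rw [sum_const, smul_eq_mul] at this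
  omega

/-- the octads form a Steiner system -/
theorem steiner : IsSteinerSystem 5 8 (wordsOfWeight (C : Set V) 8) := by
  classical
  refine ⟨fun b hb => hb.2, fun s hs => ?_⟩
  obtain ⟨x, hx⟩ : s.Nonempty := card_pos.1 (by omega)
  set t := s.erase x with ht
  have htc : t.card = 4 := by rw [ht, card_erase_of_mem hx]; omega
  have hxt : x ∉ t := notMem_erase x s
  have hst : s = insert x t := (insert_erase hx).symm
  -- the six tetrads cover
  set Fb := SB.filter fun u => cl C u = cl C t with hFb
  have hcov : Fb.biUnion id = univ := by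
    rw [← card_eq_iff_eq_univ, card_biUnion, sum_const_nat (m := 4), fiber_eq hdim hmin htc, Fintype.card_fin]
    · intro u hu; rw [hFb, mem_filter, mem_SB] at hu; exact hu.1
    · intro u hu w hw huw
      simp only [hFb, coe_filter, Set.mem_setOf_eq, mem_SB] at hu hw
      exact disj_B hmin hu.1 hw.1 (hu.2.trans hw.2.symm) huw
  have hxm : x ∈ Fb.biUnion id := by rw [hcov]; exact mem_univ x
  obtain ⟨u, hu, hxu⟩ := mem_biUnion.1 hxm
  rw [hFb, mem_filter, mem_SB] at hu
  have hut : u ≠ t := by rintro rfl; exact hxt hxu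
  have hd := disj_B hmin hu.1 htc hu.2 hut
  refine ⟨support₂ (ofSupp u + ofSupp t), ⟨⟨⟨_, (cl_eq_iff u t).1 hu.2, rfl⟩, ?_⟩, ?_⟩, ?_⟩
  · have := card_add_ofSupp u t
    rw [disjoint_iff_inter_eq_empty.1 hd, card_empty] at this
    omega
  · rw [support_add, support_ofSupp, support_ofSupp, hst]
    intro y hy
    rw [mem_insert] at hy
    rw [mem_symmDiff]
    rcases hy with rfl | hy
    · exact Or.inl ⟨hxu, hxt⟩
    · exact Or.inr ⟨hy, fun h => (disjoint_left.1 hd h hy)⟩
  · rintro b ⟨⟨⟨v, hv, rfl⟩, hb8⟩, hsb⟩
    -- two octads containing s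
    have h1 : (u ∪ t).card = 8 := by rw [card_union_of_disjoint hd]; omega
    have hsu : support₂ (ofSupp u + ofSupp t) = u ∪ t := by
      rw [support_add, support_ofSupp, support_ofSupp]
      exact Disjoint.symmDiff_eq_sup hd
    have hsub : s ⊆ support₂ v ∩ support₂ (ofSupp u + ofSupp t) := by
      rw [hsu]
      refine subset_inter hsb ?_
      rw [hst]
      intro y hy
      rw [mem_insert] at hy
      rcases hy with rfl | hy
      · exact mem_union_left _ hxu
      · exact mem_union_right _ hy
    have h2 := card_le_card hsub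
    have h3 := card_add v (ofSupp u + ofSupp t)
    rw [hsu, h1, hb8] at h3
    rw [hsu] at h2
    have h4 := eq_of_small hmin (v := v) (w := ofSupp u + ofSupp t) (C.add_mem hv ((cl_eq_iff u t).1 hu.2)) (by omega)
    rw [h4]

/-- adding an octad to decrease the weight -/
theorem reduce {v : V} (hv : 5 ≤ (support₂ v).card) :
    ∃ o : V, o ∈ C ∧ hammingNorm o = 8 ∧ (support₂ (v + o)).card < (support₂ v).card := by
  obtain ⟨s, hsv, hs⟩ := exists_subset_card_eq hv
  obtain ⟨b, ⟨hb, hsb⟩, -⟩ := (steiner hdim hmin).2 s hs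
  obtain ⟨⟨o, ho, rfl⟩, hb8⟩ := hb
  refine ⟨o, ho, by rw [hammingNorm_eq_card]; exact hb8, ?_⟩
  have h1 := card_add v o
  have h2 := card_le_card (subset_inter hsv hsb)
  omega

theorem span_octads : Submodule.span (ZMod 2) {w : V | w ∈ C ∧ hammingNorm w = 8} = C := by
  apply le_antisymm
  · rw [Submodule.span_le]; exact fun w hw => hw.1
  · have : ∀ n : ℕ, ∀ v ∈ C, (support₂ v).card = n → v ∈ Submodule.span (ZMod 2) {w : V | w ∈ C ∧ hammingNorm w = 8} := by
      intro n
      induction n using Nat.strong_induction_on with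
      | _ n ih =>
        intro v hv hn
        by_cases h0 : v = 0
        · rw [h0]; exact Submodule.zero_mem _
        · have h8 := hmin v hv h0
          rw [hammingNorm_eq_card] at h8
          obtain ⟨o, ho, ho8, hlt⟩ := reduce hdim hmin (v := v) (by omega)
          have h1 := ih _ (hn ▸ hlt) (v + o) (C.add_mem hv ho) rfl
          have h2 : v = (v + o) + o := by rw [add_assoc, add_self, add_zero]
          rw [h2]
          exact Submodule.add_mem _ h1 (Submodule.subset_span ⟨ho, ho8⟩)
    exact fun v hv => this _ v hv rfl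

theorem doubly_even (horth : ∀ v ∈ C, ∀ w ∈ C, ∑ i, v i * w i = 0) : ∀ w ∈ C, 4 ∣ hammingNorm w := by
  intro w hw
  have hw' := hw
  rw [← span_octads hdim hmin] at hw'
  have : w ∈ C ∧ 4 ∣ hammingNorm w := by
    refine Submodule.span_induction (p := fun w _ => w ∈ C ∧ 4 ∣ hammingNorm w) ?_ ?_ ?_ ?_ hw'
    · rintro x ⟨hx, hx8⟩; exact ⟨hx, by rw [hx8]; norm_num⟩
    · exact ⟨C.zero_mem, by simp⟩
    · rintro x y _ _ ⟨hx, hx4⟩ ⟨hy, hy4⟩
      refine ⟨C.add_mem hx hy, ?_⟩
      have h1 := card_add x y
      have h2 := horth x hx y hy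
      rw [dot_eq_card, ZMod.natCast_eq_zero_iff] at h2
      rw [hammingNorm_eq_card] at hx4 hy4 ⊢
      omega
    · rintro a x _ ⟨hx, hx4⟩
      refine ⟨C.smul_mem a hx, ?_⟩
      have : a = 0 ∨ a = 1 := by revert a; decide
      rcases this with rfl | rfl
      · simp
      · simpa using hx4
  exact this.2

theorem exists_rep (w : V) : ∃ u : V, u - w ∈ C ∧ (support₂ u).card ≤ 4 := by
  have : ∀ n : ℕ, ∀ v : V, (support₂ v).card = n → ∃ u : V, u + v ∈ C ∧ (support₂ u).card ≤ 4 := by
    intro n
    induction n using Nat.strong_induction_on with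
    | _ n ih =>
      intro v hn
      by_cases h : (support₂ v).card ≤ 4
      · exact ⟨v, by rw [add_self]; exact C.zero_mem, h⟩
      · obtain ⟨o, ho, -, hlt⟩ := reduce hdim hmin (v := v) (by omega)
        obtain ⟨u, hu, hu4⟩ := ih _ (hn ▸ hlt) (v + o) rfl
        refine ⟨u, ?_, hu4⟩
        have h2 : u + v = (u + (v + o)) + o := by rw [← add_assoc u v o, add_assoc (u + v), add_self, add_zero]
        rw [h2]
        exact C.add_mem hu ho
  obtain ⟨u, hu, hu4⟩ := this _ w rfl
  exact ⟨u, by rw [sub_eq]; exact hu, hu4⟩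

theorem coset_structure (w : V) : (∃ u : V, {u : V | u - w ∈ C ∧ hammingNorm u ≤ 4} = {u} ∧ hammingNorm u ≤ 3) ∨
    ({u : V | u - w ∈ C ∧ hammingNorm u ≤ 4}.ncard = 6 ∧ ∀ u ∈ {u : V | u - w ∈ C ∧ hammingNorm u ≤ 4},
      hammingNorm u = 4 ∧ ∀ u' ∈ {u : V | u - w ∈ C ∧ hammingNorm u ≤ 4}, u ≠ u' →
        Disjoint (Finset.univ.filter fun i => u i ≠ 0) (Finset.univ.filter fun i => u' i ≠ 0)) := by
  classical
  obtain ⟨u, hu, hu4⟩ := exists_rep hdim hmin w
  have hdiff : ∀ x y : V, x - w ∈ C → y - w ∈ C → x + y ∈ C := by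
    intro x y hx hy
    have := C.sub_mem hx hy
    rw [sub_sub_sub_cancel_right, sub_eq] at this
    exact this
  by_cases h3 : (support₂ u).card ≤ 3
  · left
    refine ⟨u, ?_, by rw [hammingNorm_eq_card]; exact h3⟩
    ext x
    simp only [Set.mem_setOf_eq, Set.mem_singleton_iff, hammingNorm_eq_card]
    constructor
    · rintro ⟨hx, hx4⟩
      have h1 := card_add x u
      exact eq_of_small hmin (hdiff x u hx hu) (by omega)
    · rintro rfl; exact ⟨hu, hu4⟩
  · right
    have hu4' : (support₂ u).card = 4 := by omega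
    have key : ∀ x : V, x - w ∈ C → hammingNorm x ≤ 4 → (support₂ x).card = 4 ∧ cl C (support₂ x) = cl C (support₂ u) := by
      intro x hx hx4
      rw [hammingNorm_eq_card] at hx4
      refine ⟨?_, by rw [cl_eq_iff, ofSupp_support, ofSupp_support]; exact hdiff x u hx hu⟩
      by_contra hne
      have h1 := card_add x u
      have := eq_of_small hmin (hdiff x u hx hu) (by omega)
      rw [this] at hne
      exact hne hu4'
    refine ⟨?_, fun x hx => ⟨?_, fun y hy hxy => ?_⟩⟩
    · have : {u : V | u - w ∈ C ∧ hammingNorm u ≤ 4} = (ofSupp '' ((SB.filter fun t => cl C t = cl C (support₂ u) : Finset (Finset (Fin 24))) : Set (Finset (Fin 24)))) := by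
        ext x
        simp only [Set.mem_setOf_eq, Set.mem_image, mem_coe, mem_filter, mem_SB]
        constructor
        · rintro ⟨hx, hx4⟩
          exact ⟨support₂ x, key x hx hx4, ofSupp_support x⟩
        · rintro ⟨t, ⟨ht, htc⟩, rfl⟩
          rw [cl_eq_iff, ofSupp_support] at htc
          refine ⟨?_, by rw [hammingNorm_eq_card, support_ofSupp, ht]⟩
          have h5 : ofSupp t - w = (ofSupp t + u) + (u - w) := by
            rw [sub_eq, sub_eq, add_assoc, ← add_assoc u u w, add_self, zero_add]
          rw [h5]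
          exact C.add_mem htc hu
      rw [this, Set.ncard_image_of_injective _ ofSupp_injective, Set.ncard_coe_finset]
      exact fiber_eq hdim hmin hu4'
    · rw [hammingNorm_eq_card]; exact (key x hx.1 hx.2).1
    · have hx' := key x hx.1 hx.2
      have hy' := key y hy.1 hy.2
      exact disj_B hmin hx'.1 hy'.1 (hx'.2.trans hy'.2.symm) (fun h => hxy (support_injective h))

end

end H94.GolayAbs
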