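import Cfsg.Agent.Lib.H94.Transv

/-!
Monomial matrices: basics, and the first reductions for overgroups of the determinant-one monomial group.
-/

set_option autoImplicit false
set_option linter.unusedSectionVars false

namespace H94.Mono

open Matrix Cfsg.Geo H94.Transv
open scoped MatrixGroups

variable {κ : Type} [Fintype κ] [DecidableEq κ] {F : Type*} [Field F]

/-- every column has at most one non-zero entry -/
def IsMono (g : Matrix κ κ F) : Prop := ∀ j, ∃ i, ∀ k, k ≠ i → g k j = 0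

theorem col_ne_zero (g : GL κ F) (j : κ) : ∃ i, (g : Matrix κ κ F) i j ≠ 0 := by
  by_contra hcon
  push Not at hcon
  have h1 : ((g⁻¹ : GL κ F) : Matrix κ κ F) * (g : Matrix κ κ F) = 1 := by
    rw [← Units.val_mul, inv_mul_cancel, Units.val_one]
  have h2 := congrFun (congrFun h1 j) j
  rw [Matrix.mul_apply, Matrix.one_apply_eq, Finset.sum_eq_zero (fun k _ => by rw [hcon k, mul_zero])] at h2
  exact zero_ne_one h2

theorem row_ne_zero (g : GL κ F) (i : κ) : ∃ j, (g : Matrix κ κ F) i j ≠ 0 := by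
  by_contra hcon
  push Not at hcon
  have h1 : (g : Matrix κ κ F) * ((g⁻¹ : GL κ F) : Matrix κ κ F) = 1 := by
    rw [← Units.val_mul, mul_inv_cancel, Units.val_one]
  have h2 := congrFun (congrFun h1 i) i
  rw [Matrix.mul_apply, Matrix.one_apply_eq, Finset.sum_eq_zero (fun k _ => by rw [hcon k, zero_mul])] at h2
  exact zero_ne_one h2

/-- normal form of a monomial invertible matrix -/
theorem mono_form {g : GL κ F} (h : IsMono (g : Matrix κ κ F)) :
    ∃ (σ : Equiv.Perm κ) (c : κ → Fˣ), ∀ k j, (g : Matrix κ κ F) k j = if k = σ j then (c j : F) else 0 := by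
  choose s hs using h
  have hne : ∀ j, (g : Matrix κ κ F) (s j) j ≠ 0 := by
    intro j h0
    obtain ⟨i, hi⟩ := col_ne_zero g j
    by_cases hij : i = s j
    · exact hi (hij ▸ h0)
    · exact hi (hs j i hij)
  have hinj : Function.Injective s := by
    intro j j' hjj
    by_contra hne'
    -- columns j and j' are proportional
    have h1 : ((g⁻¹ : GL κ F) : Matrix κ κ F) * (g : Matrix κ κ F) = 1 := by
      rw [← Units.val_mul, inv_mul_cancel, Units.val_one]
    have h2 := congrFun (congrFun h1 j) j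
    have h3 := congrFun (congrFun h1 j) j'
    rw [Matrix.mul_apply, Finset.sum_eq_single (s j)] at h2 h3
    · rw [Matrix.one_apply_eq] at h2
      rw [Matrix.one_apply_ne hne'] at h3
      rcases mul_eq_zero.1 h3 with h4 | h4
      · rw [h4, zero_mul] at h2; exact zero_ne_one h2
      · rw [hjj] at h4; exact hne j' h4
    · intro k _ hk; rw [hs j' k (hjj ▸ hk), mul_zero]
    · simp
    · intro k _ hk; rw [hs j k hk, mul_zero]
    · simp
  refine ⟨Equiv.ofBijective s (Finite.injective_iff_bijective.1 hinj), fun j => Units.mk0 _ (hne j), fun k j => ?_⟩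
  by_cases h : k = s j
  · subst h; simp
  · simp [h, hs j k h]

/-- the monomial matrix e_j ↦ c_j e_{σ j} -/
def monoM (σ : Equiv.Perm κ) (c : κ → Fˣ) : Matrix κ κ F := fun k j => if k = σ j then (c j : F) else 0

theorem monoM_eq (σ : Equiv.Perm κ) (c : κ → Fˣ) :
    (monoM σ c : Matrix κ κ F) = (σ⁻¹).permMatrix F * Matrix.diagonal fun j => (c j : F) := by
  ext k j
  rw [Matrix.mul_diagonal, monoM]
  simp only [Equiv.Perm.permMatrix, PEquiv.toMatrix_apply, Equiv.toPEquiv_apply, Option.mem_def, Option.some.injEq]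
  have e : (σ⁻¹ k = j) ↔ (k = σ j) := Equiv.symm_apply_eq σ
  simp only [e]
  by_cases h : k = σ j <;> simp [h]

theorem monoM_det (σ : Equiv.Perm κ) (c : κ → Fˣ) :
    (monoM σ c : Matrix κ κ F).det = (Equiv.Perm.sign σ : F) * ∏ j, (c j : F) := by
  rw [monoM_eq, Matrix.det_mul, Matrix.det_permutation, Matrix.det_diagonal, Equiv.Perm.sign_inv]

theorem monoM_det_ne (σ : Equiv.Perm κ) (c : κ → Fˣ) : (monoM σ c : Matrix κ κ F).det ≠ 0 := by
  rw [monoM_det]
  refine mul_ne_zero ?_ (Finset.prod_ne_zero_iff.2 fun j _ => (c j).ne_zero)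
  rcases Int.units_eq_one_or (Equiv.Perm.sign σ) with h | h <;> rw [h] <;> simp

noncomputable def monoGL (σ : Equiv.Perm κ) (c : κ → Fˣ) : GL κ F :=
  Matrix.GeneralLinearGroup.mkOfDetNeZero (monoM σ c) (monoM_det_ne σ c)

@[simp] theorem monoGL_val (σ : Equiv.Perm κ) (c : κ → Fˣ) : (monoGL σ c : Matrix κ κ F) = monoM σ c := rfl

theorem monoM_isMono (σ : Equiv.Perm κ) (c : κ → Fˣ) : IsMono (monoM σ c : Matrix κ κ F) :=
  fun j => ⟨σ j, fun k hk => by simp [monoM, hk]⟩

theorem mono_eq {g : GL κ F} (h : IsMono (g : Matrix κ κ F)) : ∃ (σ : Equiv.Perm κ) (c : κ → Fˣ), g = monoGL σ c := by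
  obtain ⟨σ, c, h⟩ := mono_form h
  exact ⟨σ, c, Units.ext (by ext k j; rw [h]; rfl)⟩

theorem monoM_mulVec_single (σ : Equiv.Perm κ) (c : κ → Fˣ) (j : κ) (x : F) :
    (monoM σ c : Matrix κ κ F) *ᵥ Pi.single j x = Pi.single (σ j) ((c j : F) * x) := by
  ext k
  rw [Matrix.mulVec_single]
  by_cases h : k = σ j
  · subst h; simp [monoM]
  · simp [monoM, h]

theorem monoM_mulVec (σ : Equiv.Perm κ) (c : κ → Fˣ) (x : κ → F) (k : κ) :
    ((monoM σ c : Matrix κ κ F) *ᵥ x) k = (c (σ⁻¹ k) : F) * x (σ⁻¹ k) := by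
  rw [Matrix.mulVec, dotProduct, Finset.sum_eq_single (σ⁻¹ k)]
  · simp [monoM]
  · intro j _ hj
    have : ¬ k = σ j := fun h => hj (by rw [h]; simp)
    simp [monoM, this]
  · simp

theorem isMono_mul {g h : Matrix κ κ F} (hg : IsMono g) (hh : IsMono h) : IsMono (g * h) := by
  intro j
  obtain ⟨i, hi⟩ := hh j
  obtain ⟨l, hl⟩ := hg i
  refine ⟨l, fun k hk => ?_⟩
  rw [Matrix.mul_apply]
  refine Finset.sum_eq_zero fun m _ => ?_
  by_cases hm : m = i
  · subst hm; rw [hl k hk, zero_mul]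
  · rw [hi m hm, mul_zero]

theorem isMono_inv {g : GL κ F} (hg : IsMono (g : Matrix κ κ F)) : IsMono ((g⁻¹ : GL κ F) : Matrix κ κ F) := by
  obtain ⟨σ, c, h⟩ := mono_form hg
  intro j
  refine ⟨σ⁻¹ j, fun k hk => ?_⟩
  -- g⁻¹ g = 1: (g⁻¹)_{k, σ l} c_l = δ
  have h1 : ((g⁻¹ : GL κ F) : Matrix κ κ F) * (g : Matrix κ κ F) = 1 := by
    rw [← Units.val_mul, inv_mul_cancel, Units.val_one]
  have h2 := congrFun (congrFun h1 k) (σ⁻¹ j)
  rw [Matrix.one_apply_ne hk, Matrix.mul_apply, Finset.sum_eq_single j] at h2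
  · rw [h, if_pos (by simp)] at h2
    exact (mul_eq_zero.1 h2).resolve_right (Units.ne_zero _)
  · intro l _ hl
    rw [h, if_neg (by simpa using hl), mul_zero]
  · simp

theorem isMono_one : IsMono (1 : Matrix κ κ F) := fun j => ⟨j, fun _ hk => Matrix.one_apply_ne hk⟩

theorem isMono_diagonal (d : κ → F) : IsMono (Matrix.diagonal d) :=
  fun j => ⟨j, fun _ hk => Matrix.diagonal_apply_ne _ hk⟩

/-- the monomial group -/
def monoSub (κ : Type) [Fintype κ] [DecidableEq κ] (F : Type*) [Field F] : Subgroup (GL κ F) where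
  carrier := {g | IsMono (g : Matrix κ κ F)}
  mul_mem' {a b} ha hb := by
    show IsMono ((a * b : GL κ F) : Matrix κ κ F)
    rw [Units.val_mul]; exact isMono_mul ha hb
  one_mem' := isMono_one
  inv_mem' {a} ha := isMono_inv ha

/-- K contains all monomial matrices of determinant one -/
def HasN (K : Subgroup (GL κ F)) : Prop := ∀ g : GL κ F, IsMono (g : Matrix κ κ F) → (g : Matrix κ κ F).det = 1 → g ∈ K

variable {K : Subgroup (GL κ F)}

/-- diag(ε at i, ε⁻¹ at j) -/
def d2 (i j : κ) (ε : Fˣ) : κ → Fˣ := Pi.mulSingle i ε * Pi.mulSingle j ε⁻¹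

theorem prod_d2 (i j : κ) (ε : Fˣ) : ∏ k, d2 i j ε k = 1 := by
  simp only [d2, Pi.mul_apply]
  rw [Finset.prod_mul_distrib]
  have : ∀ (i : κ) (ε : Fˣ), ∏ k, (Pi.mulSingle i ε : κ → Fˣ) k = ε := by
    intro i ε
    rw [Finset.prod_eq_single i]
    · simp
    · intro b _ hb; simp [hb]
    · simp
  rw [this, this, mul_inv_cancel]

theorem diagHom_mem (hK : HasN K) {d : κ → Fˣ} (hd : ∏ k, d k = 1) : diagHom κ F d ∈ K := by
  refine hK _ (isMono_diagonal _) ?_
  rw [diagHom_val, Matrix.det_diagonal]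
  have := congrArg (Units.val) hd
  push_cast at this
  exact this

theorem diagHom_mulVec (d : κ → Fˣ) (x : κ → F) (i : κ) : ((diagHom κ F d : Matrix κ κ F) *ᵥ x) i = d i * x i := by
  rw [diagHom_val, Matrix.mulVec_diagonal]

theorem vecMul_diagHom_inv (d : κ → Fˣ) (θ : κ → F) (i : κ) :
    (θ ᵥ* (((diagHom κ F d)⁻¹ : GL κ F) : Matrix κ κ F)) i = θ i * ((d i)⁻¹ : Fˣ) := by
  rw [← map_inv, diagHom_val, Matrix.vecMul_diagonal]
  rfl

theorem d2_left {i j : κ} (hij : i ≠ j) (ε : Fˣ) : d2 i j ε i = ε := by simp [d2, hij]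
theorem d2_right {i j : κ} (hij : i ≠ j) (ε : Fˣ) : d2 i j ε j = ε⁻¹ := by simp [d2, hij.symm]
theorem d2_other {i j k : κ} (hi : k ≠ i) (hj : k ≠ j) (ε : Fˣ) : d2 i j ε k = 1 := by simp [d2, hi, hj]

theorem exists_fourth (hn : 4 ≤ Fintype.card κ) (a b c : κ) : ∃ d, d ≠ a ∧ d ≠ b ∧ d ≠ c := by
  by_contra hcon
  push Not at hcon
  have h : (Finset.univ : Finset κ) ⊆ {a, b, c} := by
    intro d _
    simp only [Finset.mem_insert, Finset.mem_singleton]
    by_contra h
    push Not at h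
    exact h.2.2 (hcon d h.1 h.2.1)
  have h1 := Finset.card_le_card h
  have h2 : ({a, b, c} : Finset κ).card ≤ 3 := Finset.card_le_three
  rw [Finset.card_univ] at h1
  omega

/-- torus conjugation on a transvection with centre e_i -/
theorem conj_diag {i : κ} {θ : κ → F} (hK : HasN K) (h : HasT K (Pi.single i 1) θ) {d : κ → Fˣ} (hd : ∏ k, d k = 1) :
    HasT K (Pi.single i 1) (fun j => (d i : F) * (θ j * ((d j)⁻¹ : Fˣ))) := by
  have h1 := h.conj (diagHom_mem hK hd)
  have e1 : (diagHom κ F d : Matrix κ κ F) *ᵥ Pi.single i 1 = (d i : F) • Pi.single i 1 := by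
    ext j
    rw [diagHom_mulVec]
    by_cases hj : j = i
    · subst hj; simp
    · simp [hj]
  rw [e1, hasT_smul_iff (d i).ne_zero] at h1
  convert h1 using 1
  ext j
  rw [Pi.smul_apply, smul_eq_mul, vecMul_diagHom_inv]

/-- a transvection with centre e_i gives an elementary one -/
theorem exists_elem (hK : HasN K) (hn : 4 ≤ Fintype.card κ) {ε : Fˣ} (hε : ε ≠ 1) {i : κ} {θ : κ → F} (hθ : θ ≠ 0)
    (h : HasT K (Pi.single i 1) θ) : ∃ j, j ≠ i ∧ ∃ c : F, c ≠ 0 ∧ HasT K (Pi.single i 1) (Pi.single j c) := by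
  have hθi : θ i = 0 := by simpa using h.1
  obtain ⟨j, hj⟩ : ∃ j, θ j ≠ 0 := by
    by_contra hcon
    push Not at hcon
    exact hθ (funext hcon)
  have hji : j ≠ i := by rintro rfl; exact hj hθi
  have hε' : ((ε⁻¹ : Fˣ) : F) - 1 ≠ 0 := by
    intro h0
    apply hε
    have : ε⁻¹ = 1 := Units.ext (by simpa using sub_eq_zero.1 h0)
    exact inv_eq_one.1 this
  -- the basic step
  have step : ∀ {η : κ → F} {k : κ}, HasT K (Pi.single i 1) η → k ≠ i → k ≠ j →
      HasT K (Pi.single i 1) (Pi.single j ((((ε⁻¹ : Fˣ) : F) - 1) * η j) + Pi.single k (((ε : F) - 1) * η k)) := by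
    intro η k hη hki hkj
    have h1 := (conj_diag hK hη (prod_d2 j k ε)).sub_right hη
    convert h1 using 1
    ext l
    simp only [Pi.add_apply, Pi.sub_apply]
    rw [d2_other hji.symm hki.symm]
    by_cases hlj : l = j
    · subst hlj
      rw [d2_left (Ne.symm hkj)]
      simp [Ne.symm hkj]
      ring
    · by_cases hlk : l = k
      · subst hlk
        rw [d2_right (Ne.symm hkj)]
        simp [hkj]
        ring
      · rw [d2_other hlj hlk]
        simp [hlj, hlk]
  obtain ⟨k, hki, hkj, -⟩ := exists_fourth hn i j j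
  obtain ⟨k', hki', hkj', hkk'⟩ := exists_fourth hn i j k
  have h1 := step h hki hkj
  have h2 := step h1 hki' hkj'
  refine ⟨j, hji, (((ε⁻¹ : Fˣ) : F) - 1) * ((((ε⁻¹ : Fˣ) : F) - 1) * θ j), mul_ne_zero hε' (mul_ne_zero hε' hj), ?_⟩
  convert h2 using 1
  have e1 : (Pi.single j ((((ε⁻¹ : Fˣ) : F) - 1) * θ j) + Pi.single k (((ε : F) - 1) * θ k) : κ → F) k' = 0 := by
    simp [hkj', hkk']
  have e2 : (Pi.single j ((((ε⁻¹ : Fˣ) : F) - 1) * θ j) + Pi.single k (((ε : F) - 1) * θ k) : κ → F) j =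
      (((ε⁻¹ : Fˣ) : F) - 1) * θ j := by
    simp [Ne.symm hkj]
  rw [e1, e2, mul_zero, Pi.single_zero, add_zero]

/-- from one elementary transvection to all of them -/
theorem sl_of_elem (hK : HasN K) (hn : 4 ≤ Fintype.card κ) {i j : κ} (hij : i ≠ j) {c : F} (hc : c ≠ 0)
    (h : HasT K (Pi.single i 1) (Pi.single j c)) : specialLinear κ F ≤ K := by
  -- all scalars
  have h1 : ∀ x : F, HasT K (Pi.single i x) (Pi.single j 1) := by
    intro x
    by_cases hx : x = 0
    · rw [hx, Pi.single_zero]; exact HasT.zero_left _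
    obtain ⟨k, hki, hkj, -⟩ := exists_fourth hn i j j
    set ε : Fˣ := Units.mk0 (x * c⁻¹) (mul_ne_zero hx (inv_ne_zero hc)) with hε
    have h2 := conj_diag hK h (prod_d2 i k ε)
    have e1 : (Pi.single i x : κ → F) = x • Pi.single i 1 := by ext l; by_cases hl : l = i <;> simp [hl]
    rw [e1, hasT_smul_iff hx]
    convert h2 using 1
    ext l
    rw [d2_left (Ne.symm hki)]
    by_cases hl : l = j
    · subst hl
      rw [d2_other (Ne.symm hij) (Ne.symm hkj)]
      simp [hε]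
      field_simp
    · simp [hl]
  -- all pairs
  apply specialLinear_le_of_elementary
  intro i' j' x hij'
  obtain ⟨σ, hσi, hσj⟩ : ∃ σ : Equiv.Perm κ, σ i = i' ∧ σ j = j' := by
    refine ⟨Equiv.swap (Equiv.swap i i' j) j' * Equiv.swap i i', ?_, ?_⟩
    · rw [Equiv.Perm.mul_apply, Equiv.swap_apply_left]
      refine Equiv.swap_apply_of_ne_of_ne ?_ hij'
      intro h
      apply hij
      apply (Equiv.swap i i').injective
      rw [Equiv.swap_apply_left, ← h]
    · rw [Equiv.Perm.mul_apply, Equiv.swap_apply_left]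
  set s : Fˣ := Units.map (Int.castRingHom F).toMonoidHom (Equiv.Perm.sign σ) with hs
  have hss : (s : F) = ((Equiv.Perm.sign σ : ℤˣ) : ℤ) := rfl
  set cc : κ → Fˣ := Pi.mulSingle i s with hcc
  have hdet : (monoM σ cc : Matrix κ κ F).det = 1 := by
    rw [monoM_det]
    have : ∏ l, ((cc l : Fˣ) : F) = s := by
      rw [Finset.prod_eq_single i]
      · simp [hcc]
      · intro b _ hb; simp [hcc, hb]
      · simp
    rw [this, hss]
    rcases Int.units_eq_one_or (Equiv.Perm.sign σ) with h | h <;> simp [h]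
  have hmem : monoGL σ cc ∈ K := hK _ (monoM_isMono _ _) hdet
  have h2 := (h1 ((s : F) * x)).conj hmem
  rw [monoGL_val, monoM_mulVec_single, hσi] at h2
  have e1 : (Pi.single j 1 : κ → F) ᵥ* (((monoGL σ cc)⁻¹ : GL κ F) : Matrix κ κ F) = Pi.single j' 1 := by
    have e2 : (Pi.single j' 1 : κ → F) ᵥ* ((monoGL σ cc : GL κ F) : Matrix κ κ F) = Pi.single j 1 := by
      ext l
      rw [Matrix.single_vecMul, monoGL_val]
      by_cases hl : l = j
      · subst hl
        simp [monoM, hσj, hcc, Ne.symm hij]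
      · have : ¬ j' = σ l := fun h => hl (σ.injective (by rw [← h, hσj]))
        simp [monoM, this, hl]
    rw [← e2, Matrix.vecMul_vecMul, ← Units.val_mul, mul_inv_cancel, Units.val_one, Matrix.vecMul_one]
  rw [e1] at h2
  have e3 : ((cc i : Fˣ) : F) * ((s : F) * x) = x := by
    have : ((cc i : Fˣ) : F) = s := by simp [hcc]
    rw [this, hss]
    rcases Int.units_eq_one_or (Equiv.Perm.sign σ) with h | h <;> simp [h]
  rw [e3] at h2
  exact h2

theorem sl_of_T (hK : HasN K) (hn : 4 ≤ Fintype.card κ) {ε : Fˣ} (hε : ε ≠ 1) {i : κ} {θ : κ → F} (hθ : θ ≠ 0)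
    (h : HasT K (Pi.single i 1) θ) : specialLinear κ F ≤ K := by
  obtain ⟨j, hji, c, hc, h1⟩ := exists_elem hK hn hε hθ h
  exact sl_of_elem hK hn (Ne.symm hji) hc h1

/-- Two elements of K with equal determinants that differ only in row o: K ≥ SL -/
theorem sl_of_row (hK : HasN K) (hn : 4 ≤ Fintype.card κ) {ε : Fˣ} (hε : ε ≠ 1) {x y : GL κ F} (hx : x ∈ K) (hy : y ∈ K)
    (hdet : (x : Matrix κ κ F).det = (y : Matrix κ κ F).det) (hxy : x ≠ y) {o : κ}
    (h : ∀ a, a ≠ o → ∀ b, (x : Matrix κ κ F) a b = (y : Matrix κ κ F) a b) : specialLinear κ F ≤ K := by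
  set η : κ → F := fun b => (x : Matrix κ κ F) o b - (y : Matrix κ κ F) o b with hη
  have h1 : (x : Matrix κ κ F) = (y : Matrix κ κ F) + vecMulVec (Pi.single o 1) η := by
    ext a b
    rw [Matrix.add_apply, vecMulVec_apply]
    by_cases ha : a = o
    · subst ha; simp [hη]
    · simp [ha, h a ha b]
  have h2 : ((x * y⁻¹ : GL κ F) : Matrix κ κ F) = tm (Pi.single o 1) (η ᵥ* ((y⁻¹ : GL κ F) : Matrix κ κ F)) := by
    rw [Units.val_mul, h1, add_mul, ← Units.val_mul, mul_inv_cancel, Units.val_one, vecMulVec_mul, tm]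
  have h3 : (η ᵥ* ((y⁻¹ : GL κ F) : Matrix κ κ F)) ⬝ᵥ Pi.single o 1 = 0 := by
    have h4 := congrArg Matrix.det h2
    have h5 := Matrix.det_one_add_replicateCol_mul_replicateRow (ι := Unit) (Pi.single o 1 : κ → F) (η ᵥ* ((y⁻¹ : GL κ F) : Matrix κ κ F))
    rw [tm, vecMulVec_eq Unit, h5, Units.val_mul, Matrix.det_mul, hdet, ← Matrix.det_mul, ← Units.val_mul,
      mul_inv_cancel, Units.val_one, Matrix.det_one] at h4
    linear_combination -h4
  have h4 : η ᵥ* ((y⁻¹ : GL κ F) : Matrix κ κ F) ≠ 0 := by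
    intro h0
    rw [h0, tm_zero_right] at h2
    exact hxy (mul_inv_eq_one.1 (Units.ext (by rw [h2]; rfl)))
  exact sl_of_T hK hn hε h4 ⟨h3, _, K.mul_mem hx (K.inv_mem hy), h2⟩

end H94.Mono
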