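import Cfsg.Agent.Lib.H94.MonoBase

/-!
Overgroups in GL of the full monomial group over a field with at least 5 elements: monomial or containing SL.
-/

set_option autoImplicit false
set_option linter.unusedSectionVars false

namespace H94.Mono

open Matrix Cfsg.Geo H94.Transv
open scoped MatrixGroups

variable {κ : Type} [Fintype κ] [DecidableEq κ] {F : Type*} [Field F]

theorem vecMul_monoM (σ : Equiv.Perm κ) (c : κ → Fˣ) (φ : κ → F) (j : κ) :
    (φ ᵥ* (monoM σ c : Matrix κ κ F)) j = φ (σ j) * c j := by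
  rw [Matrix.vecMul, dotProduct, Finset.sum_eq_single (σ j)]
  · simp [monoM]
  · intro a _ ha; simp [monoM, ha]
  · simp

variable {L : Subgroup (GL κ F)}

/-- L contains all monomial matrices -/
def HasM (L : Subgroup (GL κ F)) : Prop := ∀ g : GL κ F, IsMono (g : Matrix κ κ F) → g ∈ L

theorem HasM.hasN (hL : HasM L) : HasN L := fun g hg _ => hL g hg

theorem A1 (hL : HasM L) (hns : ¬ specialLinear κ F ≤ L) (hn : 4 ≤ Fintype.card κ) {ε : Fˣ} (hε : ε ≠ 1)
    {y : GL κ F} (hy : y ∈ L) {i : κ} (hi : ∀ a, a ≠ i → (y : Matrix κ κ F) a i = 0) :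
    ∀ b, b ≠ i → (y : Matrix κ κ F) i b = 0 := by
  intro b hb
  set h : GL κ F := diagHom κ F (Pi.mulSingle i ε) with hh
  have hmem : h ∈ L := hL _ (isMono_diagonal _)
  have hval : (h : Matrix κ κ F) = Matrix.diagonal fun j => ((Pi.mulSingle i ε : κ → Fˣ) j : F) := rfl
  by_contra hcon
  apply hns
  refine sl_of_row hL.hasN hn hε (L.mul_mem hy hmem) (L.mul_mem hmem hy) ?_ ?_ (o := i) ?_
  · rw [Units.val_mul, Units.val_mul, Matrix.det_mul, Matrix.det_mul, mul_comm]
  · intro heq
    have h1 : ((y * h : GL κ F) : Matrix κ κ F) i b = ((h * y : GL κ F) : Matrix κ κ F) i b := by rw [heq]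
    rw [Units.val_mul, Units.val_mul, hval, Matrix.mul_diagonal, Matrix.diagonal_mul] at h1
    have e1 : ((Pi.mulSingle i ε : κ → Fˣ) b) = 1 := by simp [hb]
    have e2 : ((Pi.mulSingle i ε : κ → Fˣ) i) = ε := by simp
    rw [e1, e2, Units.val_one, mul_one] at h1
    have h2 : ((ε : F) - 1) * (y : Matrix κ κ F) i b = 0 := by linear_combination -h1
    rcases mul_eq_zero.1 h2 with h3 | h3
    · exact hε (Units.ext (by simpa using sub_eq_zero.1 h3))
    · exact hcon h3
  · intro a ha b
    rw [Units.val_mul, Units.val_mul, hval, Matrix.mul_diagonal, Matrix.diagonal_mul]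
    have e1 : ((Pi.mulSingle i ε : κ → Fˣ) a) = 1 := by simp [ha]
    rw [e1, Units.val_one, one_mul]
    by_cases hb : b = i
    · subst hb; rw [hi a ha, zero_mul]
    · have e2 : ((Pi.mulSingle i ε : κ → Fˣ) b) = 1 := by simp [hb]
      rw [e2, Units.val_one, mul_one]

/-- if n fixes the i-th column of y then it fixes the i-th row of y⁻¹ -/
theorem row_fixed (hL : HasM L) (hns : ¬ specialLinear κ F ≤ L) (hn : 4 ≤ Fintype.card κ) {ε : Fˣ} (hε : ε ≠ 1)
    {y n : GL κ F} (hy : y ∈ L) (hnL : n ∈ L) {i : κ}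
    (h : (n : Matrix κ κ F) *ᵥ (fun j => (y : Matrix κ κ F) j i) = fun j => (y : Matrix κ κ F) j i) :
    (fun j => ((y⁻¹ : GL κ F) : Matrix κ κ F) i j) ᵥ* (n : Matrix κ κ F) =
      fun j => ((y⁻¹ : GL κ F) : Matrix κ κ F) i j := by
  set z : GL κ F := y⁻¹ * n * y with hz
  have hzL : z ∈ L := L.mul_mem (L.mul_mem (L.inv_mem hy) hnL) hy
  have hcol : (z : Matrix κ κ F) *ᵥ Pi.single i 1 = Pi.single i 1 := by
    have e1 : (y : Matrix κ κ F) *ᵥ Pi.single i 1 = fun j => (y : Matrix κ κ F) j i := by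
      rw [Matrix.mulVec_single_one]; rfl
    rw [hz, Units.val_mul, Units.val_mul, ← Matrix.mulVec_mulVec, ← Matrix.mulVec_mulVec, e1, h, ← e1,
      Matrix.mulVec_mulVec, ← Units.val_mul, inv_mul_cancel, Units.val_one, one_mulVec]
  have hcol' : ∀ a, (z : Matrix κ κ F) a i = (Pi.single i 1 : κ → F) a := by
    intro a
    have := congrFun hcol a
    rwa [Matrix.mulVec_single_one] at this
  have hrow : ∀ b, b ≠ i → (z : Matrix κ κ F) i b = 0 :=
    A1 hL hns hn hε hzL (fun a ha => by rw [hcol', Pi.single_eq_of_ne ha])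
  have hrow' : (Pi.single i 1 : κ → F) ᵥ* (z : Matrix κ κ F) = Pi.single i 1 := by
    ext b
    rw [Matrix.single_one_vecMul]
    by_cases hb : b = i
    · subst hb; simpa using hcol' b
    · show (z : Matrix κ κ F) i b = _
      rw [hrow b hb, Pi.single_eq_of_ne hb]
  have e2 : (Pi.single i 1 : κ → F) ᵥ* ((y⁻¹ : GL κ F) : Matrix κ κ F) = fun j => ((y⁻¹ : GL κ F) : Matrix κ κ F) i j := by
    rw [Matrix.single_one_vecMul]; rfl
  have h3 := congrArg (fun x => x ᵥ* ((y⁻¹ : GL κ F) : Matrix κ κ F)) hrow'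
  simp only [hz, Units.val_mul, ← Matrix.vecMul_vecMul] at h3
  rw [Matrix.vecMul_vecMul _ (y : Matrix κ κ F), ← Units.val_mul, mul_inv_cancel, Units.val_one, vecMul_one, e2] at h3
  exact h3

open Classical in
/-- the support of the i-th column -/
noncomputable def cs (y : Matrix κ κ F) (i : κ) : Finset κ := Finset.univ.filter fun j => y j i ≠ 0

theorem mem_cs {y : Matrix κ κ F} {i j : κ} : j ∈ cs y i ↔ y j i ≠ 0 := by simp [cs]

theorem C1 (hL : HasM L) (hns : ¬ specialLinear κ F ≤ L) (hn : 4 ≤ Fintype.card κ) {ε : Fˣ} (hε : ε ≠ 1)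
    {y : GL κ F} (hy : y ∈ L) {i j : κ} (hj : (y : Matrix κ κ F) j i = 0) : ((y⁻¹ : GL κ F) : Matrix κ κ F) i j = 0 := by
  have h1 := row_fixed hL hns hn hε hy (n := diagHom κ F (Pi.mulSingle j ε)) (hL _ (isMono_diagonal _)) (i := i) (by
    ext a
    rw [diagHom_mulVec]
    by_cases ha : a = j
    · subst ha; rw [hj, mul_zero]
    · simp [ha])
  have h2 := congrFun h1 j
  rw [diagHom_val, Matrix.vecMul_diagonal] at h2
  simp only [Pi.mulSingle_eq_same] at h2
  have h3 : ((y⁻¹ : GL κ F) : Matrix κ κ F) i j * ((ε : F) - 1) = 0 := by linear_combination h2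
  rcases mul_eq_zero.1 h3 with h4 | h4
  · exact h4
  · exact absurd (Units.ext (by simpa using sub_eq_zero.1 h4)) hε

theorem C2 (hL : HasM L) (hns : ¬ specialLinear κ F ≤ L) (hn : 4 ≤ Fintype.card κ) {ε : Fˣ} (hε : ε ≠ 1)
    {y : GL κ F} (hy : y ∈ L) {i j k : κ} (hj : (y : Matrix κ κ F) j i ≠ 0) (hk : (y : Matrix κ κ F) k i ≠ 0) :
    (y : Matrix κ κ F) j i * ((y⁻¹ : GL κ F) : Matrix κ κ F) i j =
      (y : Matrix κ κ F) k i * ((y⁻¹ : GL κ F) : Matrix κ κ F) i k := by
  by_cases hjk : j = k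
  · rw [hjk]
  set uj : Fˣ := Units.mk0 _ hj
  set uk : Fˣ := Units.mk0 _ hk
  set c : κ → Fˣ := fun l => if l = j then uk * uj⁻¹ else if l = k then uj * uk⁻¹ else 1 with hc
  have h1 := row_fixed hL hns hn hε hy (n := monoGL (Equiv.swap j k) c) (hL _ (monoM_isMono _ _)) (i := i) (by
    ext a
    rw [monoGL_val, monoM_mulVec, Equiv.swap_inv]
    by_cases ha : a = j
    · subst ha
      rw [Equiv.swap_apply_left]
      simp [hc, Ne.symm hjk, uj, uk]
      field_simp
    · by_cases ha' : a = k
      · subst ha'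
        rw [Equiv.swap_apply_right]
        simp [hc, uj, uk]
        field_simp
      · rw [Equiv.swap_apply_of_ne_of_ne ha ha']
        simp [hc, ha, ha'])
  have h2 := congrFun h1 j
  rw [monoGL_val, vecMul_monoM, Equiv.swap_apply_left] at h2
  simp only [hc, if_true] at h2
  rw [← h2]
  simp [uj, uk]
  field_simp

theorem C3 (hL : HasM L) (hns : ¬ specialLinear κ F ≤ L) (hn : 4 ≤ Fintype.card κ) {ε : Fˣ} (hε : ε ≠ 1)
    {y : GL κ F} (hy : y ∈ L) {i j : κ} (hj : (y : Matrix κ κ F) j i ≠ 0) :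
    ((cs (y : Matrix κ κ F) i).card : F) * ((y : Matrix κ κ F) j i * ((y⁻¹ : GL κ F) : Matrix κ κ F) i j) = 1 := by
  classical
  have h1 : ((y⁻¹ : GL κ F) : Matrix κ κ F) * (y : Matrix κ κ F) = 1 := by
    rw [← Units.val_mul, inv_mul_cancel, Units.val_one]
  have h2 := congrFun (congrFun h1 i) i
  rw [Matrix.one_apply_eq, Matrix.mul_apply] at h2
  rw [← h2, ← Finset.sum_subset (Finset.subset_univ (cs (y : Matrix κ κ F) i))]
  · rw [Finset.sum_congr rfl (g := fun _ => (y : Matrix κ κ F) j i * ((y⁻¹ : GL κ F) : Matrix κ κ F) i j)]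
    · rw [Finset.sum_const, nsmul_eq_mul]
    · intro k hk
      rw [mul_comm, C2 hL hns hn hε hy (mem_cs.1 hk) hj]
  · intro k _ hk
    have : (y : Matrix κ κ F) k i = 0 := by
      by_contra h; exact hk (mem_cs.2 h)
    rw [this, mul_zero]

/-- the homology y diag(ε at i) y⁻¹ -/
theorem homology_mem (hL : HasM L) {y : GL κ F} (hy : y ∈ L) (i : κ) (ε : Fˣ) :
    ∃ h ∈ L, (∀ a b, (h : Matrix κ κ F) a b = (if a = b then 1 else 0) +
      ((ε : F) - 1) * ((y : Matrix κ κ F) a i * ((y⁻¹ : GL κ F) : Matrix κ κ F) i b)) ∧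
      (∀ a b, ((h⁻¹ : GL κ F) : Matrix κ κ F) a b = (if a = b then 1 else 0) +
      (((ε⁻¹ : Fˣ) : F) - 1) * ((y : Matrix κ κ F) a i * ((y⁻¹ : GL κ F) : Matrix κ κ F) i b)) := by
  have key : ∀ (ε : Fˣ) a b, ((y * diagHom κ F (Pi.mulSingle i ε) * y⁻¹ : GL κ F) : Matrix κ κ F) a b =
      (if a = b then 1 else 0) + ((ε : F) - 1) * ((y : Matrix κ κ F) a i * ((y⁻¹ : GL κ F) : Matrix κ κ F) i b) := by
    intro ε a b
    have e1 : (diagHom κ F (Pi.mulSingle i ε) : Matrix κ κ F) = 1 + vecMulVec (Pi.single i ((ε : F) - 1)) (Pi.single i 1) := by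
      rw [diagHom_val]
      ext k l
      rw [Matrix.add_apply, vecMulVec_apply]
      by_cases hkl : k = l
      · subst hkl
        by_cases hk : k = i
        · subst hk; simp
        · simp [hk]
      · rw [Matrix.diagonal_apply_ne _ hkl, Matrix.one_apply_ne hkl]
        by_cases hk : k = i
        · subst hk; simp [Ne.symm hkl]
        · simp [hk]
    rw [Units.val_mul, Units.val_mul, e1, mul_add, mul_one, add_mul, ← Units.val_mul, mul_inv_cancel, Units.val_one,
      mul_vecMulVec, vecMulVec_mul, Matrix.add_apply, Matrix.one_apply, vecMulVec_apply, Matrix.single_one_vecMul,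
      Matrix.mulVec_single]
    simp
    ring
  refine ⟨y * diagHom κ F (Pi.mulSingle i ε) * y⁻¹, L.mul_mem (L.mul_mem hy (hL _ (isMono_diagonal _))) (L.inv_mem hy),
    key ε, ?_⟩
  have e2 : (y * diagHom κ F (Pi.mulSingle i ε) * y⁻¹)⁻¹ = y * diagHom κ F (Pi.mulSingle i ε⁻¹) * y⁻¹ := by
    rw [Pi.mulSingle_inv, map_inv]; group
  rw [e2]
  exact key ε⁻¹

theorem D1 (hL : HasM L) (hns : ¬ specialLinear κ F ≤ L) (hn : 4 ≤ Fintype.card κ)
    {y : GL κ F} (hy : y ∈ L) {i : κ} (h2 : 2 ≤ (cs (y : Matrix κ κ F) i).card) {ε : Fˣ} (hε : ε ≠ 1) :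
    (ε : F) = 1 - ((cs (y : Matrix κ κ F) i).card : F) ∨
      ((ε : F) - 1) ^ 2 + ((cs (y : Matrix κ κ F) i).card : F) * ε = 0 := by
  classical
  set s : F := ((cs (y : Matrix κ κ F) i).card : F) with hs
  obtain ⟨i1, hi1, j, hj, hne⟩ := Finset.one_lt_card.1 (show 1 < (cs (y : Matrix κ κ F) i).card by omega)
  obtain ⟨h, hh, he, he'⟩ := homology_mem hL hy i ε
  have hC := fun k (hk : (y : Matrix κ κ F) k i ≠ 0) => C3 hL hns hn hε hy hk
  have hs0 : s ≠ 0 := by
    intro h0
    have := hC i1 (mem_cs.1 hi1)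
    rw [← hs, h0, zero_mul] at this
    exact zero_ne_one this
  have hε1 : (ε : F) - 1 ≠ 0 := fun h0 => hε (Units.ext (by simpa using sub_eq_zero.1 h0))
  have hd : (h : Matrix κ κ F) i1 i1 = 1 + ((ε : F) - 1) / s := by
    rw [he, if_pos rfl]
    have := hC i1 (mem_cs.1 hi1)
    rw [← hs] at this
    have e : (y : Matrix κ κ F) i1 i * ((y⁻¹ : GL κ F) : Matrix κ κ F) i i1 = 1 / s := by
      field_simp; linear_combination this
    rw [e]; ring
  by_cases h0 : 1 + ((ε : F) - 1) / s = 0
  · left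
    field_simp at h0
    linear_combination h0
  right
  -- support of the column i1 of h is the same
  have hφ : ((y⁻¹ : GL κ F) : Matrix κ κ F) i i1 ≠ 0 := by
    intro h0'
    have := hC i1 (mem_cs.1 hi1)
    rw [h0', mul_zero, mul_zero] at this
    exact zero_ne_one this
  have hcs : cs (h : Matrix κ κ F) i1 = cs (y : Matrix κ κ F) i := by
    ext k
    rw [mem_cs, mem_cs]
    by_cases hk : k = i1
    · subst hk
      rw [hd]
      exact ⟨fun _ => mem_cs.1 hi1, fun _ => h0⟩
    · rw [he, if_neg hk, zero_add]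
      constructor
      · intro h1 h3; apply h1; rw [h3, zero_mul, mul_zero]
      · intro h1; exact mul_ne_zero hε1 (mul_ne_zero h1 hφ)
  have hji : (h : Matrix κ κ F) j i1 ≠ 0 := by
    rw [← mem_cs, hcs]; exact hj
  have h3 := C3 hL hns hn hε hh hji
  rw [hcs, ← hs, he, he', if_neg hne.symm, if_neg hne, zero_add, zero_add] at h3
  have h4 := hC i1 (mem_cs.1 hi1)
  have h5 := hC j (mem_cs.1 hj)
  rw [← hs] at h4 h5
  have hinv : (ε : F) * ((ε⁻¹ : Fˣ) : F) = 1 := Units.mul_inv ε
  set u1 := (y : Matrix κ κ F) i1 i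
  set u2 := (y : Matrix κ κ F) j i
  set p1 := ((y⁻¹ : GL κ F) : Matrix κ κ F) i i1
  set p2 := ((y⁻¹ : GL κ F) : Matrix κ κ F) i j
  set e' := ((ε⁻¹ : Fˣ) : F)
  -- s * ((ε-1) u2 p1) ((e'-1) u1 p2) = 1, s u1 p1 = 1, s u2 p2 = 1
  have h6 : ((ε : F) - 1) * (e' - 1) = s := by
    have : s * (((ε : F) - 1) * (e' - 1) * (s * (u1 * p1)) * (s * (u2 * p2))) = s * s := by
      linear_combination (s * s) * h3
    rw [h4, h5] at this
    have := mul_left_cancel₀ hs0 this
    linear_combination this
  linear_combination (-(ε : F)) * h6 + ((ε : F) - 1) * hinv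

theorem card_le_five [Fintype F] (s : F) (h : ∀ ε : Fˣ, ε ≠ 1 → (ε : F) = 1 - s ∨ ((ε : F) - 1) ^ 2 + s * ε = 0) :
    Fintype.card F ≤ 5 := by
  classical
  let Q : Polynomial F := Polynomial.X ^ 2 + Polynomial.C (s - 2) * Polynomial.X + Polynomial.C 1
  have hdeg : Q.natDegree = 2 := by
    have : Q = Polynomial.C 1 * Polynomial.X ^ 2 + Polynomial.C (s - 2) * Polynomial.X + Polynomial.C 1 := by
      simp [Q]
    rw [this]
    exact Polynomial.natDegree_quadratic one_ne_zero
  have hQ0 : Q ≠ 0 := by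
    intro h0; rw [h0] at hdeg; simp at hdeg
  have hsub : (Finset.univ : Finset F) ⊆ {0, 1, 1 - s} ∪ Q.roots.toFinset := by
    intro x _
    by_cases h0 : x = 0
    · simp [h0]
    by_cases h1 : x = 1
    · simp [h1]
    rcases h (Units.mk0 x h0) (fun h2 => h1 (by simpa using congrArg Units.val h2)) with h3 | h3
    · simp at h3; simp [h3]
    · simp only [Units.val_mk0] at h3
      apply Finset.mem_union_right
      rw [Multiset.mem_toFinset, Polynomial.mem_roots hQ0]
      simp only [Q, Polynomial.IsRoot.def, Polynomial.eval_add, Polynomial.eval_pow, Polynomial.eval_X,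
        Polynomial.eval_mul, Polynomial.eval_C]
      linear_combination h3
  have h1 := Finset.card_le_card hsub
  have h2 := Finset.card_union_le ({0, 1, 1 - s} : Finset F) Q.roots.toFinset
  have h3 : ({0, 1, 1 - s} : Finset F).card ≤ 3 := Finset.card_le_three
  have h4 := Q.roots.toFinset_card_le
  have h5 := Polynomial.card_roots' Q
  rw [hdeg] at h5
  rw [Finset.card_univ] at h1
  omega

theorem two_of_five [Fintype F] (hq : Fintype.card F = 5) (s : F)
    (h : ∀ ε : Fˣ, ε ≠ 1 → (ε : F) = 1 - s ∨ ((ε : F) - 1) ^ 2 + s * ε = 0) : s = 2 := by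
  have h5 : (5 : F) = 0 := by
    have h := Nat.cast_card_eq_zero F
    rw [hq] at h; exact_mod_cast h
  have h2 : (2 : F) ≠ 0 := by
    intro h2
    have : (1 : F) = 0 := by linear_combination h5 - 2 * h2
    exact one_ne_zero this
  have h3 : (3 : F) ≠ 0 := by
    intro h3
    have : (1 : F) = 0 := by linear_combination 2 * h3 - h5
    exact one_ne_zero this
  have a1 := h (Units.mk0 2 h2) (fun h0 => by
    have := congrArg Units.val h0
    simp at this
    exact one_ne_zero (by linear_combination this : (1 : F) = 0))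
  have a2 := h (Units.mk0 3 h3) (fun h0 => by
    have := congrArg Units.val h0
    simp at this
    exact h2 (by linear_combination this))
  simp only [Units.val_mk0] at a1 a2
  rcases a1 with a1 | a1
  · rcases a2 with a2 | a2
    · exfalso
      exact one_ne_zero (by linear_combination a2 - a1 : (1 : F) = 0)
    · -- 2 = 1 - s, so s = -1; (3-1)^2 + 3 s = 0 gives 1 = 0
      exfalso
      exact one_ne_zero (by linear_combination a2 - 3 * a1 + 0 * h5 : (1 : F) = 0)
  · -- 1 + 2 s = 0, so s = 2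
    linear_combination (-2 : F) * a1 + s * h5

theorem two_le_cs {y : GL κ F} (hy : ¬ IsMono (y : Matrix κ κ F)) : ∃ i, 2 ≤ (cs (y : Matrix κ κ F) i).card := by
  rw [IsMono] at hy
  push Not at hy
  obtain ⟨i, hi⟩ := hy
  obtain ⟨k1, -, h1⟩ := hi i
  obtain ⟨k2, h2, h3⟩ := hi k1
  refine ⟨i, ?_⟩
  have : 1 < (cs (y : Matrix κ κ F) i).card := Finset.one_lt_card.2 ⟨k1, mem_cs.2 h1, k2, mem_cs.2 h3, Ne.symm h2⟩
  omega

theorem exists_unit_ne_one [Fintype F] (hq : 5 ≤ Fintype.card F) : ∃ ε : Fˣ, ε ≠ 1 := by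
  classical
  by_contra hcon
  push Not at hcon
  have h : (Finset.univ : Finset F) ⊆ {0, 1} := by
    intro x _
    by_cases h0 : x = 0
    · simp [h0]
    · have := congrArg Units.val (hcon (Units.mk0 x h0))
      simp at this
      simp [this]
  have h1 := Finset.card_le_card h
  have h2 : ({0, 1} : Finset F).card ≤ 2 := Finset.card_le_two
  rw [Finset.card_univ] at h1
  omega

/-- Over a field with at least 5 elements an overgroup of the full monomial group is monomial or contains SL. -/
theorem A_main [Fintype F] (hq : 5 ≤ Fintype.card F) (hn : 4 ≤ Fintype.card κ) (hL : HasM L) :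
    (∀ y ∈ L, IsMono (y : Matrix κ κ F)) ∨ specialLinear κ F ≤ L := by
  classical
  by_cases hns : specialLinear κ F ≤ L
  · exact Or.inr hns
  left
  intro y hy
  by_contra hym
  obtain ⟨ε, hε⟩ := exists_unit_ne_one hq
  obtain ⟨i, hi⟩ := two_le_cs hym
  have hq5 : Fintype.card F = 5 := le_antisymm (card_le_five _ (fun ε hε => D1 hL hns hn hy hi hε)) hq
  have hE : ∀ {z : GL κ F}, z ∈ L → ∀ {j : κ}, 2 ≤ (cs (z : Matrix κ κ F) j).card →
      ((cs (z : Matrix κ κ F) j).card : F) = 2 :=
    fun {z} hz {j} hj => two_of_five hq5 _ (fun ε hε => D1 hL hns hn hz hj hε)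
  have h5 : (5 : F) = 0 := by
    have h := Nat.cast_card_eq_zero F
    rw [hq5] at h; exact_mod_cast h
  have h2 : (2 : F) ≠ 0 := by
    intro h2
    exact one_ne_zero (by linear_combination h5 - 2 * h2 : (1 : F) = 0)
  have h3 : (3 : F) ≠ 0 := by
    intro h3
    exact one_ne_zero (by linear_combination 2 * h3 - h5 : (1 : F) = 0)
  have h4 : (4 : F) ≠ 0 := by
    intro h4
    exact one_ne_zero (by linear_combination h5 - h4 : (1 : F) = 0)
  have hs := hE hy hi
  set S := cs (y : Matrix κ κ F) i with hS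
  -- the homology with ε = 2
  have h21 : Units.mk0 (2 : F) h2 ≠ 1 := by
    intro h0
    have := congrArg Units.val h0
    simp at this
    exact one_ne_zero (by linear_combination this : (1 : F) = 0)
  obtain ⟨h, hh, he, -⟩ := homology_mem hL hy i (Units.mk0 (2 : F) h2)
  have hφ : ∀ j ∈ S, (y : Matrix κ κ F) j i * ((y⁻¹ : GL κ F) : Matrix κ κ F) i j = 3 := by
    intro j hj
    have := C3 hL hns hn hε hy (mem_cs.1 hj)
    rw [← hS, hs] at this
    linear_combination 3 * this - ((y : Matrix κ κ F) j i * ((y⁻¹ : GL κ F) : Matrix κ κ F) i j) * h5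
  have hφ0 : ∀ j ∉ S, ((y⁻¹ : GL κ F) : Matrix κ κ F) i j = 0 := by
    intro j hj
    refine C1 hL hns hn hε hy ?_
    by_contra h0; exact hj (mem_cs.2 h0)
  have hy0 : ∀ j ∉ S, (y : Matrix κ κ F) j i = 0 := by
    intro j hj
    by_contra h0; exact hj (mem_cs.2 h0)
  -- the action of h on a column x
  have hx : ∀ x : κ → F, ∀ a, ((h : Matrix κ κ F) *ᵥ x) a =
      x a + (∑ b, ((y⁻¹ : GL κ F) : Matrix κ κ F) i b * x b) * (y : Matrix κ κ F) a i := by
    intro x a
    have : (h : Matrix κ κ F) *ᵥ x = fun a => ∑ b, (h : Matrix κ κ F) a b * x b := rfl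
    rw [this]
    simp only [he, Units.val_mk0]
    rw [Finset.sum_mul, ← sub_eq_zero, add_comm (x a), sub_add_eq_sub_sub, ← Finset.sum_sub_distrib]
    rw [Finset.sum_eq_single a]
    · rw [if_pos rfl]; ring
    · intro b _ hb; rw [if_neg (Ne.symm hb)]; ring
    · simp
  by_cases hfull : ∃ j, j ∉ S
  · obtain ⟨j, hj⟩ := hfull
    obtain ⟨i1, hi1⟩ : S.Nonempty := Finset.card_pos.1 (by omega)
    have hij : i1 ≠ j := fun h => hj (h ▸ hi1)
    have hi1' : (y : Matrix κ κ F) i1 i ≠ 0 := mem_cs.1 hi1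
    -- the moved column
    set n : GL κ F := monoGL (Equiv.swap i1 j) (fun _ => 1) with hnn
    have hy' : h * (n * y) ∈ L := L.mul_mem hh (L.mul_mem (hL _ (monoM_isMono _ _)) hy)
    have hcol : ∀ a, ((n * y : GL κ F) : Matrix κ κ F) a i = (y : Matrix κ κ F) (Equiv.swap i1 j a) i := by
      intro a
      have e1 : ((n * y : GL κ F) : Matrix κ κ F) a i = ((monoM (Equiv.swap i1 j) (fun _ => 1) : Matrix κ κ F) *ᵥ
        (fun k => (y : Matrix κ κ F) k i)) a := by
        rw [Units.val_mul, hnn, monoGL_val]; rfl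
      rw [e1, monoM_mulVec, Equiv.swap_inv]
      simp
    have hcol2 : ∀ a, ((h * (n * y) : GL κ F) : Matrix κ κ F) a i = (y : Matrix κ κ F) (Equiv.swap i1 j a) i +
        (∑ b, ((y⁻¹ : GL κ F) : Matrix κ κ F) i b * (y : Matrix κ κ F) (Equiv.swap i1 j b) i) * (y : Matrix κ κ F) a i := by
      intro a
      have e1 : ((h * (n * y) : GL κ F) : Matrix κ κ F) a i = ((h : Matrix κ κ F) *ᵥ
        (fun k => ((n * y : GL κ F) : Matrix κ κ F) k i)) a := by
        rw [Units.val_mul]; rfl
      rw [e1, hx, hcol]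
      simp only [hcol]
    have hσ : (∑ b, ((y⁻¹ : GL κ F) : Matrix κ κ F) i b * (y : Matrix κ κ F) (Equiv.swap i1 j b) i) = 3 := by
      rw [← Finset.sum_subset (Finset.subset_univ (S.erase i1))]
      · rw [Finset.sum_congr rfl (g := fun _ => (3 : F))]
        · rw [Finset.sum_const, nsmul_eq_mul, Finset.card_erase_of_mem hi1, Nat.cast_sub (by omega), hs]
          ring
        · intro b hb
          have hb1 := Finset.ne_of_mem_erase hb
          have hb2 := Finset.mem_of_mem_erase hb
          rw [Equiv.swap_apply_of_ne_of_ne hb1 (by rintro rfl; exact hj hb2), mul_comm, hφ b hb2]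
      · intro b _ hb
        by_cases hb1 : b = i1
        · subst hb1; rw [Equiv.swap_apply_left, hy0 j hj, mul_zero]
        · have : b ∉ S := fun h => hb (Finset.mem_erase.2 ⟨hb1, h⟩)
          rw [hφ0 b this, zero_mul]
    have hcs : cs ((h * (n * y) : GL κ F) : Matrix κ κ F) i = insert j S := by
      ext a
      rw [mem_cs, hcol2, hσ, Finset.mem_insert]
      by_cases ha : a = i1
      · subst ha
        rw [Equiv.swap_apply_left, hy0 j hj, zero_add]
        exact ⟨fun _ => Or.inr hi1, fun _ => mul_ne_zero h3 hi1'⟩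
      · by_cases ha' : a = j
        · subst ha'
          rw [Equiv.swap_apply_right, hy0 a hj, mul_zero, add_zero]
          exact ⟨fun _ => Or.inl rfl, fun _ => hi1'⟩
        · rw [Equiv.swap_apply_of_ne_of_ne ha ha']
          constructor
          · intro h0
            right
            by_contra haS
            apply h0
            rw [hy0 a haS]; ring
          · rintro (h0 | h0)
            · exact absurd h0 ha'
            · have h6 : (y : Matrix κ κ F) a i ≠ 0 := mem_cs.1 h0
              have : (y : Matrix κ κ F) a i + 3 * (y : Matrix κ κ F) a i = 4 * (y : Matrix κ κ F) a i := by ring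
              rw [this]
              exact mul_ne_zero h4 h6
    have h6 := hE hy' (j := i) (by rw [hcs, Finset.card_insert_of_notMem hj]; omega)
    rw [hcs, Finset.card_insert_of_notMem hj, Nat.cast_add, hs] at h6
    exact one_ne_zero (by linear_combination h6 : (1 : F) = 0)
  · push Not at hfull
    have hSu : S = Finset.univ := Finset.eq_univ_iff_forall.2 hfull
    have hk : (Fintype.card κ : F) = 2 := by rw [← hs, hSu, Finset.card_univ]
    -- three indices
    obtain ⟨a1, -, -, -⟩ := exists_fourth hn i i i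
    obtain ⟨a2, h12, -, -⟩ := exists_fourth hn a1 a1 a1
    obtain ⟨a3, h13, h23, -⟩ := exists_fourth hn a1 a2 a2
    set c : κ → Fˣ := fun a => if a = a1 then Units.mk0 2 h2 else if a = a2 then Units.mk0 2 h2 else
      if a = a3 then Units.mk0 3 h3 else 1 with hc
    set n : GL κ F := diagHom κ F c with hnn
    have hy' : h * (n * y) ∈ L := L.mul_mem hh (L.mul_mem (hL _ (isMono_diagonal _)) hy)
    have hcol : ∀ a, ((n * y : GL κ F) : Matrix κ κ F) a i = c a * (y : Matrix κ κ F) a i := by
      intro a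
      rw [Units.val_mul, hnn, diagHom_val, Matrix.diagonal_mul]
    have hcsum : ∑ b, (c b : F) = 6 := by
      have e1 : ∑ b, (c b : F) = ∑ b, (1 + (if b = a1 then (1 : F) else 0) + (if b = a2 then (1 : F) else 0) +
          (if b = a3 then (2 : F) else 0)) := by
        refine Finset.sum_congr rfl fun b _ => ?_
        simp only [hc]
        by_cases hb1 : b = a1
        · subst hb1; simp [Ne.symm h12, Ne.symm h13]; norm_num
        · by_cases hb2 : b = a2
          · subst hb2; simp [h12, Ne.symm h23]; norm_num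
          · by_cases hb3 : b = a3
            · subst hb3; simp [hb1, hb2]; norm_num
            · simp [hb1, hb2, hb3]
      rw [e1, Finset.sum_add_distrib, Finset.sum_add_distrib, Finset.sum_add_distrib]
      simp only [Finset.sum_const, Finset.card_univ, nsmul_eq_mul, mul_one, hk, Finset.sum_ite_eq', Finset.mem_univ,
        if_true]
      norm_num
    have hσ : (∑ b, ((y⁻¹ : GL κ F) : Matrix κ κ F) i b * ((c b : F) * (y : Matrix κ κ F) b i)) = 3 := by
      have e1 : ∀ b, ((y⁻¹ : GL κ F) : Matrix κ κ F) i b * ((c b : F) * (y : Matrix κ κ F) b i) = 3 * c b := by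
        intro b
        have := hφ b (hfull b)
        linear_combination (c b : F) * this
      rw [Finset.sum_congr rfl fun b _ => e1 b, ← Finset.mul_sum, hcsum]
      linear_combination 3 * h5
    have hcol2 : ∀ a, ((h * (n * y) : GL κ F) : Matrix κ κ F) a i = ((c a : F) + 3) * (y : Matrix κ κ F) a i := by
      intro a
      have e1 : ((h * (n * y) : GL κ F) : Matrix κ κ F) a i = ((h : Matrix κ κ F) *ᵥ
        (fun k => ((n * y : GL κ F) : Matrix κ κ F) k i)) a := by
        rw [Units.val_mul]; rfl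
      rw [e1, hx, hcol]
      simp only [hcol, hσ]
      ring
    have hcs : cs ((h * (n * y) : GL κ F) : Matrix κ κ F) i = (Finset.univ.erase a1).erase a2 := by
      ext a
      rw [mem_cs, hcol2, Finset.mem_erase, Finset.mem_erase]
      have hya : (y : Matrix κ κ F) a i ≠ 0 := mem_cs.1 (hfull a)
      constructor
      · intro h0
        have h1 : (c a : F) + 3 ≠ 0 := left_ne_zero_of_mul h0
        refine ⟨?_, ?_, Finset.mem_univ _⟩
        · rintro rfl
          apply h1
          simp only [hc, if_neg h12, if_true, Units.val_mk0]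
          linear_combination h5
        · rintro rfl
          apply h1
          simp only [hc, if_true, Units.val_mk0]
          linear_combination h5
      · rintro ⟨ha2, ha1, -⟩
        refine mul_ne_zero ?_ hya
        by_cases ha3 : a = a3
        · simp only [hc, if_neg ha1, if_neg ha2, if_pos ha3, Units.val_mk0]
          intro h0
          exact one_ne_zero (by linear_combination h0 - h5 : (1 : F) = 0)
        · simp only [hc, if_neg ha1, if_neg ha2, if_neg ha3, Units.val_one]
          intro h0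
          exact h4 (by linear_combination h0)
    have hcard : ((Finset.univ.erase a1).erase a2 : Finset κ).card = Fintype.card κ - 2 := by
      rw [Finset.card_erase_of_mem (Finset.mem_erase.2 ⟨h12, Finset.mem_univ _⟩),
        Finset.card_erase_of_mem (Finset.mem_univ _), Finset.card_univ]
      omega
    have h6 := hE hy' (j := i) (by rw [hcs, hcard]; omega)
    rw [hcs, hcard, Nat.cast_sub (by omega), hk] at h6
    exact h2 (by linear_combination -h6)

end H94.Mono
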