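import Cfsg.Agent.Lib.H94.MonoGL

/-!
Overgroups in SL of the determinant-one monomial group: the point stabilisers (by the GL theorem for the quotient),
supports of columns, and the elimination of the case without zero entries.
-/

set_option autoImplicit false
set_option linter.unusedSectionVars false

namespace H94.Mono

open Matrix Cfsg.Geo H94.Transv
open scoped MatrixGroups

variable {κ : Type} [Fintype κ] [DecidableEq κ] {F : Type*} [Field F]

/-- block diagonal matrix: c at (o,o), C elsewhere -/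
def emb (o : κ) (c : F) (C : Matrix {a : κ // a ≠ o} {a : κ // a ≠ o} F) : Matrix κ κ F := fun a b =>
  if ha : a = o then (if b = o then c else 0) else (if hb : b = o then 0 else C ⟨a, ha⟩ ⟨b, hb⟩)

theorem det_of_col (o : κ) (M : Matrix κ κ F) (h : ∀ a, a ≠ o → M a o = 0) :
    M.det = M o o * (M.submatrix (Subtype.val : {a : κ // a ≠ o} → κ) Subtype.val).det := by
  rw [Matrix.twoBlockTriangular_det M (fun a => a = o) (fun i hi j hj => by subst hj; exact h i hi)]
  congr 1
  have : Subsingleton {a : κ // a = o} := ⟨fun x y => Subtype.ext (x.2.trans y.2.symm)⟩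
  convert Matrix.det_eq_elem_of_subsingleton (M.toSquareBlockProp fun a => a = o) (⟨o, rfl⟩ : {a : κ // a = o})
  rfl

theorem emb_det (o : κ) (c : F) (C : Matrix {a : κ // a ≠ o} {a : κ // a ≠ o} F) : (emb o c C).det = c * C.det := by
  rw [det_of_col o _ (fun a ha => by simp [emb, ha])]
  congr 1
  · simp [emb]
  · congr 1
    ext a b
    simp [emb, a.2, b.2]

theorem emb_isMono (o : κ) (c : F) {C : Matrix {a : κ // a ≠ o} {a : κ // a ≠ o} F} (hC : IsMono C) :
    IsMono (emb o c C) := by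
  intro j
  by_cases hj : j = o
  · refine ⟨o, fun k hk => ?_⟩
    simp [emb, hk, hj]
  · obtain ⟨i, hi⟩ := hC ⟨j, hj⟩
    refine ⟨i.1, fun k hk => ?_⟩
    by_cases hko : k = o
    · simp [emb, hko, hj]
    · have := hi ⟨k, hko⟩ (fun h => hk (by rw [← h]))
      simp [emb, hko, hj, this]

theorem inv_col {y : GL κ F} {o : κ} (hy : ∀ a, a ≠ o → (y : Matrix κ κ F) a o = 0) :
    ∀ a, a ≠ o → ((y⁻¹ : GL κ F) : Matrix κ κ F) a o = 0 := by
  intro a ha
  have h1 : ((y⁻¹ : GL κ F) : Matrix κ κ F) * (y : Matrix κ κ F) = 1 := by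
    rw [← Units.val_mul, inv_mul_cancel, Units.val_one]
  have h2 := congrFun (congrFun h1 a) o
  rw [Matrix.one_apply_ne ha, Matrix.mul_apply, Finset.sum_eq_single o (fun k _ hk => by rw [hy k hk, mul_zero])
    (by simp)] at h2
  refine (mul_eq_zero.1 h2).resolve_right fun h0 => ?_
  obtain ⟨k, hk⟩ := col_ne_zero y o
  by_cases hko : k = o
  · exact hk (hko ▸ h0)
  · exact hk (hy k hko)

theorem block_mul {M N : Matrix κ κ F} {o : κ} (hM : ∀ a, a ≠ o → M a o = 0) (a b : {a : κ // a ≠ o}) :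
    (M * N) a b = ∑ k : {a : κ // a ≠ o}, M a k * N k b := by
  rw [Matrix.mul_apply, Fintype.sum_eq_add_sum_subtype_ne _ o, hM a a.2, zero_mul, zero_add]

/-- the group induced on the quotient by the o-th basis vector -/
def Lsub (K : Subgroup (GL κ F)) (o : κ) : Subgroup (GL {a : κ // a ≠ o} F) where
  carrier := {C | ∃ y ∈ K, (∀ a, a ≠ o → (y : Matrix κ κ F) a o = 0) ∧
    ∀ a b : {a : κ // a ≠ o}, (C : Matrix _ _ F) a b = (y : Matrix κ κ F) a b}
  mul_mem' {C D} hC hD := by
    obtain ⟨y, hy, hy0, hyC⟩ := hC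
    obtain ⟨z, hz, hz0, hzD⟩ := hD
    refine ⟨y * z, K.mul_mem hy hz, fun a ha => ?_, fun a b => ?_⟩
    · rw [Units.val_mul, Matrix.mul_apply]
      refine Finset.sum_eq_zero fun k _ => ?_
      by_cases hk : k = o
      · subst hk; rw [hy0 a ha, zero_mul]
      · rw [hz0 k hk, mul_zero]
    · rw [Units.val_mul, Units.val_mul, block_mul hy0, Matrix.mul_apply]
      exact Finset.sum_congr rfl fun k _ => by rw [hyC, hzD]
  one_mem' := ⟨1, K.one_mem, fun a ha => by simp [ha], fun a b => by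
    by_cases h : a = b
    · subst h; simp
    · have : (a : κ) ≠ b := fun h' => h (Subtype.ext h')
      simp [h, this]⟩
  inv_mem' {C} hC := by
    obtain ⟨y, hy, hy0, hyC⟩ := hC
    refine ⟨y⁻¹, K.inv_mem hy, inv_col hy0, ?_⟩
    have h1 : (((y⁻¹ : GL κ F) : Matrix κ κ F).submatrix (Subtype.val : {a : κ // a ≠ o} → κ) Subtype.val) *
        (C : Matrix {a : κ // a ≠ o} {a : κ // a ≠ o} F) = 1 := by
      ext a b
      have e1 : (((y⁻¹ : GL κ F) : Matrix κ κ F) * (y : Matrix κ κ F)) a b = (1 : Matrix κ κ F) a b := by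
        rw [← Units.val_mul, inv_mul_cancel, Units.val_one]
      rw [block_mul (inv_col hy0)] at e1
      rw [Matrix.mul_apply]
      have e2 : (1 : Matrix κ κ F) a b = (1 : Matrix {a : κ // a ≠ o} {a : κ // a ≠ o} F) a b := by
        by_cases h : a = b
        · subst h; simp
        · have : (a : κ) ≠ b := fun h' => h (Subtype.ext h')
          simp [h, this]
      rw [← e2, ← e1]
      exact Finset.sum_congr rfl fun k _ => by rw [hyC]; rfl
    have h2 : ((C⁻¹ : GL {a : κ // a ≠ o} F) : Matrix {a : κ // a ≠ o} {a : κ // a ≠ o} F) =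
        ((y⁻¹ : GL κ F) : Matrix κ κ F).submatrix (Subtype.val : {a : κ // a ≠ o} → κ) Subtype.val := by
      have h3 := congrArg (fun X => X * ((C⁻¹ : GL {a : κ // a ≠ o} F) : Matrix {a : κ // a ≠ o} {a : κ // a ≠ o} F)) h1
      simp only [one_mul] at h3
      rw [mul_assoc, ← Units.val_mul, mul_inv_cancel, Units.val_one, mul_one] at h3
      exact h3.symm
    intro a b
    rw [h2]; rfl

variable {K : Subgroup (GL κ F)}

theorem Lsub_hasM (hK : HasN K) (o : κ) : HasM (Lsub K o) := by
  intro C hC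
  have hdet : (C : Matrix {a : κ // a ≠ o} {a : κ // a ≠ o} F).det ≠ 0 :=
    ((Matrix.isUnit_iff_isUnit_det _).1 C.isUnit).ne_zero
  have h1 : (emb o ((C : Matrix {a : κ // a ≠ o} {a : κ // a ≠ o} F).det)⁻¹ (C : Matrix {a : κ // a ≠ o} {a : κ // a ≠ o} F)).det = 1 := by
    rw [emb_det, inv_mul_cancel₀ hdet]
  have h2 : (emb o ((C : Matrix {a : κ // a ≠ o} {a : κ // a ≠ o} F).det)⁻¹ (C : Matrix {a : κ // a ≠ o} {a : κ // a ≠ o} F)).det ≠ 0 := by
    rw [h1]; exact one_ne_zero
  refine ⟨Matrix.GeneralLinearGroup.mkOfDetNeZero _ h2, hK _ (emb_isMono o _ hC) h1,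
    fun a ha => ?_, fun a b => ?_⟩
  · show emb o _ _ a o = 0
    simp [emb, ha]
  · show _ = emb o _ _ (a : κ) (b : κ)
    simp [emb, a.2, b.2]

/-- an element of K fixing a coordinate line is monomial, or K ≥ SL -/
theorem star [Fintype F] (hq : 5 ≤ Fintype.card F) (hn : 5 ≤ Fintype.card κ) (hK : HasN K) (hKS : K ≤ specialLinear κ F)
    (hns : ¬ specialLinear κ F ≤ K) {y : GL κ F} (hy : y ∈ K) {o : κ} (hy0 : ∀ a, a ≠ o → (y : Matrix κ κ F) a o = 0) :
    IsMono (y : Matrix κ κ F) := by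
  obtain ⟨ε, hε⟩ := exists_unit_ne_one hq
  have hn' : 4 ≤ Fintype.card {a : κ // a ≠ o} := by
    have := Fintype.card_subtype_compl (fun a => a = o)
    simp only [Fintype.card_unique] at this
    have h2 : Fintype.card {a : κ // a ≠ o} = Fintype.card κ - 1 := by convert this
    omega
  rcases A_main hq hn' (Lsub_hasM hK o) with hA | hA
  · -- all induced matrices are monomial
    have hdety : (y : Matrix κ κ F).det = 1 := (mem_specialLinear_iff y).1 (hKS hy)
    have h1 := det_of_col o (y : Matrix κ κ F) hy0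
    set B := (y : Matrix κ κ F).submatrix (Subtype.val : {a : κ // a ≠ o} → κ) Subtype.val with hB
    have hBdet : B.det ≠ 0 := by
      intro h0; rw [h0, mul_zero, hdety] at h1; exact one_ne_zero h1
    have hBm : IsMono B := hA (Matrix.GeneralLinearGroup.mkOfDetNeZero B hBdet) ⟨y, hy, hy0, fun a b => rfl⟩
    have hdetn : (emb o ((y : Matrix κ κ F) o o) B).det = 1 := by rw [emb_det, ← h1, hdety]
    set n : GL κ F := Matrix.GeneralLinearGroup.mkOfDetNeZero (emb o ((y : Matrix κ κ F) o o) B)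
      (by rw [hdetn]; exact one_ne_zero) with hn0
    have hnval : (n : Matrix κ κ F) = emb o ((y : Matrix κ κ F) o o) B := rfl
    have hnK : n ∈ K := hK n (emb_isMono o _ hBm) hdetn
    by_cases hyn : y = n
    · rw [hyn, hnval]; exact emb_isMono o _ hBm
    · exfalso
      apply hns
      refine sl_of_row hK (by omega) hε hy hnK (by rw [hdety, hnval, hdetn]) hyn (o := o) fun a ha b => ?_
      rw [hnval]
      by_cases hb : b = o
      · subst hb; rw [hy0 a ha]; simp [emb, ha]
      · simp [emb, ha, hb, hB]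
  · exfalso
    apply hns
    -- an elementary transvection in the quotient
    obtain ⟨i, hio, -, -⟩ := exists_fourth (by omega : 4 ≤ Fintype.card κ) o o o
    obtain ⟨j, hjo, hji, -⟩ := exists_fourth (by omega : 4 ≤ Fintype.card κ) o i i
    set i' : {a : κ // a ≠ o} := ⟨i, hio⟩
    set j' : {a : κ // a ≠ o} := ⟨j, hjo⟩
    have hij' : j' ≠ i' := fun h => hji (congrArg Subtype.val h)
    have hT : (Pi.single j' (1 : F) : {a : κ // a ≠ o} → F) ⬝ᵥ Pi.single i' 1 = 0 := by simp [hij']
    obtain ⟨z, hz, hz0, hzC⟩ := hA (tGL_mem_specialLinear _ _ hT)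
    have hzC' : ∀ a b : κ, a ≠ o → b ≠ o → (z : Matrix κ κ F) a b = (if a = b then 1 else 0) +
        (if a = i then 1 else 0) * (if b = j then 1 else 0) := by
      intro a b ha hb
      have := hzC ⟨a, ha⟩ ⟨b, hb⟩
      rw [tGL_val, tm, Matrix.add_apply, vecMulVec_apply] at this
      rw [← this, Matrix.one_apply, Pi.single_apply, Pi.single_apply]
      simp [i', j', Subtype.ext_iff]
    have hdetz : (z : Matrix κ κ F).det = 1 := (mem_specialLinear_iff z).1 (hKS hz)
    have hzoo : (z : Matrix κ κ F) o o = 1 := by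
      have h1 := det_of_col o (z : Matrix κ κ F) hz0
      have h2 : (z : Matrix κ κ F).submatrix (Subtype.val : {a : κ // a ≠ o} → κ) Subtype.val = tm (Pi.single i' 1) (Pi.single j' 1) := by
        ext a b
        exact (hzC a b).symm
      rw [hdetz, h2, det_tm _ _ hT, mul_one] at h1
      exact h1.symm
    by_contra hns'
    -- the row o is trivial
    have hrow : ∀ m, m ≠ o → (z : Matrix κ κ F) o m = 0 := by
      intro m hm
      by_contra hzm
      apply hns'
      obtain ⟨d, hd1, hdo, hdij, hdm⟩ : ∃ d : κ → Fˣ, ∏ k, d k = 1 ∧ d o = 1 ∧ d i = d j ∧ d m ≠ 1 := by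
        by_cases hmi : m = i
        · obtain ⟨k, hk1, hk2, hk3⟩ := exists_fourth (by omega : 4 ≤ Fintype.card κ) o i j
          refine ⟨d2 i k ε * d2 j k ε, ?_, ?_, ?_, ?_⟩
          · simp only [Pi.mul_apply]
            rw [Finset.prod_mul_distrib, prod_d2, prod_d2, one_mul]
          · rw [Pi.mul_apply, d2_other (Ne.symm hio) (Ne.symm hk1), d2_other (Ne.symm hjo) (Ne.symm hk1), one_mul]
          · rw [Pi.mul_apply, Pi.mul_apply, d2_left (Ne.symm hk2), d2_other (Ne.symm hji) (Ne.symm hk2),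
              d2_other hji (Ne.symm hk3), d2_left (Ne.symm hk3), one_mul, mul_one]
          · rw [hmi, Pi.mul_apply, d2_left (Ne.symm hk2), d2_other (Ne.symm hji) (Ne.symm hk2), mul_one]
            exact hε
        · by_cases hmj : m = j
          · obtain ⟨k, hk1, hk2, hk3⟩ := exists_fourth (by omega : 4 ≤ Fintype.card κ) o i j
            refine ⟨d2 i k ε * d2 j k ε, ?_, ?_, ?_, ?_⟩
            · simp only [Pi.mul_apply]
              rw [Finset.prod_mul_distrib, prod_d2, prod_d2, one_mul]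
            · rw [Pi.mul_apply, d2_other (Ne.symm hio) (Ne.symm hk1), d2_other (Ne.symm hjo) (Ne.symm hk1), one_mul]
            · rw [Pi.mul_apply, Pi.mul_apply, d2_left (Ne.symm hk2), d2_other (Ne.symm hji) (Ne.symm hk2),
                d2_other hji (Ne.symm hk3), d2_left (Ne.symm hk3), one_mul, mul_one]
            · rw [hmj, Pi.mul_apply, d2_other hji (Ne.symm hk3), d2_left (Ne.symm hk3), one_mul]
              exact hε
          · obtain ⟨k, hk⟩ : ∃ k, k ∉ ({o, i, j, m} : Finset κ) := by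
              by_contra hcon
              push Not at hcon
              have h1 := Finset.card_le_card (fun k _ => hcon k : (Finset.univ : Finset κ) ⊆ {o, i, j, m})
              have h2 : ({o, i, j, m} : Finset κ).card ≤ 4 := Finset.card_le_four
              rw [Finset.card_univ] at h1
              omega
            simp only [Finset.mem_insert, Finset.mem_singleton, not_or] at hk
            refine ⟨d2 m k ε, prod_d2 _ _ _, d2_other (Ne.symm hm) (Ne.symm hk.1) _, ?_, ?_⟩
            · rw [d2_other (Ne.symm hmi) (Ne.symm hk.2.1), d2_other (Ne.symm hmj) (Ne.symm hk.2.2.1)]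
            · rw [d2_left (Ne.symm hk.2.2.2)]; exact hε
      have hdK := diagHom_mem hK hd1
      refine sl_of_row hK (by omega) hε (K.mul_mem hz hdK) (K.mul_mem hdK hz) ?_ ?_ (o := o) fun a ha b => ?_
      · rw [Units.val_mul, Units.val_mul, Matrix.det_mul, Matrix.det_mul, mul_comm]
      · intro heq
        have h1 : ((z * diagHom κ F d : GL κ F) : Matrix κ κ F) o m = ((diagHom κ F d * z : GL κ F) : Matrix κ κ F) o m := by
          rw [heq]
        rw [Units.val_mul, Units.val_mul, diagHom_val, Matrix.mul_diagonal, Matrix.diagonal_mul, hdo, Units.val_one,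
          one_mul] at h1
        apply hdm
        apply Units.ext
        rw [Units.val_one]
        exact mul_left_cancel₀ hzm (by rw [h1, mul_one])
      · rw [Units.val_mul, Units.val_mul, diagHom_val, Matrix.mul_diagonal, Matrix.diagonal_mul]
        by_cases hb : b = o
        · subst hb; rw [hz0 a ha, zero_mul, mul_zero]
        · rw [hzC' a b ha hb]
          by_cases hab : a = b
          · subst hab; ring
          · rw [if_neg hab, zero_add]
            by_cases hai : a = i
            · by_cases hbj : b = j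
              · subst hai; subst hbj; rw [hdij]; ring
              · rw [if_neg hbj]; ring
            · rw [if_neg hai]; ring
    apply hns'
    refine sl_of_elem hK (by omega) (Ne.symm hji) one_ne_zero (HasT.mk (by simp [hji]) ?_)
    have : tGL (Pi.single i 1) (Pi.single j (1 : F)) (by simp [hji]) = z := by
      apply Units.ext
      ext a b
      rw [tGL_val, tm, Matrix.add_apply, vecMulVec_apply, Matrix.one_apply, Pi.single_apply, Pi.single_apply]
      by_cases ha : a = o
      · subst ha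
        by_cases hb : b = a
        · subst hb; rw [hzoo]; simp [Ne.symm hio]
        · rw [hrow b hb]; simp [Ne.symm hb, Ne.symm hio]
      · by_cases hb : b = o
        · subst hb; rw [hz0 a ha]; simp [ha, Ne.symm hjo]
        · rw [hzC' a b ha hb]
    rw [this]; exact hz

/-- a column supported on one coordinate -/
theorem mono_of_col [Fintype F] (hq : 5 ≤ Fintype.card F) (hn : 5 ≤ Fintype.card κ) (hK : HasN K)
    (hKS : K ≤ specialLinear κ F) (hns : ¬ specialLinear κ F ≤ K) {y : GL κ F} (hy : y ∈ K) {i j : κ}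
    (h : ∀ a, a ≠ j → (y : Matrix κ κ F) a i = 0) : IsMono (y : Matrix κ κ F) := by
  by_cases hij : i = j
  · subst hij; exact star hq hn hK hKS hns hy h
  set w : GL κ F := monoGL (Equiv.swap i j) (Pi.mulSingle i (-1)) with hw
  have hwm : IsMono (w : Matrix κ κ F) := monoM_isMono _ _
  have hwK : w ∈ K := by
    refine hK _ hwm ?_
    rw [hw, monoGL_val, monoM_det, Equiv.Perm.sign_swap hij]
    have : ∏ l, ((Pi.mulSingle i (-1 : Fˣ) : κ → Fˣ) l : F) = -1 := by
      rw [Finset.prod_eq_single i]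
      · simp
      · intro b _ hb; simp [hb]
      · simp
    rw [this]; simp
  have h1 : IsMono ((w * y : GL κ F) : Matrix κ κ F) := by
    refine star hq hn hK hKS hns (K.mul_mem hwK hy) (o := i) fun a ha => ?_
    have e1 : ((w * y : GL κ F) : Matrix κ κ F) a i = ((monoM (Equiv.swap i j) (Pi.mulSingle i (-1)) : Matrix κ κ F) *ᵥ
        (fun k => (y : Matrix κ κ F) k i)) a := by
      rw [Units.val_mul, hw, monoGL_val]; rfl
    rw [e1, monoM_mulVec, Equiv.swap_inv, h, mul_zero]
    intro h0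
    apply ha
    apply (Equiv.swap i j).injective
    rw [h0, Equiv.swap_apply_left]
  have h2 := isMono_mul (isMono_inv hwm) h1
  rwa [← Units.val_mul, inv_mul_cancel_left] at h2

theorem exists_gen [Fintype F] (hq : 5 ≤ Fintype.card F) : ∃ ε : Fˣ, ε ^ 2 ≠ 1 ∧ ε ^ 3 ≠ 1 := by
  classical
  obtain ⟨g, hg⟩ := IsCyclic.exists_generator (α := Fˣ)
  have h1 : orderOf g = Fintype.card F - 1 := by
    rw [orderOf_eq_card_of_forall_mem_zpowers hg, Nat.card_eq_fintype_card, Fintype.card_units]
  refine ⟨g, fun h => ?_, fun h => ?_⟩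
  · have := orderOf_le_of_pow_eq_one (by norm_num) h
    omega
  · have := orderOf_le_of_pow_eq_one (by norm_num) h
    omega

/-- Lemma E: the columns of g meeting g⁻¹ e_a, when another column of g vanishes at a and b -/
theorem lemE [Fintype F] (hq : 5 ≤ Fintype.card F) (hn : 5 ≤ Fintype.card κ) (hK : HasN K)
    (hKS : K ≤ specialLinear κ F) (hns : ¬ specialLinear κ F ≤ K) {g : GL κ F} (hg : g ∈ K) {i a b : κ} (hab : a ≠ b)
    (ha : (g : Matrix κ κ F) a i = 0) (hb : (g : Matrix κ κ F) b i = 0) {k : κ}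
    (hk : ((g⁻¹ : GL κ F) : Matrix κ κ F) k a ≠ 0) {j : κ} (hja : j ≠ a) (hjb : j ≠ b) :
    (g : Matrix κ κ F) j k = 0 := by
  obtain ⟨ε, hε2, hε3⟩ := exists_gen hq
  set d : κ → Fˣ := d2 a b ε with hd
  obtain ⟨y, hy⟩ : ∃ y : GL κ F, y = g⁻¹ * diagHom κ F d * g := ⟨_, rfl⟩
  have hyK : y ∈ K := by
    rw [hy]; exact K.mul_mem (K.mul_mem (K.inv_mem hg) (diagHom_mem hK (prod_d2 a b ε))) hg
  have hgy : g * y = diagHom κ F d * g := by rw [hy]; group
  -- y fixes e_i
  have hcol : (y : Matrix κ κ F) *ᵥ Pi.single i 1 = Pi.single i 1 := by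
    have e1 : (g : Matrix κ κ F) *ᵥ Pi.single i 1 = fun j => (g : Matrix κ κ F) j i := by
      rw [Matrix.mulVec_single_one]; rfl
    have e2 : (diagHom κ F d : Matrix κ κ F) *ᵥ (fun j => (g : Matrix κ κ F) j i) = fun j => (g : Matrix κ κ F) j i := by
      ext l
      rw [diagHom_mulVec]
      by_cases hla : l = a
      · subst hla; rw [ha, mul_zero]
      · by_cases hlb : l = b
        · subst hlb; rw [hb, mul_zero]
        · rw [hd, d2_other hla hlb, Units.val_one, one_mul]
    rw [hy, Units.val_mul, Units.val_mul, ← Matrix.mulVec_mulVec, ← Matrix.mulVec_mulVec, e1, e2, ← e1,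
      Matrix.mulVec_mulVec, ← Units.val_mul, inv_mul_cancel, Units.val_one, one_mulVec]
  have hym : IsMono (y : Matrix κ κ F) := by
    refine star hq hn hK hKS hns hyK (o := i) fun l hl => ?_
    have := congrFun hcol l
    rw [Matrix.mulVec_single_one, Pi.single_eq_of_ne hl] at this
    exact this
  obtain ⟨σ, c, hσ⟩ := mono_eq hym
  -- the relation d_j g_{jk} = c_k g_{j,σ k}
  have R1 : ∀ j k, (d j : F) * (g : Matrix κ κ F) j k = c k * (g : Matrix κ κ F) j (σ k) := by
    intro j k
    have h1 : ((g * y : GL κ F) : Matrix κ κ F) j k = ((diagHom κ F d * g : GL κ F) : Matrix κ κ F) j k := by rw [hgy]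
    rw [Units.val_mul, Units.val_mul, diagHom_val, Matrix.diagonal_mul, hσ, monoGL_val] at h1
    rw [← h1, Matrix.mul_apply, Finset.sum_eq_single (σ k)]
    · simp [monoM, mul_comm]
    · intro l _ hl; simp [monoM, hl]
    · simp
  -- v = g⁻¹ e_a is an eigenvector of y
  set v : κ → F := fun k => ((g⁻¹ : GL κ F) : Matrix κ κ F) k a with hv
  have hyv : ∀ k, (c k : F) * v k = ε * v (σ k) := by
    intro k
    have e1 : ((g⁻¹ : GL κ F) : Matrix κ κ F) *ᵥ Pi.single a 1 = v := by
      rw [Matrix.mulVec_single_one]; rfl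
    have e3 : (diagHom κ F d : Matrix κ κ F) *ᵥ Pi.single a 1 = (ε : F) • Pi.single a 1 := by
      ext l
      rw [diagHom_mulVec]
      by_cases hla : l = a
      · subst hla; rw [hd, d2_left hab]; simp
      · simp [hla]
    have e0 : (g : Matrix κ κ F) *ᵥ v = Pi.single a 1 := by
      rw [← e1, Matrix.mulVec_mulVec, ← Units.val_mul, mul_inv_cancel, Units.val_one, one_mulVec]
    have e2 : (y : Matrix κ κ F) *ᵥ v = (ε : F) • v := by
      rw [hy, Units.val_mul, Units.val_mul, ← Matrix.mulVec_mulVec, ← Matrix.mulVec_mulVec, e0, e3, Matrix.mulVec_smul, e1]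
    have e4 := congrFun e2 (σ k)
    rw [hσ, monoGL_val, monoM_mulVec, Pi.smul_apply, smul_eq_mul] at e4
    simpa using e4
  have hd1 : (d j : F) = 1 := by rw [hd, d2_other hja hjb]; rfl
  have hcval : ∀ l, v l ≠ 0 → v (σ l) ≠ 0 := by
    intro l hl h0
    have := hyv l
    rw [h0, mul_zero] at this
    exact (mul_ne_zero (c l).ne_zero hl) this
  have hε1 : (ε : F) ≠ 1 := fun h => hε2 (by
    have : ε = 1 := Units.ext h
    rw [this, one_pow])
  have hε2' : (ε : F) ^ 2 ≠ 1 := fun h => hε2 (Units.ext (by push_cast; exact h))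
  have hε3' : (ε : F) ^ 3 ≠ 1 := fun h => hε3 (Units.ext (by push_cast; exact h))
  have hvk : v k ≠ 0 := hk
  by_cases h1 : σ k = k
  · -- fixed point
    have h2 := hyv k
    rw [h1] at h2
    have h3 : (c k : F) = ε := mul_right_cancel₀ hvk h2
    have h4 := R1 j k
    rw [h1, hd1, h3, one_mul] at h4
    have h5 : ((ε : F) - 1) * (g : Matrix κ κ F) j k = 0 := by linear_combination -h4
    exact (mul_eq_zero.1 h5).resolve_left (sub_ne_zero.2 hε1)
  by_cases h2 : σ (σ k) = k
  · have h3 := hyv k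
    have h4 := hyv (σ k)
    rw [h2] at h4
    have h5 : (c k : F) * c (σ k) = (ε : F) ^ 2 := by
      have : ((c k : F) * c (σ k) - (ε : F) ^ 2) * v k = 0 := by
        linear_combination (c (σ k) : F) * h3 + (ε : F) * h4
      exact sub_eq_zero.1 ((mul_eq_zero.1 this).resolve_right hvk)
    have h6 := R1 j k
    have h7 := R1 j (σ k)
    rw [h2] at h7
    rw [hd1, one_mul] at h6 h7
    have h8 : ((ε : F) ^ 2 - 1) * (g : Matrix κ κ F) j k = 0 := by
      rw [← h5]; linear_combination (-1 : F) * h6 - (c k : F) * h7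
    exact (mul_eq_zero.1 h8).resolve_left (sub_ne_zero.2 hε2')
  by_cases h3 : σ (σ (σ k)) = k
  · have h4 := hyv k
    have h5 := hyv (σ k)
    have h6 := hyv (σ (σ k))
    rw [h3] at h6
    have h7 : (c k : F) * c (σ k) * c (σ (σ k)) = (ε : F) ^ 3 := by
      have : ((c k : F) * c (σ k) * c (σ (σ k)) - (ε : F) ^ 3) * v k = 0 := by
        linear_combination (c (σ k) : F) * c (σ (σ k)) * h4 + (ε : F) * c (σ (σ k)) * h5 + (ε : F) ^ 2 * h6
      exact sub_eq_zero.1 ((mul_eq_zero.1 this).resolve_right hvk)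
    have h8 := R1 j k
    have h9 := R1 j (σ k)
    have h10 := R1 j (σ (σ k))
    rw [h3] at h10
    rw [hd1, one_mul] at h8 h9 h10
    have h11 : ((ε : F) ^ 3 - 1) * (g : Matrix κ κ F) j k = 0 := by
      rw [← h7]; linear_combination (-1 : F) * h8 - (c k : F) * h9 - (c k : F) * c (σ k) * h10
    exact (mul_eq_zero.1 h11).resolve_left (sub_ne_zero.2 hε3')
  -- the cubic relation
  exfalso
  set τ : F := (ε : F) + ((ε⁻¹ : Fˣ) : F) with hτ
  have hinv : (ε : F) * ((ε⁻¹ : Fˣ) : F) = 1 := Units.mul_inv ε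
  have cubic : ∀ l, (d l : F) ^ 3 - (1 + τ) * (d l : F) ^ 2 + (1 + τ) * (d l : F) - 1 = 0 := by
    intro l
    have key : ∀ x : F, x ^ 3 - (1 + τ) * x ^ 2 + (1 + τ) * x - 1 = (x - 1) * ((x - ε) * (x - ((ε⁻¹ : Fˣ) : F))) := by
      intro x
      rw [hτ]; linear_combination (1 - x) * hinv
    rw [key]
    by_cases hla : l = a
    · rw [hla, hd, d2_left hab]; ring
    · by_cases hlb : l = b
      · rw [hlb, hd, d2_right hab]; ring
      · rw [hd, d2_other hla hlb, Units.val_one]; ring
  have comb : ∀ l, (c k : F) * c (σ k) * c (σ (σ k)) * (g : Matrix κ κ F) l (σ (σ (σ k))) -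
      (1 + τ) * ((c k : F) * c (σ k)) * (g : Matrix κ κ F) l (σ (σ k)) + (1 + τ) * c k * (g : Matrix κ κ F) l (σ k) -
      (g : Matrix κ κ F) l k = 0 := by
    intro l
    have r1 := R1 l k
    have r2 := R1 l (σ k)
    have r3 := R1 l (σ (σ k))
    have r4 := cubic l
    linear_combination ((g : Matrix κ κ F) l k) * r4 - ((d l : F) ^ 2 - (1 + τ) * (d l : F) + (1 + τ)) * r1 -
      ((d l : F) * c k - (1 + τ) * c k) * r2 - (c k : F) * c (σ k) * r3
  have hinvg : ∀ l, ∑ m, ((g⁻¹ : GL κ F) : Matrix κ κ F) k m * (g : Matrix κ κ F) m l = if k = l then 1 else 0 := by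
    intro l
    have h4 : ((g⁻¹ : GL κ F) : Matrix κ κ F) * (g : Matrix κ κ F) = 1 := by
      rw [← Units.val_mul, inv_mul_cancel, Units.val_one]
    have h5 := congrFun (congrFun h4 k) l
    rwa [Matrix.mul_apply, Matrix.one_apply] at h5
  have hsum : ∑ m, ((g⁻¹ : GL κ F) : Matrix κ κ F) k m * ((c k : F) * c (σ k) * c (σ (σ k)) * (g : Matrix κ κ F) m (σ (σ (σ k))) -
      (1 + τ) * ((c k : F) * c (σ k)) * (g : Matrix κ κ F) m (σ (σ k)) + (1 + τ) * c k * (g : Matrix κ κ F) m (σ k) -
      (g : Matrix κ κ F) m k) = 0 := Finset.sum_eq_zero fun m _ => by rw [comb, mul_zero]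
  have hsplit : ∀ m, ((g⁻¹ : GL κ F) : Matrix κ κ F) k m * ((c k : F) * c (σ k) * c (σ (σ k)) * (g : Matrix κ κ F) m (σ (σ (σ k))) -
      (1 + τ) * ((c k : F) * c (σ k)) * (g : Matrix κ κ F) m (σ (σ k)) + (1 + τ) * c k * (g : Matrix κ κ F) m (σ k) -
      (g : Matrix κ κ F) m k) =
      (c k : F) * c (σ k) * c (σ (σ k)) * (((g⁻¹ : GL κ F) : Matrix κ κ F) k m * (g : Matrix κ κ F) m (σ (σ (σ k)))) -
      (1 + τ) * ((c k : F) * c (σ k)) * (((g⁻¹ : GL κ F) : Matrix κ κ F) k m * (g : Matrix κ κ F) m (σ (σ k))) +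
      (1 + τ) * c k * (((g⁻¹ : GL κ F) : Matrix κ κ F) k m * (g : Matrix κ κ F) m (σ k)) -
      ((g⁻¹ : GL κ F) : Matrix κ κ F) k m * (g : Matrix κ κ F) m k := by
    intro m; ring
  rw [Finset.sum_congr rfl fun m _ => hsplit m, Finset.sum_sub_distrib, Finset.sum_add_distrib, Finset.sum_sub_distrib,
    ← Finset.mul_sum, ← Finset.mul_sum, ← Finset.mul_sum, hinvg, hinvg, hinvg, hinvg, if_neg (Ne.symm h3),
    if_neg (Ne.symm h2), if_neg (Ne.symm h1), if_pos rfl] at hsum
  exact one_ne_zero (by linear_combination -hsum : (1 : F) = 0)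

/-- a column of a non-monomial element of K has at most one zero -/
theorem F2 [Fintype F] (hq : 5 ≤ Fintype.card F) (hn : 5 ≤ Fintype.card κ) (hK : HasN K)
    (hKS : K ≤ specialLinear κ F) (hns : ¬ specialLinear κ F ≤ K) {g : GL κ F} (hg : g ∈ K)
    (hgm : ¬ IsMono (g : Matrix κ κ F)) {i a b : κ} (hab : a ≠ b)
    (ha : (g : Matrix κ κ F) a i = 0) (hb : (g : Matrix κ κ F) b i = 0) : False := by
  obtain ⟨c1, h1a, h1b, -⟩ := exists_fourth (by omega : 4 ≤ Fintype.card κ) a b b
  obtain ⟨c2, h2a, h2b, h21⟩ := exists_fourth (by omega : 4 ≤ Fintype.card κ) a b c1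
  obtain ⟨c3, hc3⟩ : ∃ k, k ∉ ({a, b, c1, c2} : Finset κ) := by
    by_contra hcon
    push Not at hcon
    have h1 := Finset.card_le_card (fun k _ => hcon k : (Finset.univ : Finset κ) ⊆ {a, b, c1, c2})
    have h2 : ({a, b, c1, c2} : Finset κ).card ≤ 4 := Finset.card_le_four
    rw [Finset.card_univ] at h1
    omega
  simp only [Finset.mem_insert, Finset.mem_singleton, not_or] at hc3
  obtain ⟨h3a, h3b, h31, h32⟩ := hc3
  obtain ⟨k, hk⟩ := col_ne_zero g⁻¹ a
  have hz : ∀ j, j ≠ a → j ≠ b → (g : Matrix κ κ F) j k = 0 := fun j hja hjb =>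
    lemE hq hn hK hKS hns hg hab ha hb hk hja hjb
  obtain ⟨l, hl⟩ := col_ne_zero g⁻¹ c1
  have e1 : ∀ j, j ≠ c1 → j ≠ c2 → (g : Matrix κ κ F) j l = 0 := fun j hja hjb =>
    lemE hq hn hK hKS hns hg (Ne.symm h21) (hz c1 h1a h1b) (hz c2 h2a h2b) hl hja hjb
  have e2 : ∀ j, j ≠ c1 → j ≠ c3 → (g : Matrix κ κ F) j l = 0 := fun j hja hjb =>
    lemE hq hn hK hKS hns hg (Ne.symm h31) (hz c1 h1a h1b) (hz c3 h3a h3b) hl hja hjb
  apply hgm
  refine mono_of_col hq hn hK hKS hns hg (i := l) (j := c1) fun j hj => ?_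
  by_cases hj2 : j = c2
  · exact e2 j hj (by rw [hj2]; exact Ne.symm h32)
  · exact e1 j hj hj2

end H94.Mono
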