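import Cfsg.Agent.Lib.H94.MonoSL1

/-!
Overgroups in SL of the determinant-one monomial group: final elimination.
-/

set_option autoImplicit false
set_option linter.unusedSectionVars false

namespace H94.Mono

open Matrix Cfsg.Geo H94.Transv
open scoped MatrixGroups

variable {κ : Type} [Fintype κ] [DecidableEq κ] {F : Type*} [Field F] {K : Subgroup (GL κ F)}

theorem exists_notMem4 (hn : 5 ≤ Fintype.card κ) (a b c d : κ) : ∃ k, k ≠ a ∧ k ≠ b ∧ k ≠ c ∧ k ≠ d := by
  obtain ⟨k, hk⟩ : ∃ k, k ∉ ({a, b, c, d} : Finset κ) := by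
    by_contra hcon
    push Not at hcon
    have h1 := Finset.card_le_card (fun k _ => hcon k : (Finset.univ : Finset κ) ⊆ {a, b, c, d})
    have h2 : ({a, b, c, d} : Finset κ).card ≤ 4 := Finset.card_le_four
    rw [Finset.card_univ] at h1
    omega
  simp only [Finset.mem_insert, Finset.mem_singleton, not_or] at hk
  exact ⟨k, hk.1, hk.2.1, hk.2.2.1, hk.2.2.2⟩

theorem not_mono_inv {g : GL κ F} (h : ¬ IsMono (g : Matrix κ κ F)) : ¬ IsMono ((g⁻¹ : GL κ F) : Matrix κ κ F) := by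
  intro h1
  apply h
  have := isMono_inv h1
  rwa [inv_inv] at this

theorem inv_mul_entry (g : GL κ F) (a b : κ) :
    ∑ m, ((g⁻¹ : GL κ F) : Matrix κ κ F) a m * (g : Matrix κ κ F) m b = if a = b then 1 else 0 := by
  have h4 : ((g⁻¹ : GL κ F) : Matrix κ κ F) * (g : Matrix κ κ F) = 1 := by
    rw [← Units.val_mul, inv_mul_cancel, Units.val_one]
  have h5 := congrFun (congrFun h4 a) b
  rwa [Matrix.mul_apply, Matrix.one_apply] at h5

theorem mul_inv_entry (g : GL κ F) (a b : κ) :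
    ∑ m, (g : Matrix κ κ F) a m * ((g⁻¹ : GL κ F) : Matrix κ κ F) m b = if a = b then 1 else 0 := by
  have h4 : (g : Matrix κ κ F) * ((g⁻¹ : GL κ F) : Matrix κ κ F) = 1 := by
    rw [← Units.val_mul, mul_inv_cancel, Units.val_one]
  have h5 := congrFun (congrFun h4 a) b
  rwa [Matrix.mul_apply, Matrix.one_apply] at h5

/-- conjugate of the double homology -/
theorem conj_d2 (g : GL κ F) {a b : κ} (hab : a ≠ b) (ε : Fˣ) (m l : κ) :
    ((g * diagHom κ F (d2 a b ε) * g⁻¹ : GL κ F) : Matrix κ κ F) m l = (if m = l then 1 else 0) +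
      ((ε : F) - 1) * ((g : Matrix κ κ F) m a * ((g⁻¹ : GL κ F) : Matrix κ κ F) a l) +
      (((ε⁻¹ : Fˣ) : F) - 1) * ((g : Matrix κ κ F) m b * ((g⁻¹ : GL κ F) : Matrix κ κ F) b l) := by
  have h1 : ((g * diagHom κ F (d2 a b ε) * g⁻¹ : GL κ F) : Matrix κ κ F) m l =
      ∑ k, (g : Matrix κ κ F) m k * (d2 a b ε k : F) * ((g⁻¹ : GL κ F) : Matrix κ κ F) k l := by
    rw [Units.val_mul, Units.val_mul, diagHom_val, Matrix.mul_apply]
    exact Finset.sum_congr rfl fun k _ => by rw [Matrix.mul_diagonal]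
  rw [h1, ← mul_inv_entry g m l]
  have h2 : ∀ k, (g : Matrix κ κ F) m k * (d2 a b ε k : F) * ((g⁻¹ : GL κ F) : Matrix κ κ F) k l =
      (g : Matrix κ κ F) m k * ((g⁻¹ : GL κ F) : Matrix κ κ F) k l +
      (if k = a then ((ε : F) - 1) * ((g : Matrix κ κ F) m a * ((g⁻¹ : GL κ F) : Matrix κ κ F) a l) else 0) +
      (if k = b then (((ε⁻¹ : Fˣ) : F) - 1) * ((g : Matrix κ κ F) m b * ((g⁻¹ : GL κ F) : Matrix κ κ F) b l) else 0) := by
    intro k
    by_cases hka : k = a
    · rw [hka, d2_left hab, if_pos rfl, if_neg hab]; ring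
    · by_cases hkb : k = b
      · rw [hkb, d2_right hab, if_pos rfl, if_neg (Ne.symm hab)]; ring
      · rw [d2_other hka hkb, if_neg hka, if_neg hkb, Units.val_one]; ring
  rw [Finset.sum_congr rfl fun k _ => h2 k, Finset.sum_add_distrib, Finset.sum_add_distrib]
  simp

/-- (ii)a: it is impossible that all non-monomial elements of K have no zero entries -/
theorem no_full (hn : 5 ≤ Fintype.card κ) (hK : HasN K)
    (hall : ∀ h : GL κ F, h ∈ K → ¬ IsMono (h : Matrix κ κ F) → ∀ a b, (h : Matrix κ κ F) a b ≠ 0)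
    {g : GL κ F} (hg : g ∈ K) (hgm : ¬ IsMono (g : Matrix κ κ F)) : False := by
  have hg0 := hall g hg hgm
  have hg0' := hall g⁻¹ (K.inv_mem hg) (not_mono_inv hgm)
  obtain ⟨l⟩ : Nonempty κ := Fintype.card_pos_iff.1 (by omega)
  obtain ⟨a0⟩ : Nonempty κ := ⟨l⟩
  set A : κ → κ → F := fun m k => (g : Matrix κ κ F) m k * ((g⁻¹ : GL κ F) : Matrix κ κ F) k l with hA
  have hA0 : ∀ m k, A m k ≠ 0 := fun m k => mul_ne_zero (hg0 m k) (hg0' k l)
  -- property P
  have P : ∀ a b, a ≠ b → ∀ m1, m1 ≠ l → ∀ ε : F, ε ≠ 1 → A m1 b = ε * A m1 a →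
      ∃ i0, ∀ m, m ≠ l → m ≠ i0 → A m b = ε * A m a := by
    intro a b hab m1 hm1 ε hε h1
    have hε0 : ε ≠ 0 := by
      rintro rfl
      rw [zero_mul] at h1
      exact hA0 m1 b h1
    set ε' : Fˣ := Units.mk0 ε hε0 with hε'
    have hinv : ε * ((ε'⁻¹ : Fˣ) : F) = 1 := by
      have := Units.mul_inv ε'
      rwa [hε', Units.val_mk0, ← hε'] at this
    have hmem : g * diagHom κ F (d2 a b ε') * g⁻¹ ∈ K :=
      K.mul_mem (K.mul_mem hg (diagHom_mem hK (prod_d2 a b ε'))) (K.inv_mem hg)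
    have hmono : IsMono ((g * diagHom κ F (d2 a b ε') * g⁻¹ : GL κ F) : Matrix κ κ F) := by
      by_contra hnm
      apply hall _ hmem hnm m1 l
      rw [conj_d2 g hab, if_neg hm1, zero_add]
      show ((ε' : F) - 1) * A m1 a + (((ε'⁻¹ : Fˣ) : F) - 1) * A m1 b = 0
      rw [h1, hε', Units.val_mk0, ← hε']
      linear_combination (A m1 a) * hinv
    obtain ⟨i0, hi0⟩ := hmono l
    refine ⟨i0, fun m hml hmi => ?_⟩
    have h2 := hi0 m hmi
    rw [conj_d2 g hab, if_neg hml, zero_add] at h2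
    have h3 : ((ε' : F) - 1) * A m a + (((ε'⁻¹ : Fˣ) : F) - 1) * A m b = 0 := h2
    rw [hε', Units.val_mk0, ← hε'] at h3
    have h4 : (ε - 1) * (A m b - ε * A m a) = 0 := by
      linear_combination (-ε) * h3 + (A m b) * hinv
    exact sub_eq_zero.1 ((mul_eq_zero.1 h4).resolve_left (sub_ne_zero.2 hε))
  -- exceptional rows
  set E : κ → κ → Prop := fun e b => b ≠ a0 ∧ e ≠ l ∧ A e b = A e a0 ∧ ∃ ε : F, ε ≠ 1 ∧ ∀ m, m ≠ l → m ≠ e →
    A m b = ε * A m a0 with hE
  have mkE : ∀ m1 m2 b, m1 ≠ m2 → m1 ≠ l → m2 ≠ l → b ≠ a0 → ∀ ε : F, ε ≠ 1 → A m1 b = ε * A m1 a0 →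
      A m2 b ≠ ε * A m2 a0 → E m2 b := by
    intro m1 m2 b hm12 hm1 hm2 hb ε hε h1 h2
    obtain ⟨i0, hi0⟩ := P a0 b (Ne.symm hb) m1 hm1 ε hε h1
    have hi : m2 = i0 := by
      by_contra hne
      exact h2 (hi0 m2 hm2 hne)
    subst hi
    refine ⟨hb, hm2, ?_, ε, hε, hi0⟩
    by_contra hne
    -- the ratio at m2
    set ε2 : F := A m2 b / A m2 a0 with hε2
    have e1 : A m2 b = ε2 * A m2 a0 := by rw [hε2, div_mul_cancel₀ _ (hA0 _ _)]
    have e2 : ε2 ≠ 1 := by
      intro h; rw [h, one_mul] at e1; exact hne e1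
    obtain ⟨i1, hi1⟩ := P a0 b (Ne.symm hb) m2 hm2 ε2 e2 e1
    obtain ⟨m, hml, hmm, hmi, -⟩ := exists_notMem4 hn l m2 i1 i1
    have e3 := hi0 m hml hmm
    have e4 := hi1 m hml hmi
    have e5 : ε = ε2 := mul_right_cancel₀ (hA0 m a0) (e3.symm.trans e4)
    exact h2 (by rw [e5]; exact e1)
  have X : ∀ m1 m2, m1 ≠ m2 → m1 ≠ l → m2 ≠ l → ∃ b, E m1 b ∨ E m2 b := by
    intro m1 m2 hm12 hm1 hm2
    -- rows m1, m2 of g are not proportional
    have hnp : ∃ b, A m1 b * A m2 a0 ≠ A m2 b * A m1 a0 := by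
      by_contra hcon
      push Not at hcon
      -- rows of g proportional
      have h1 : ∀ k, (g : Matrix κ κ F) m1 k * A m2 a0 = (g : Matrix κ κ F) m2 k * A m1 a0 := by
        intro k
        have h2 := hcon k
        simp only [hA] at h2 ⊢
        have h3 := hg0' k l
        apply mul_right_cancel₀ h3
        linear_combination h2
      have h4 := mul_inv_entry g m1 m1
      have h5 := mul_inv_entry g m2 m1
      rw [if_pos rfl] at h4
      rw [if_neg (Ne.symm hm12)] at h5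
      have h6 : A m2 a0 = 0 := by
        have : A m2 a0 * (∑ m, (g : Matrix κ κ F) m1 m * ((g⁻¹ : GL κ F) : Matrix κ κ F) m m1) =
            A m1 a0 * (∑ m, (g : Matrix κ κ F) m2 m * ((g⁻¹ : GL κ F) : Matrix κ κ F) m m1) := by
          rw [Finset.mul_sum, Finset.mul_sum]
          refine Finset.sum_congr rfl fun m _ => ?_
          linear_combination (((g⁻¹ : GL κ F) : Matrix κ κ F) m m1) * h1 m
        rwa [h4, h5, mul_one, mul_zero] at this
      exact hA0 _ _ h6
    obtain ⟨b, hb⟩ := hnp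
    have hba : b ≠ a0 := by
      rintro rfl; exact hb (mul_comm _ _)
    refine ⟨b, ?_⟩
    set ε1 : F := A m1 b / A m1 a0 with hε1
    set ε2 : F := A m2 b / A m2 a0 with hε2
    have e1 : A m1 b = ε1 * A m1 a0 := by rw [hε1, div_mul_cancel₀ _ (hA0 _ _)]
    have e2 : A m2 b = ε2 * A m2 a0 := by rw [hε2, div_mul_cancel₀ _ (hA0 _ _)]
    have hne : ε1 ≠ ε2 := by
      intro h
      apply hb
      rw [e1, e2, h]; ring
    by_cases h1 : ε1 = 1
    · left
      refine mkE m2 m1 b (Ne.symm hm12) hm2 hm1 hba ε2 (fun h => hne (h1.trans h.symm)) e2 fun h => hne ?_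
      exact mul_right_cancel₀ (hA0 m1 a0) (e1.symm.trans h)
    · right
      refine mkE m1 m2 b hm12 hm1 hm2 hba ε1 h1 e1 fun h => hne ?_
      exact mul_right_cancel₀ (hA0 m2 a0) (h.symm.trans e2)
  -- two different exceptional rows
  obtain ⟨e, e', b, b', hee, hEb, hEb'⟩ : ∃ e e' b b', e ≠ e' ∧ E e b ∧ E e' b' := by
    obtain ⟨m1, h1l, -, -, -⟩ := exists_notMem4 hn l l l l
    obtain ⟨m2, h2l, h21, -, -⟩ := exists_notMem4 hn l m1 l l
    obtain ⟨m3, h3l, h31, h32, -⟩ := exists_notMem4 hn l m1 m2 l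
    obtain ⟨b, hb | hb⟩ := X m1 m2 (Ne.symm h21) h1l h2l
    · obtain ⟨b', hb' | hb'⟩ := X m2 m3 (Ne.symm h32) h2l h3l
      · exact ⟨m1, m2, b, b', Ne.symm h21, hb, hb'⟩
      · exact ⟨m1, m3, b, b', Ne.symm h31, hb, hb'⟩
    · obtain ⟨b', hb' | hb'⟩ := X m1 m3 (Ne.symm h31) h1l h3l
      · exact ⟨m2, m1, b, b', h21, hb, hb'⟩
      · exact ⟨m2, m3, b, b', Ne.symm h32, hb, hb'⟩
  obtain ⟨hb, hel, h1, ε, hε, h2⟩ := hEb
  obtain ⟨hb', hel', h1', ε', hε', h2'⟩ := hEb'
  have hε0 : ε ≠ 0 := by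
    rintro rfl
    have := h2 e' hel' (Ne.symm hee)
    rw [zero_mul] at this; exact hA0 _ _ this
  have hbb : b ≠ b' := by
    rintro rfl
    have h3 := h2' e hel hee
    rw [h1] at h3
    exact hε' (mul_right_cancel₀ (hA0 e a0) (by rw [one_mul]; exact h3.symm))
  -- ratio b'/b at e is ε'
  have h3 : A e b' = ε' * A e b := by rw [h2' e hel hee, h1]
  obtain ⟨i0, hi0⟩ := P b b' hbb e hel ε' hε' h3
  obtain ⟨m5, h5l, h5e, h5e', -⟩ := exists_notMem4 hn l e e' l
  -- pick m ∉ {l, e, e', i0}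
  obtain ⟨m, hml, hme, hme', hmi⟩ := exists_notMem4 hn l e e' i0
  have e1 := hi0 m hml hmi
  have e2 := h2 m hml hme
  have e3 := h2' m hml hme'
  rw [e3, e2] at e1
  apply hε
  have : ε' * A m a0 * (ε - 1) = 0 := by linear_combination -e1
  have hε'0 : ε' ≠ 0 := by
    rintro rfl
    have := h2' e hel hee
    rw [zero_mul] at this; exact hA0 _ _ this
  exact sub_eq_zero.1 ((mul_eq_zero.1 this).resolve_left (mul_ne_zero hε'0 (hA0 _ _)))

/-- (ii)b in odd characteristic: a zero entry is impossible -/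
theorem no_zero_odd [Fintype F] (hq : 5 ≤ Fintype.card F) (hn : 6 ≤ Fintype.card κ) (hK : HasN K)
    (hKS : K ≤ specialLinear κ F) (hns : ¬ specialLinear κ F ≤ K) (h2 : (2 : F) ≠ 0)
    {g : GL κ F} (hg : g ∈ K) (hgm : ¬ IsMono (g : Matrix κ κ F)) {j0 i : κ} (h0 : (g : Matrix κ κ F) j0 i = 0) : False := by
  have F2g : ∀ {i a b : κ}, a ≠ b → (g : Matrix κ κ F) a i = 0 → (g : Matrix κ κ F) b i = 0 → False :=
    fun hab ha hb => F2 hq (by omega) hK hKS hns hg hgm hab ha hb
  have F2g' : ∀ {i a b : κ}, a ≠ b → ((g⁻¹ : GL κ F) : Matrix κ κ F) a i = 0 → ((g⁻¹ : GL κ F) : Matrix κ κ F) b i = 0 → False :=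
    fun hab ha hb => F2 hq (by omega) hK hKS hns (K.inv_mem hg) (not_mono_inv hgm) hab ha hb
  obtain ⟨a, haj, -, -, -⟩ := exists_notMem4 (by omega : 5 ≤ Fintype.card κ) j0 j0 j0 j0
  obtain ⟨b, hbj, hba, -, -⟩ := exists_notMem4 (by omega : 5 ≤ Fintype.card κ) j0 a a a
  have hua : (g : Matrix κ κ F) a i ≠ 0 := fun h => F2g haj h h0
  have hub : (g : Matrix κ κ F) b i ≠ 0 := fun h => F2g hbj h h0
  set ua : Fˣ := Units.mk0 _ hua with hua'
  set ub : Fˣ := Units.mk0 _ hub with hub'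
  set c0 : κ → Fˣ := fun l => if l = a then ub * ua⁻¹ else if l = b then ua * ub⁻¹ else if l = j0 then -1 else 1 with hc0
  obtain ⟨x, hx⟩ : ∃ x : GL κ F, x = monoGL (Equiv.swap a b) c0 := ⟨_, rfl⟩
  have hab : a ≠ b := Ne.symm hba
  have hxK : x ∈ K := by
    rw [hx]
    refine hK _ (monoM_isMono _ _) ?_
    rw [monoGL_val, monoM_det, Equiv.Perm.sign_swap hab]
    have : ∏ l, (c0 l : F) = -1 := by
      have e1 : ∏ l, (c0 l : F) = ∏ l ∈ ({a, b, j0} : Finset κ), (c0 l : F) := by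
        symm
        apply Finset.prod_subset (Finset.subset_univ _)
        intro l _ hl
        simp only [Finset.mem_insert, Finset.mem_singleton, not_or] at hl
        simp [hc0, hl.1, hl.2.1, hl.2.2]
      rw [e1, Finset.prod_insert (by simp [hab, haj]), Finset.prod_insert (by simp [hbj]), Finset.prod_singleton]
      simp only [hc0, if_true, if_neg hba, if_neg (Ne.symm haj), if_neg (Ne.symm hbj)]
      push_cast
      have := ua.ne_zero
      have := ub.ne_zero
      field_simp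
    rw [this]; simp
  have hxv : ∀ w : κ → F, ∀ l, ((x : Matrix κ κ F) *ᵥ w) l = if l = b then (ub : F) * (ua : F)⁻¹ * w a else
      if l = a then (ua : F) * (ub : F)⁻¹ * w b else if l = j0 then - w j0 else w l := by
    intro w l
    rw [hx, monoGL_val, monoM_mulVec, Equiv.swap_inv]
    by_cases hlb : l = b
    · subst hlb; rw [Equiv.swap_apply_right]; simp [hc0]
    · by_cases hla : l = a
      · subst hla; rw [Equiv.swap_apply_left]; simp [hc0, hab, hba]
      · rw [Equiv.swap_apply_of_ne_of_ne hla hlb]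
        by_cases hlj : l = j0
        · subst hlj; simp [hc0, hla, hlb]
        · simp [hc0, hla, hlb, hlj]
  obtain ⟨y, hy⟩ : ∃ y : GL κ F, y = g⁻¹ * x * g := ⟨_, rfl⟩
  have hyK : y ∈ K := by
    rw [hy]; exact K.mul_mem (K.mul_mem (K.inv_mem hg) hxK) hg
  have hgy : g * y = x * g := by rw [hy]; group
  have hcolg : ∀ k, (g : Matrix κ κ F) *ᵥ Pi.single k 1 = fun j => (g : Matrix κ κ F) j k := by
    intro k; rw [Matrix.mulVec_single_one]; rfl
  have hcol : (y : Matrix κ κ F) *ᵥ Pi.single i 1 = Pi.single i 1 := by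
    have e2 : (x : Matrix κ κ F) *ᵥ (fun j => (g : Matrix κ κ F) j i) = fun j => (g : Matrix κ κ F) j i := by
      ext l
      rw [hxv]
      by_cases hlb : l = b
      · rw [if_pos hlb, hlb]
        show (ub : F) * (ua : F)⁻¹ * (ua : F) = ub
        have := ua.ne_zero
        field_simp
      · rw [if_neg hlb]
        by_cases hla : l = a
        · rw [if_pos hla, hla]
          show (ua : F) * (ub : F)⁻¹ * (ub : F) = ua
          have := ub.ne_zero
          field_simp
        · rw [if_neg hla]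
          by_cases hlj : l = j0
          · rw [if_pos hlj, hlj, h0, neg_zero]
          · rw [if_neg hlj]
    rw [hy, Units.val_mul, Units.val_mul, ← Matrix.mulVec_mulVec, ← Matrix.mulVec_mulVec, hcolg, e2, ← hcolg,
      Matrix.mulVec_mulVec, ← Units.val_mul, inv_mul_cancel, Units.val_one, one_mulVec]
  have hym : IsMono (y : Matrix κ κ F) := by
    refine star hq (by omega) hK hKS hns hyK (o := i) fun l hl => ?_
    have := congrFun hcol l
    rw [Matrix.mulVec_single_one, Pi.single_eq_of_ne hl] at this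
    exact this
  obtain ⟨σ, c, hσ⟩ := mono_eq hym
  -- the relation c_k g_{j,σ k} = (x g)_{j k}
  have R1 : ∀ j k, (c k : F) * (g : Matrix κ κ F) j (σ k) = ((x : Matrix κ κ F) *ᵥ fun l => (g : Matrix κ κ F) l k) j := by
    intro j k
    have h1 : ((g * y : GL κ F) : Matrix κ κ F) j k = ((x * g : GL κ F) : Matrix κ κ F) j k := by rw [hgy]
    rw [Units.val_mul, Units.val_mul, hσ, monoGL_val] at h1
    have e1 : ((g : Matrix κ κ F) * monoM σ c) j k = (c k : F) * (g : Matrix κ κ F) j (σ k) := by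
      rw [Matrix.mul_apply, Finset.sum_eq_single (σ k)]
      · simp [monoM, mul_comm]
      · intro l _ hl; simp [monoM, hl]
      · simp
    rw [← e1, h1]
    rfl
  -- v = g⁻¹ e_{j0}
  set v : κ → F := fun k => ((g⁻¹ : GL κ F) : Matrix κ κ F) k j0 with hv
  have hgv : (g : Matrix κ κ F) *ᵥ v = Pi.single j0 1 := by
    have e1 : ((g⁻¹ : GL κ F) : Matrix κ κ F) *ᵥ Pi.single j0 1 = v := by
      rw [Matrix.mulVec_single_one]; rfl
    rw [← e1, Matrix.mulVec_mulVec, ← Units.val_mul, mul_inv_cancel, Units.val_one, one_mulVec]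
  have hyv : ∀ k, (c k : F) * v k = - v (σ k) := by
    intro k
    have e3 : (x : Matrix κ κ F) *ᵥ Pi.single j0 1 = - Pi.single j0 1 := by
      ext l
      rw [hxv, Pi.neg_apply]
      by_cases hlb : l = b
      · rw [if_pos hlb, hlb, Pi.single_eq_of_ne haj, Pi.single_eq_of_ne hbj]; simp
      · rw [if_neg hlb]
        by_cases hla : l = a
        · rw [if_pos hla, hla, Pi.single_eq_of_ne haj, Pi.single_eq_of_ne hbj]; simp
        · rw [if_neg hla]
          by_cases hlj : l = j0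
          · rw [if_pos hlj, hlj]
          · rw [if_neg hlj, Pi.single_eq_of_ne hlj, neg_zero]
    have e1 : ((g⁻¹ : GL κ F) : Matrix κ κ F) *ᵥ Pi.single j0 1 = v := by
      rw [Matrix.mulVec_single_one]; rfl
    have e2 : (y : Matrix κ κ F) *ᵥ v = - v := by
      rw [hy, Units.val_mul, Units.val_mul, ← Matrix.mulVec_mulVec, ← Matrix.mulVec_mulVec, hgv, e3, Matrix.mulVec_neg, e1]
    have e4 := congrFun e2 (σ k)
    rw [hσ, monoGL_val, monoM_mulVec] at e4
    simpa using e4
  have hneg : ∀ z : F, z = - z → z = 0 := by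
    intro z hz
    have : 2 * z = 0 := by linear_combination hz
    exact (mul_eq_zero.1 this).resolve_left h2
  -- fixed points of σ are outside the support of v
  have hfix : ∀ k, v k ≠ 0 → σ k ≠ k := by
    intro k hk hσk
    have h3 := hyv k
    rw [hσk] at h3
    have h4 : (c k : F) = -1 := mul_right_cancel₀ hk (by rw [h3]; ring)
    have h5 : ∀ j, j ≠ a → j ≠ b → j ≠ j0 → (g : Matrix κ κ F) j k = 0 := by
      intro j hja hjb hjj
      have h6 := R1 j k
      rw [hxv, if_neg hjb, if_neg hja, if_neg hjj, hσk, h4] at h6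
      exact hneg _ (by linear_combination -h6)
    obtain ⟨j1, h1a, h1b, h1j, -⟩ := exists_notMem4 (by omega : 5 ≤ Fintype.card κ) a b j0 j0
    obtain ⟨j2, h2a, h2b, h2j, h21⟩ := exists_notMem4 (by omega : 5 ≤ Fintype.card κ) a b j0 j1
    exact F2g (Ne.symm h21) (h5 j1 h1a h1b h1j) (h5 j2 h2a h2b h2j)
  -- t_k = y e_k - e_k
  set Dk : κ → F := fun k => (ub : F) * (g : Matrix κ κ F) a k - (ua : F) * (g : Matrix κ κ F) b k with hDk
  set f : κ → F := Pi.single b ((ua : F)⁻¹) - Pi.single a ((ub : F)⁻¹) with hf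
  set f' : κ → F := ((g⁻¹ : GL κ F) : Matrix κ κ F) *ᵥ f with hf'
  have hgf : (g : Matrix κ κ F) *ᵥ f' = f := by
    rw [hf', Matrix.mulVec_mulVec, ← Units.val_mul, mul_inv_cancel, Units.val_one, one_mulVec]
  have ht : ∀ k, (c k : F) • (Pi.single (σ k) 1 : κ → F) - Pi.single k 1 =
      Dk k • f' + (-2 * (g : Matrix κ κ F) j0 k) • v := by
    intro k
    have hinj : Function.Injective (fun z : κ → F => (g : Matrix κ κ F) *ᵥ z) := by
      intro z z' hzz
      have := congrArg (fun w => ((g⁻¹ : GL κ F) : Matrix κ κ F) *ᵥ w) hzz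
      simpa [mulVec_mulVec, ← Units.val_mul] using this
    apply hinj
    show (g : Matrix κ κ F) *ᵥ _ = (g : Matrix κ κ F) *ᵥ _
    rw [Matrix.mulVec_sub, Matrix.mulVec_smul, Matrix.mulVec_add, Matrix.mulVec_smul, Matrix.mulVec_smul, hgf, hgv,
      hcolg, hcolg]
    ext l
    simp only [Pi.sub_apply, Pi.add_apply, Pi.smul_apply, smul_eq_mul]
    rw [R1 l k, hxv, hf, Pi.sub_apply]
    have e1 := ua.ne_zero
    have e2 := ub.ne_zero
    by_cases hlb : l = b
    · subst hlb
      rw [if_pos rfl, Pi.single_eq_same, Pi.single_eq_of_ne hba, Pi.single_eq_of_ne hbj]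
      simp only [hDk]
      field_simp
      ring
    · rw [if_neg hlb]
      by_cases hla : l = a
      · subst hla
        rw [if_pos rfl, Pi.single_eq_of_ne hab, Pi.single_eq_same, Pi.single_eq_of_ne haj]
        simp only [hDk]
        field_simp
        ring
      · rw [if_neg hla]
        by_cases hlj : l = j0
        · subst hlj
          rw [if_pos rfl, Pi.single_eq_of_ne hlb, Pi.single_eq_of_ne hla, Pi.single_eq_same]
          ring
        · rw [if_neg hlj, Pi.single_eq_of_ne hlb, Pi.single_eq_of_ne hla, Pi.single_eq_of_ne hlj]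
          ring
  -- σ is an involution
  have hσσ : ∀ k, σ (σ k) = k := by
    intro k
    by_contra hne
    -- x² = 1
    have hxx : ∀ w : κ → F, (x : Matrix κ κ F) *ᵥ ((x : Matrix κ κ F) *ᵥ w) = w := by
      intro w
      ext l
      have e1 := ua.ne_zero
      have e2 := ub.ne_zero
      rw [hxv]
      by_cases hlb : l = b
      · rw [if_pos hlb, hxv, if_neg hab, if_pos rfl, hlb]; field_simp
      · rw [if_neg hlb]
        by_cases hla : l = a
        · rw [if_pos hla, hxv, if_pos rfl, hla]; field_simp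
        · rw [if_neg hla]
          by_cases hlj : l = j0
          · rw [if_pos hlj, hxv, if_neg (Ne.symm hbj), if_neg (Ne.symm haj), if_pos rfl, hlj, neg_neg]
          · rw [if_neg hlj, hxv, if_neg hlb, if_neg hla, if_neg hlj]
    have e5 : ∀ j, (c k : F) * c (σ k) * (g : Matrix κ κ F) j (σ (σ k)) = (g : Matrix κ κ F) j k := by
      intro j
      have e6 : (x : Matrix κ κ F) *ᵥ (fun l => (g : Matrix κ κ F) l k) = (c k : F) • fun l => (g : Matrix κ κ F) l (σ k) := by
        ext l; rw [← R1]; rfl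
      have e7 := hxx (fun l => (g : Matrix κ κ F) l k)
      rw [e6, Matrix.mulVec_smul] at e7
      have e8 := congrFun e7 j
      rw [Pi.smul_apply, smul_eq_mul, ← R1 j (σ k)] at e8
      rw [← e8]; ring
    have e6 := inv_mul_entry g k k
    rw [if_pos rfl] at e6
    have e7 := inv_mul_entry g k (σ (σ k))
    rw [if_neg (Ne.symm hne)] at e7
    have e8 : ∑ m, ((g⁻¹ : GL κ F) : Matrix κ κ F) k m * (g : Matrix κ κ F) m k = (c k : F) * c (σ k) *
        ∑ m, ((g⁻¹ : GL κ F) : Matrix κ κ F) k m * (g : Matrix κ κ F) m (σ (σ k)) := by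
      rw [Finset.mul_sum]
      refine Finset.sum_congr rfl fun m _ => ?_
      rw [← e5 m]; ring
    rw [e6, e7, mul_zero] at e8
    exact one_ne_zero e8
  -- three indices
  have hv1 : ∀ p q : κ, p ≠ q → v p ≠ 0 ∨ v q ≠ 0 := by
    intro p q hpq
    by_contra hcon
    push Not at hcon
    exact F2g' hpq hcon.1 hcon.2
  have pick : ∀ s : Finset κ, s.card ≤ 4 → ∃ k, k ∉ s ∧ v k ≠ 0 := by
    intro s hs
    have h3 : 2 ≤ (Finset.univ \ s).card := by
      have := Finset.card_sdiff_add_card_inter Finset.univ s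
      rw [Finset.univ_inter, Finset.card_univ] at this
      omega
    obtain ⟨p, hp, q, hq', hpq⟩ := Finset.one_lt_card.1 (show 1 < (Finset.univ \ s).card by omega)
    rw [Finset.mem_sdiff] at hp hq'
    rcases hv1 p q hpq with h | h
    · exact ⟨p, hp.2, h⟩
    · exact ⟨q, hq'.2, h⟩
  obtain ⟨k1, -, hk1⟩ := pick ∅ (by simp)
  obtain ⟨k2, hk2', hk2⟩ := pick {k1, σ k1} (le_trans Finset.card_le_two (by norm_num))
  obtain ⟨k3, hk3', hk3⟩ := pick {k1, σ k1, k2, σ k2} Finset.card_le_four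
  simp only [Finset.mem_insert, Finset.mem_singleton, not_or] at hk2' hk3'
  have h12 : k1 ≠ k2 := Ne.symm hk2'.1
  have h1s2 : k1 ≠ σ k2 := fun h => hk2'.2 (by rw [h, hσσ])
  have t1 := ht k1
  have t2 := ht k2
  have a13 := congrFun t1 k3
  have a23 := congrFun t2 k3
  have a11 := congrFun t1 k1
  have a21 := congrFun t2 k1
  have a12 := congrFun t1 k2
  have a22 := congrFun t2 k2
  simp only [Pi.sub_apply, Pi.add_apply, Pi.smul_apply, smul_eq_mul] at a13 a23 a11 a21 a12 a22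
  rw [Pi.single_eq_of_ne hk3'.2.1, Pi.single_eq_of_ne hk3'.1] at a13
  rw [Pi.single_eq_of_ne hk3'.2.2.2, Pi.single_eq_of_ne hk3'.2.2.1] at a23
  rw [Pi.single_eq_of_ne (Ne.symm (hfix k1 hk1)), Pi.single_eq_same] at a11
  rw [Pi.single_eq_of_ne h1s2, Pi.single_eq_of_ne h12] at a21
  rw [Pi.single_eq_of_ne hk2'.2, Pi.single_eq_of_ne hk2'.1] at a12
  rw [Pi.single_eq_of_ne (Ne.symm (hfix k2 hk2)), Pi.single_eq_same] at a22
  set β1 : F := -2 * (g : Matrix κ κ F) j0 k1
  set β2 : F := -2 * (g : Matrix κ κ F) j0 k2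
  have key : Dk k2 * β1 - Dk k1 * β2 = 0 := by
    have : (Dk k2 * β1 - Dk k1 * β2) * v k3 = 0 := by linear_combination Dk k1 * a23 - Dk k2 * a13
    exact (mul_eq_zero.1 this).resolve_right hk3
  have hD2 : Dk k2 = 0 := by linear_combination (-(v k1)) * key - Dk k2 * a11 + Dk k1 * a21
  have hD1 : Dk k1 = 0 := by linear_combination (v k2) * key + Dk k2 * a12 - Dk k1 * a22
  rw [hD1] at a13 a11
  have hβ1 : β1 = 0 := by
    have : β1 * v k3 = 0 := by linear_combination -a13
    exact (mul_eq_zero.1 this).resolve_right hk3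
  rw [hβ1] at a11
  exact one_ne_zero (by linear_combination -a11 : (1 : F) = 0)

/-! ### characteristic two -/

/-- the centre and the functional of the conjugated transposition -/
def zc (g : GL κ F) (a b : κ) (c : Fˣ) (m : κ) : F :=
  ((g⁻¹ : GL κ F) : Matrix κ κ F) m a + c * ((g⁻¹ : GL κ F) : Matrix κ κ F) m b

def ze (g : GL κ F) (a b : κ) (c : Fˣ) (l : κ) : F :=
  (g : Matrix κ κ F) a l + ((c⁻¹ : Fˣ) : F) * (g : Matrix κ κ F) b l

theorem base_T (hK : HasN K) (h2 : (2 : F) = 0) {a b : κ} (hab : a ≠ b) (c : Fˣ) :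
    HasT K (Pi.single a 1 + Pi.single b (c : F)) (Pi.single a 1 + Pi.single b ((c⁻¹ : Fˣ) : F)) := by
  have hinv : (c : F) * ((c⁻¹ : Fˣ) : F) = 1 := Units.mul_inv c
  have hdot : (Pi.single a 1 + Pi.single b ((c⁻¹ : Fˣ) : F) : κ → F) ⬝ᵥ (Pi.single a 1 + Pi.single b (c : F)) = 0 := by
    rw [add_dotProduct, dotProduct_add, dotProduct_add]
    simp [hab, hab.symm]
    linear_combination h2
  refine HasT.mk hdot (hK _ ?_ (det_tm _ _ hdot))
  intro j
  refine ⟨Equiv.swap a b j, fun k hk => ?_⟩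
  rw [tGL_val, tm, Matrix.add_apply, vecMulVec_apply, Matrix.one_apply]
  simp only [Pi.add_apply]
  by_cases hja : j = a
  · subst hja
    rw [Equiv.swap_apply_left] at hk
    by_cases hkj : k = j
    · subst hkj; simp [hab]; linear_combination h2
    · simp [hkj, hk, hab]
  · by_cases hjb : j = b
    · subst hjb
      rw [Equiv.swap_apply_right] at hk
      by_cases hkj : k = j
      · subst hkj; simp [hk]; linear_combination h2
      · simp [hkj, hk, hab]
    · rw [Equiv.swap_apply_of_ne_of_ne hja hjb] at hk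
      simp [hk, hja, hjb]

theorem conj_T (hK : HasN K) (h2 : (2 : F) = 0) {g : GL κ F} (hg : g ∈ K) {a b : κ} (hab : a ≠ b) (c : Fˣ) :
    HasT K (zc g a b c) (ze g a b c) := by
  have h := (base_T hK h2 hab c).conj (K.inv_mem hg)
  convert h using 1
  · ext m
    rw [Matrix.mulVec_add, Pi.add_apply, Matrix.mulVec_single, Matrix.mulVec_single]
    simp [zc]
    ring
  · ext l
    rw [inv_inv, Matrix.add_vecMul, Pi.add_apply, Matrix.single_vecMul, Matrix.single_vecMul]
    simp [ze]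

section
variable [Fintype F] (hq : 5 ≤ Fintype.card F) (hn : 5 ≤ Fintype.card κ) (hK : HasN K)
    (hKS : K ≤ specialLinear κ F) (hns : ¬ specialLinear κ F ≤ K) (h2 : (2 : F) = 0)
include hq hn hK hKS hns h2

theorem M1 {g : GL κ F} (hg : g ∈ K) (hgm : ¬ IsMono (g : Matrix κ κ F)) {a b : κ} (hab : a ≠ b) (c : Fˣ)
    (hm : IsMono (tm (zc g a b c) (ze g a b c))) :
    ∃ k k', k ≠ k' ∧ ze g a b c k ≠ 0 ∧ ze g a b c k' ≠ 0 ∧ ∀ l, l ≠ k → l ≠ k' → ze g a b c l = 0 := by
  set z := zc g a b c with hz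
  set ζ := ze g a b c with hζ
  have hT := conj_T hK h2 hg hab c
  rw [← hz, ← hζ] at hT
  obtain ⟨k, hk⟩ : ∃ k, ζ k ≠ 0 := by
    by_contra hcon
    push Not at hcon
    have h1 := mul_inv_entry g a a
    have h3 := mul_inv_entry g b a
    rw [if_pos rfl] at h1
    rw [if_neg (Ne.symm hab)] at h3
    have : ∑ m, ζ m * ((g⁻¹ : GL κ F) : Matrix κ κ F) m a = 1 := by
      have e : ∀ m, ζ m * ((g⁻¹ : GL κ F) : Matrix κ κ F) m a =
          (g : Matrix κ κ F) a m * ((g⁻¹ : GL κ F) : Matrix κ κ F) m a +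
          ((c⁻¹ : Fˣ) : F) * ((g : Matrix κ κ F) b m * ((g⁻¹ : GL κ F) : Matrix κ κ F) m a) := by
        intro m; rw [hζ, ze]; ring
      rw [Finset.sum_congr rfl fun m _ => e m, Finset.sum_add_distrib, ← Finset.mul_sum, h1, h3]
      ring
    rw [Finset.sum_eq_zero (fun m _ => by rw [hcon m, zero_mul])] at this
    exact zero_ne_one this
  -- z is not supported on one coordinate
  have hnot : ∀ k, ¬ ∀ m, m ≠ k → z m = 0 := by
    intro k hcon
    have e : ∀ j, (g : Matrix κ κ F) j k * z k = (if j = a then 1 else 0) + (c : F) * (if j = b then 1 else 0) := by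
      intro j
      have h1 := mul_inv_entry g j a
      have h3 := mul_inv_entry g j b
      have h4 : ∑ m, (g : Matrix κ κ F) j m * z m = (g : Matrix κ κ F) j k * z k := by
        apply Finset.sum_eq_single k
        · intro m _ hm'; rw [hcon m hm', mul_zero]
        · simp
      rw [← h4, ← h1, ← h3, Finset.mul_sum, ← Finset.sum_add_distrib]
      refine Finset.sum_congr rfl fun m _ => ?_
      rw [hz, zc]; ring
    have hzk : z k ≠ 0 := by
      intro h0
      have h1 := e a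
      rw [h0, mul_zero, if_pos rfl, if_neg hab, mul_zero, add_zero] at h1
      exact zero_ne_one h1
    obtain ⟨j1, h1a, h1b, -, -⟩ := exists_notMem4 hn a b a b
    obtain ⟨j2, h2a, h2b, h21, -⟩ := exists_notMem4 hn a b j1 b
    have z1 : (g : Matrix κ κ F) j1 k = 0 := by
      have := e j1
      rw [if_neg h1a, if_neg h1b, mul_zero, add_zero] at this
      exact (mul_eq_zero.1 this).resolve_right hzk
    have z2 : (g : Matrix κ κ F) j2 k = 0 := by
      have := e j2
      rw [if_neg h2a, if_neg h2b, mul_zero, add_zero] at this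
      exact (mul_eq_zero.1 this).resolve_right hzk
    exact F2 hq hn hK hKS hns hg hgm (Ne.symm h21) z1 z2
  have hent : ∀ m l, (tm z ζ) m l = (if m = l then 1 else 0) + z m * ζ l := by
    intro m l
    rw [tm, Matrix.add_apply, Matrix.one_apply, vecMulVec_apply]
  obtain ⟨k', hk'⟩ := hm k
  have hkk : k' ≠ k := by
    rintro rfl
    apply hnot k'
    intro m hm'
    have := hk' m hm'
    rw [hent, if_neg hm', zero_add] at this
    exact (mul_eq_zero.1 this).resolve_right hk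
  have hzm : ∀ m, m ≠ k → m ≠ k' → z m = 0 := by
    intro m hmk hmk'
    have := hk' m hmk'
    rw [hent, if_neg hmk, zero_add] at this
    exact (mul_eq_zero.1 this).resolve_right hk
  have hzk' : z k' ≠ 0 := by
    intro h0
    apply hnot k
    intro m hmk
    by_cases hmk' : m = k'
    · rw [hmk', h0]
    · exact hzm m hmk hmk'
  have hzk1 : 1 + z k * ζ k = 0 := by
    have := hk' k (Ne.symm hkk)
    rwa [hent, if_pos rfl] at this
  have hzk : z k ≠ 0 := by
    intro h0; rw [h0, zero_mul, add_zero] at hzk1; exact one_ne_zero hzk1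
  have hdot : ζ k * z k + ζ k' * z k' = 0 := by
    have h1 := hT.1
    rw [dotProduct, ← Finset.sum_subset (Finset.subset_univ ({k, k'} : Finset κ)), Finset.sum_pair (Ne.symm hkk)] at h1
    · exact h1
    · intro m _ hm'
      simp only [Finset.mem_insert, Finset.mem_singleton, not_or] at hm'
      rw [hzm m hm'.1 hm'.2, mul_zero]
  have hζk' : ζ k' ≠ 0 := by
    intro h0
    rw [h0, zero_mul, add_zero] at hdot
    exact mul_ne_zero hk hzk hdot
  refine ⟨k, k', Ne.symm hkk, hk, hζk', fun l hlk hlk' => ?_⟩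
  by_contra hζl
  obtain ⟨l', hl'⟩ := hm l
  have e1 : k = l' := by
    by_contra hne
    have := hl' k hne
    rw [hent, if_neg (Ne.symm hlk), zero_add] at this
    exact mul_ne_zero hzk hζl this
  have e2 : k' = l' := by
    by_contra hne
    have := hl' k' hne
    rw [hent, if_neg (Ne.symm hlk'), zero_add] at this
    exact mul_ne_zero hzk' hζl this
  exact hkk (e2.trans e1.symm)

theorem M2 {g : GL κ F} (hg : g ∈ K) {a b : κ} (hab : a ≠ b) (c : Fˣ) {l : κ} (hl : ze g a b c l = 0) :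
    IsMono (tm (zc g a b c) (ze g a b c)) := by
  have hT := conj_T hK h2 hg hab c
  have h1 := star hq hn hK hKS hns hT.mem (o := l) (fun m hm => by
    rw [tGL_val, tm, Matrix.add_apply, Matrix.one_apply, vecMulVec_apply, if_neg hm, hl, mul_zero, add_zero])
  rwa [tGL_val] at h1

/-- structure of two rows with a common non-zero column -/
theorem two_rows {g : GL κ F} (hg : g ∈ K) (hgm : ¬ IsMono (g : Matrix κ κ F)) {a b : κ} (hab : a ≠ b) {l0 : κ}
    (ha0 : (g : Matrix κ κ F) a l0 ≠ 0) (hb0 : (g : Matrix κ κ F) b l0 ≠ 0) :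
    ∃ (c : Fˣ) (k k' : κ), k ≠ k' ∧ (∀ l, l ≠ k → l ≠ k' → (g : Matrix κ κ F) b l = c * (g : Matrix κ κ F) a l ∧
      (g : Matrix κ κ F) a l ≠ 0) ∧
      (((g : Matrix κ κ F) a k = 0 ∧ (g : Matrix κ κ F) b k ≠ 0) ∨ ((g : Matrix κ κ F) a k ≠ 0 ∧ (g : Matrix κ κ F) b k = 0)) ∧
      (((g : Matrix κ κ F) a k' = 0 ∧ (g : Matrix κ κ F) b k' ≠ 0) ∨ ((g : Matrix κ κ F) a k' ≠ 0 ∧ (g : Matrix κ κ F) b k' = 0)) := by
  have F2g : ∀ {i a b : κ}, a ≠ b → (g : Matrix κ κ F) a i = 0 → (g : Matrix κ κ F) b i = 0 → False :=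
    fun hab ha hb => F2 hq (by omega) hK hKS hns hg hgm hab ha hb
  -- for any common column
  have main : ∀ l0, (g : Matrix κ κ F) a l0 ≠ 0 → (g : Matrix κ κ F) b l0 ≠ 0 → ∃ (c : Fˣ) (k k' : κ), k ≠ k' ∧
      (g : Matrix κ κ F) b l0 = c * (g : Matrix κ κ F) a l0 ∧
      (g : Matrix κ κ F) b k ≠ c * (g : Matrix κ κ F) a k ∧ (g : Matrix κ κ F) b k' ≠ c * (g : Matrix κ κ F) a k' ∧
      ∀ l, l ≠ k → l ≠ k' → (g : Matrix κ κ F) b l = c * (g : Matrix κ κ F) a l := by
    intro l0 ha0 hb0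
    set c : Fˣ := Units.mk0 _ hb0 * (Units.mk0 _ ha0)⁻¹ with hc
    have hcv : (g : Matrix κ κ F) b l0 = c * (g : Matrix κ κ F) a l0 := by
      rw [hc]; push_cast; simp only [Units.val_mk0]; field_simp
    have hinv : (c : F) * ((c⁻¹ : Fˣ) : F) = 1 := Units.mul_inv c
    have hze : ∀ l, ze g a b c l = 0 ↔ (g : Matrix κ κ F) b l = c * (g : Matrix κ κ F) a l := by
      intro l
      rw [ze]
      constructor
      · intro h
        linear_combination (-(c : F)) * h + ((g : Matrix κ κ F) b l) * hinv + ((g : Matrix κ κ F) b l) * h2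
      · intro h
        rw [h]
        linear_combination ((g : Matrix κ κ F) a l) * hinv + ((g : Matrix κ κ F) a l) * h2
    obtain ⟨k, k', hkk, h1, h3, h4⟩ := M1 hq hn hK hKS hns h2 hg hgm hab c
      (M2 hq hn hK hKS hns h2 hg hab c ((hze l0).2 hcv))
    exact ⟨c, k, k', hkk, hcv, fun h => h1 ((hze k).2 h), fun h => h3 ((hze k').2 h), fun l hl hl' => (hze l).1 (h4 l hl hl')⟩
  obtain ⟨c, k, k', hkk, -, hk, hk', hall⟩ := main l0 ha0 hb0
  have hexc : ∀ p, (g : Matrix κ κ F) b p ≠ c * (g : Matrix κ κ F) a p →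
      (((g : Matrix κ κ F) a p = 0 ∧ (g : Matrix κ κ F) b p ≠ 0) ∨ ((g : Matrix κ κ F) a p ≠ 0 ∧ (g : Matrix κ κ F) b p = 0)) := by
    intro p hp
    by_cases hap : (g : Matrix κ κ F) a p = 0
    · left
      exact ⟨hap, fun hbp => F2g hab hap hbp⟩
    · by_cases hbp : (g : Matrix κ κ F) b p = 0
      · exact Or.inr ⟨hap, hbp⟩
      · exfalso
        obtain ⟨c1, k1, k1', -, hp1, -, -, hall1⟩ := main p hap hbp
        obtain ⟨l, h1, h3, h4, h5⟩ := exists_notMem4 hn k k' k1 k1'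
        have e1 := hall l h1 h3
        have e2 := hall1 l h4 h5
        have hal : (g : Matrix κ κ F) a l ≠ 0 := by
          intro h0
          rw [h0, mul_zero] at e1
          exact F2g hab h0 e1
        have : (c : F) = c1 := mul_right_cancel₀ hal (e1.symm.trans e2)
        exact hp (by rw [this]; exact hp1)
  refine ⟨c, k, k', hkk, fun l hl hl' => ⟨hall l hl hl', fun h0 => ?_⟩, hexc k hk, hexc k' hk'⟩
  have := hall l hl hl'
  rw [h0, mul_zero] at this
  exact F2g hab h0 this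

open Classical in
/-- the zeros of a row -/
noncomputable def Zr (g : Matrix κ κ F) (a : κ) : Finset κ := Finset.univ.filter fun l => g a l = 0

omit hq hn hK hKS hns h2 [Fintype F] in
theorem mem_Zr {g : Matrix κ κ F} {a l : κ} : l ∈ Zr g a ↔ g a l = 0 := by simp [Zr]

theorem card_Zr_pair {g : GL κ F} (hg : g ∈ K) (hgm : ¬ IsMono (g : Matrix κ κ F)) {a b : κ} (hab : a ≠ b) :
    (Zr (g : Matrix κ κ F) a).card + (Zr (g : Matrix κ κ F) b).card = 2 ∨
    (Zr (g : Matrix κ κ F) a).card + (Zr (g : Matrix κ κ F) b).card = Fintype.card κ := by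
  classical
  have F2g : ∀ {i a b : κ}, a ≠ b → (g : Matrix κ κ F) a i = 0 → (g : Matrix κ κ F) b i = 0 → False :=
    fun hab ha hb => F2 hq (by omega) hK hKS hns hg hgm hab ha hb
  have hdisj : Disjoint (Zr (g : Matrix κ κ F) a) (Zr (g : Matrix κ κ F) b) := by
    rw [Finset.disjoint_left]
    intro l h1 h3
    exact F2g hab (mem_Zr.1 h1) (mem_Zr.1 h3)
  rw [← Finset.card_union_of_disjoint hdisj]
  by_cases h : ∃ l0, (g : Matrix κ κ F) a l0 ≠ 0 ∧ (g : Matrix κ κ F) b l0 ≠ 0
  · left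
    obtain ⟨l0, ha0, hb0⟩ := h
    obtain ⟨c, k, k', hkk, hall, hk, hk'⟩ := two_rows hq hn hK hKS hns h2 hg hgm hab ha0 hb0
    have : Zr (g : Matrix κ κ F) a ∪ Zr (g : Matrix κ κ F) b = {k, k'} := by
      ext l
      rw [Finset.mem_union, mem_Zr, mem_Zr, Finset.mem_insert, Finset.mem_singleton]
      constructor
      · intro h1
        by_contra hcon
        push Not at hcon
        obtain ⟨e1, e2⟩ := hall l hcon.1 hcon.2
        rcases h1 with h1 | h1
        · exact e2 h1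
        · rw [h1] at e1
          exact mul_ne_zero c.ne_zero e2 e1.symm
      · rintro (rfl | rfl)
        · rcases hk with h | h
          · exact Or.inl h.1
          · exact Or.inr h.2
        · rcases hk' with h | h
          · exact Or.inl h.1
          · exact Or.inr h.2
    rw [this, Finset.card_pair hkk]
  · right
    push Not at h
    have : Zr (g : Matrix κ κ F) a ∪ Zr (g : Matrix κ κ F) b = Finset.univ := by
      ext l
      rw [Finset.mem_union, mem_Zr, mem_Zr]
      simp only [Finset.mem_univ, iff_true]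
      by_cases h1 : (g : Matrix κ κ F) a l = 0
      · exact Or.inl h1
      · exact Or.inr (h l h1)
    rw [this, Finset.card_univ]

theorem card_Zr {g : GL κ F} (hg : g ∈ K) (hgm : ¬ IsMono (g : Matrix κ κ F)) (a : κ) :
    (Zr (g : Matrix κ κ F) a).card = 1 := by
  classical
  have F2g : ∀ {i a b : κ}, a ≠ b → (g : Matrix κ κ F) a i = 0 → (g : Matrix κ κ F) b i = 0 → False :=
    fun hab ha hb => F2 hq (by omega) hK hKS hns hg hgm hab ha hb
  obtain ⟨b, hba, -, -, -⟩ := exists_notMem4 hn a a a a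
  obtain ⟨r, hra, hrb, -, -⟩ := exists_notMem4 hn a b b b
  have h1 := card_Zr_pair hq hn hK hKS hns h2 hg hgm (Ne.symm hba)
  have h3 := card_Zr_pair hq hn hK hKS hns h2 hg hgm (Ne.symm hra)
  have h4 := card_Zr_pair hq hn hK hKS hns h2 hg hgm (Ne.symm hrb)
  have hd1 : Disjoint (Zr (g : Matrix κ κ F) a) (Zr (g : Matrix κ κ F) b) := by
    rw [Finset.disjoint_left]
    intro l h1 h3
    exact F2g (Ne.symm hba) (mem_Zr.1 h1) (mem_Zr.1 h3)
  have hd2 : Disjoint (Zr (g : Matrix κ κ F) a ∪ Zr (g : Matrix κ κ F) b) (Zr (g : Matrix κ κ F) r) := by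
    rw [Finset.disjoint_left]
    intro l h1 h3
    rcases Finset.mem_union.1 h1 with h1 | h1
    · exact F2g (Ne.symm hra) (mem_Zr.1 h1) (mem_Zr.1 h3)
    · exact F2g (Ne.symm hrb) (mem_Zr.1 h1) (mem_Zr.1 h3)
  have h5 : ((Zr (g : Matrix κ κ F) a ∪ Zr (g : Matrix κ κ F) b) ∪ Zr (g : Matrix κ κ F) r).card ≤ Fintype.card κ := by
    rw [← Finset.card_univ]; exact Finset.card_le_card (Finset.subset_univ _)
  rw [Finset.card_union_of_disjoint hd2, Finset.card_union_of_disjoint hd1] at h5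
  omega

theorem no_even {g : GL κ F} (hg : g ∈ K) (hgm : ¬ IsMono (g : Matrix κ κ F)) : False := by
  classical
  obtain ⟨a⟩ : Nonempty κ := Fintype.card_pos_iff.1 (by omega)
  obtain ⟨b, hba, -, -, -⟩ := exists_notMem4 hn a a a a
  have hab : a ≠ b := Ne.symm hba
  have F2g' : ∀ {i a b : κ}, a ≠ b → ((g⁻¹ : GL κ F) : Matrix κ κ F) a i = 0 → ((g⁻¹ : GL κ F) : Matrix κ κ F) b i = 0 → False :=
    fun hab ha hb => F2 hq (by omega) hK hKS hns (K.inv_mem hg) (not_mono_inv hgm) hab ha hb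
  obtain ⟨za, hza⟩ := Finset.card_eq_one.1 (card_Zr hq hn hK hKS hns h2 hg hgm a)
  obtain ⟨zb, hzb⟩ := Finset.card_eq_one.1 (card_Zr hq hn hK hKS hns h2 hg hgm b)
  have hza' : ∀ l, l ≠ za → (g : Matrix κ κ F) a l ≠ 0 := by
    intro l hl h0
    have : l ∈ Zr (g : Matrix κ κ F) a := mem_Zr.2 h0
    rw [hza, Finset.mem_singleton] at this
    exact hl this
  have hzb' : ∀ l, l ≠ zb → (g : Matrix κ κ F) b l ≠ 0 := by
    intro l hl h0
    have : l ∈ Zr (g : Matrix κ κ F) b := mem_Zr.2 h0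
    rw [hzb, Finset.mem_singleton] at this
    exact hl this
  obtain ⟨l0, hl0a, hl0b, -, -⟩ := exists_notMem4 hn za zb zb zb
  obtain ⟨c0, k, k', hkk, hall, hk, hk'⟩ := two_rows hq hn hK hKS hns h2 hg hgm hab (hza' l0 hl0a) (hzb' l0 hl0b)
  -- for c ≠ c0 the functional has no zero
  have hze : ∀ c : Fˣ, c ≠ c0 → ∀ l, ze g a b c l ≠ 0 := by
    intro c hc l h0
    rw [ze] at h0
    have hinv : (c : F) * ((c⁻¹ : Fˣ) : F) = 1 := Units.mul_inv c
    by_cases hlk : l = k
    · rw [hlk] at h0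
      rcases hk with h | h
      · rw [h.1, zero_add] at h0
        exact mul_ne_zero (Units.ne_zero _) h.2 h0
      · rw [h.2, mul_zero, add_zero] at h0
        exact h.1 h0
    · by_cases hlk' : l = k'
      · rw [hlk'] at h0
        rcases hk' with h | h
        · rw [h.1, zero_add] at h0
          exact mul_ne_zero (Units.ne_zero _) h.2 h0
        · rw [h.2, mul_zero, add_zero] at h0
          exact h.1 h0
      · obtain ⟨e1, e2⟩ := hall l hlk hlk'
        rw [e1] at h0
        apply hc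
        apply Units.ext
        have : ((c : F) - c0) * (g : Matrix κ κ F) a l = 0 := by
          linear_combination (c : F) * h0 - (c0 : F) * ((g : Matrix κ κ F) a l) * hinv - (c0 : F) * ((g : Matrix κ κ F) a l) * h2
        exact sub_eq_zero.1 ((mul_eq_zero.1 this).resolve_right e2)
  -- the diagonal relation
  have hdiag : ∀ c : Fˣ, c ≠ c0 → ∀ m, 1 + zc g a b c m * ze g a b c m = 0 := by
    intro c hc m
    have hT := conj_T hK h2 hg hab c
    have hent : ∀ m l, (tm (zc g a b c) (ze g a b c)) m l = (if m = l then 1 else 0) + zc g a b c m * ze g a b c l := by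
      intro m l
      rw [tm, Matrix.add_apply, Matrix.one_apply, vecMulVec_apply]
    have hnm : ¬ IsMono ((tGL _ _ hT.1 : GL κ F) : Matrix κ κ F) := by
      intro hm
      rw [tGL_val] at hm
      obtain ⟨p, p', -, -, -, hp⟩ := M1 hq hn hK hKS hns h2 hg hgm hab c hm
      obtain ⟨l, hlp, hlp', -, -⟩ := exists_notMem4 hn p p' p p
      exact hze c hc l (hp l hlp hlp')
    obtain ⟨r, hr⟩ := Finset.card_eq_one.1 (card_Zr hq hn hK hKS hns h2 hT.mem hnm m)
    have hr1 : r ∈ Zr ((tGL _ _ hT.1 : GL κ F) : Matrix κ κ F) m := by rw [hr]; exact Finset.mem_singleton_self r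
    rw [mem_Zr, tGL_val, hent] at hr1
    have hzm : zc g a b c m ≠ 0 := by
      intro h0
      obtain ⟨l1, h1, -, -, -⟩ := exists_notMem4 hn m m m m
      obtain ⟨l2, h3, h4, -, -⟩ := exists_notMem4 hn m l1 m m
      have m1 : l1 ∈ Zr ((tGL _ _ hT.1 : GL κ F) : Matrix κ κ F) m := by
        rw [mem_Zr, tGL_val, hent, if_neg (Ne.symm h1), h0, zero_mul, add_zero]
      have m2 : l2 ∈ Zr ((tGL _ _ hT.1 : GL κ F) : Matrix κ κ F) m := by
        rw [mem_Zr, tGL_val, hent, if_neg (Ne.symm h3), h0, zero_mul, add_zero]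
      rw [hr, Finset.mem_singleton] at m1 m2
      exact h4 (m2.trans m1.symm)
    by_cases hmr : m = r
    · rw [if_pos hmr, ← hmr] at hr1; exact hr1
    · rw [if_neg hmr, zero_add] at hr1
      exact absurd hr1 (mul_ne_zero hzm (hze c hc r))
  -- a good index
  obtain ⟨m, hm1, hm2⟩ : ∃ m, (g : Matrix κ κ F) a m ≠ 0 ∧ ((g⁻¹ : GL κ F) : Matrix κ κ F) m b ≠ 0 := by
    obtain ⟨m1, h1, -, -, -⟩ := exists_notMem4 hn za za za za
    obtain ⟨m2, h3, h4, -, -⟩ := exists_notMem4 hn za m1 za za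
    by_cases h5 : ((g⁻¹ : GL κ F) : Matrix κ κ F) m1 b = 0
    · exact ⟨m2, hza' m2 h3, fun h0 => F2g' (Ne.symm h4) h5 h0⟩
    · exact ⟨m1, hza' m1 h1, h5⟩
  -- three values of c
  have hcard : 2 < ((Finset.univ : Finset Fˣ).erase c0).card := by
    rw [Finset.card_erase_of_mem (Finset.mem_univ _), Finset.card_univ, Fintype.card_units]
    omega
  obtain ⟨c1, c2, c3, hc1, hc2, hc3, h12, h13, h23⟩ := Finset.two_lt_card_iff.1 hcard
  have hX : ∀ c : Fˣ, c ≠ c0 → ((g⁻¹ : GL κ F) : Matrix κ κ F) m b * (g : Matrix κ κ F) a m * (c : F) ^ 2 +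
      (1 + ((g⁻¹ : GL κ F) : Matrix κ κ F) m a * (g : Matrix κ κ F) a m +
        ((g⁻¹ : GL κ F) : Matrix κ κ F) m b * (g : Matrix κ κ F) b m) * c +
      ((g⁻¹ : GL κ F) : Matrix κ κ F) m a * (g : Matrix κ κ F) b m = 0 := by
    intro c hc
    have h := hdiag c hc m
    rw [zc, ze] at h
    have hinv : (c : F) * ((c⁻¹ : Fˣ) : F) = 1 := Units.mul_inv c
    linear_combination (c : F) * h - (((g⁻¹ : GL κ F) : Matrix κ κ F) m a * (g : Matrix κ κ F) b m +
      (c : F) * ((g⁻¹ : GL κ F) : Matrix κ κ F) m b * (g : Matrix κ κ F) b m) * hinv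
  have x1 := hX c1 (Finset.ne_of_mem_erase hc1)
  have x2 := hX c2 (Finset.ne_of_mem_erase hc2)
  have x3 := hX c3 (Finset.ne_of_mem_erase hc3)
  set X := ((g⁻¹ : GL κ F) : Matrix κ κ F) m b * (g : Matrix κ κ F) a m
  set B := (1 + ((g⁻¹ : GL κ F) : Matrix κ κ F) m a * (g : Matrix κ κ F) a m +
        ((g⁻¹ : GL κ F) : Matrix κ κ F) m b * (g : Matrix κ κ F) b m)
  set Y := ((g⁻¹ : GL κ F) : Matrix κ κ F) m a * (g : Matrix κ κ F) b m
  have d12 : (c1 : F) - c2 ≠ 0 := fun h => h12 (Units.ext (sub_eq_zero.1 h))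
  have d13 : (c1 : F) - c3 ≠ 0 := fun h => h13 (Units.ext (sub_eq_zero.1 h))
  have d23 : (c2 : F) - c3 ≠ 0 := fun h => h23 (Units.ext (sub_eq_zero.1 h))
  have y1 : X * ((c1 : F) + c2) + B = 0 := by
    have : ((c1 : F) - c2) * (X * ((c1 : F) + c2) + B) = 0 := by linear_combination x1 - x2
    exact (mul_eq_zero.1 this).resolve_left d12
  have y2 : X * ((c1 : F) + c3) + B = 0 := by
    have : ((c1 : F) - c3) * (X * ((c1 : F) + c3) + B) = 0 := by linear_combination x1 - x3
    exact (mul_eq_zero.1 this).resolve_left d13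
  have y3 : X * ((c2 : F) - c3) = 0 := by linear_combination y1 - y2
  exact mul_ne_zero (mul_ne_zero hm2 hm1) d23 y3

end

/-- The dichotomy: an overgroup in SL of the determinant-one monomial group is monomial or everything. -/
theorem dichotomy [Fintype F] (hq : 5 ≤ Fintype.card F) (hn : 6 ≤ Fintype.card κ) (hK : HasN K)
    (hKS : K ≤ specialLinear κ F) : (∀ g ∈ K, IsMono (g : Matrix κ κ F)) ∨ K = specialLinear κ F := by
  by_cases hns : specialLinear κ F ≤ K
  · exact Or.inr (le_antisymm hKS hns)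
  left
  intro g hg
  by_contra hgm
  by_cases h2 : (2 : F) = 0
  · exact no_even hq (by omega) hK hKS hns h2 hg hgm
  · refine no_full (by omega) hK (fun h hh hhm a b h0 => ?_) hg hgm
    exact no_zero_odd hq hn hK hKS hns h2 hh hhm h0

end H94.Mono
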