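import Cfsg.Agent.Lib.H94.MulRuA
import Cfsg.Agent.Lib.H69.RuIso
import Cfsg.Agent.Lib.H40.StemFinish

set_option autoImplicit false
set_option maxRecDepth 100000
set_option maxHeartbeats 1000000

/-! The Schur multiplier of the Rudvalis group. -/

namespace H94.MulRu

open Subgroup H35.Stem H40.StemFinish Cfsg.Spor H69.Ru
open scoped commutatorElement

/-! ### two anticommuting automorphisms -/

theorem rj_rj (v : RuVec) : ruRj (ruRj v) = -v := by
  funext p
  obtain ⟨n, t⟩ := p
  fin_cases t <;> simp [ruRj, gI, ← mul_assoc] <;> (try (ext <;> simp))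

theorem rk_rk (v : RuVec) : ruRk (ruRk v) = -v := by
  funext p
  obtain ⟨n, t⟩ := p
  fin_cases t <;> simp [ruRk, gI, ← mul_assoc] <;> (try (ext <;> simp))

theorem rj_rk (v : RuVec) : ruRj (ruRk v) = -ruRk (ruRj v) := by
  funext p
  obtain ⟨n, t⟩ := p
  fin_cases t <;> simp [ruRj, ruRk, gI] <;> (try (ext <;> simp))

theorem rj_add (v w : RuVec) : ruRj (v + w) = ruRj v + ruRj w := by
  funext p
  obtain ⟨n, t⟩ := p
  fin_cases t <;> simp [ruRj, mul_add] <;> ring

theorem rk_add (v w : RuVec) : ruRk (v + w) = ruRk v + ruRk w := by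
  funext p
  obtain ⟨n, t⟩ := p
  fin_cases t <;> simp [ruRk, mul_add] <;> ring

theorem rj_neg (v : RuVec) : ruRj (-v) = -ruRj v := by
  funext p
  obtain ⟨n, t⟩ := p
  fin_cases t <;> simp [ruRj]

theorem rk_neg (v : RuVec) : ruRk (-v) = -ruRk v := by
  funext p
  obtain ⟨n, t⟩ := p
  fin_cases t <;> simp [ruRk]

theorem norm_gI (x : GaussianInt) : (gI * x).norm = x.norm := by
  rw [Zsqrtd.norm_mul]
  have : Zsqrtd.norm gI = 1 := by decide
  rw [this, one_mul]

theorem rj_norm (v : RuVec) : ruNorm (ruRj v) = ruNorm v := by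
  unfold ruNorm
  rw [Fintype.sum_prod_type, Fintype.sum_prod_type]
  refine Finset.sum_congr rfl fun n _ => ?_
  rw [Fin.sum_univ_four, Fin.sum_univ_four]
  change (gI * v (n, 1)).norm + (gI * v (n, 0)).norm + (v (n, 3)).norm + (-v (n, 2)).norm = _
  rw [norm_gI, norm_gI, Zsqrtd.norm_neg]
  ring

theorem rk_norm (v : RuVec) : ruNorm (ruRk v) = ruNorm v := by
  unfold ruNorm
  rw [Fintype.sum_prod_type, Fintype.sum_prod_type]
  refine Finset.sum_congr rfl fun n _ => ?_
  rw [Fin.sum_univ_four, Fin.sum_univ_four]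
  change (gI * v (n, 2)).norm + (-v (n, 3)).norm + (gI * v (n, 0)).norm + (v (n, 1)).norm = _
  rw [norm_gI, norm_gI, Zsqrtd.norm_neg]
  ring

/-- right multiplication by `j` -/
def pJ : Equiv.Perm ruLattice where
  toFun v := ⟨ruRj v, lat_j v.2⟩
  invFun v := ⟨-ruRj v, neg_mem (lat_j v.2)⟩
  left_inv v := Subtype.ext (by change -ruRj (ruRj v) = v; rw [rj_rj, neg_neg])
  right_inv v := Subtype.ext (by change ruRj (-ruRj v) = v; rw [rj_neg, rj_rj, neg_neg])

/-- right multiplication by `k` -/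
def pK : Equiv.Perm ruLattice where
  toFun v := ⟨ruRk v, lat_k v.2⟩
  invFun v := ⟨-ruRk v, neg_mem (lat_k v.2)⟩
  left_inv v := Subtype.ext (by change -ruRk (ruRk v) = v; rw [rk_rk, neg_neg])
  right_inv v := Subtype.ext (by change ruRk (-ruRk v) = v; rw [rk_neg, rk_rk, neg_neg])

def eJ : fourRu := ⟨pJ, fun v w => Subtype.ext (rj_add v w), fun v => Subtype.ext (i_j v), fun v => rj_norm v⟩
def eK : fourRu := ⟨pK, fun v w => Subtype.ext (rk_add v w), fun v => Subtype.ext (i_k v), fun v => rk_norm v⟩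

theorem JK : eJ * eK = scI ^ 2 * (eK * eJ) := by
  apply Subtype.ext
  ext1 v
  change pJ (pK v) = (scI ^ 2).1 (pK (pJ v))
  rw [scI_pow]
  apply Subtype.ext
  rw [coe_iI]
  change ruRj (ruRk v) = _
  rw [rj_rk]
  change _ = gI • (gI • ruRk (ruRj v))
  rw [gI_gI]

theorem scI2_ne : scI ^ 2 ≠ 1 := by
  intro h
  have h1 : iI 2 (rL 0) = iI 0 (rL 0) := by
    rw [← scI_pow, h]; rfl
  have h3 : ((iI 2 (rL 0) : ruLattice) : RuVec) = ((iI 0 (rL 0) : ruLattice) : RuVec) := by rw [h1]
  rw [coe_iI, coe_iI] at h3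
  have := (iu_inj (by norm_num) (by norm_num) (by norm_num) (by norm_num) h3).1
  omega

theorem scI2_comm : scI ^ 2 ∈ commutator fourRu := by
  have h : scI ^ 2 = eJ * eK * eJ⁻¹ * eK⁻¹ := by
    rw [JK]; group
  rw [h]
  exact commutator_mem_commutator (mem_top _) (mem_top _)

theorem scI2_center : scI ^ 2 ∈ center fourRu := by
  rw [← ker_eq, MonoidHom.mem_ker]
  exact Φ_scI_pow 2

/-! ### the double cover -/

section general

variable {F G : Type} [Group F] [Finite F] [Group G]

/-- the commutator subgroup of a central extension of a perfect group -/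
theorem exists_double (φ : F →* G) (hφ : Function.Surjective φ) (hk : φ.ker = center F) (hp : commutator G = ⊤)
    (h4 : Nat.card (center F) = 4) {m : F} (hm : m ∈ commutator F) (hmc : m ∈ center F) (hm1 : m ≠ 1)
    (hno : NoExt G 4) :
    ∃ (Γ : Type) (_ : Group Γ) (_ : Finite Γ) (σ : Γ →* G), Cfsg.IsStemExtension σ ∧
      Nonempty (σ.ker ≃* Multiplicative (ZMod 2)) := by
  have hmap : (commutator F).map φ = ⊤ := by
    rw [commutator_def, Subgroup.map_commutator, ← MonoidHom.range_eq_map, MonoidHom.range_eq_top.2 hφ, ← commutator_def, hp]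
  have hdec : ∀ x : F, ∃ d ∈ commutator F, ∃ z ∈ center F, x = d * z := by
    intro x
    have h1 : φ x ∈ (commutator F).map φ := by rw [hmap]; exact mem_top _
    obtain ⟨d, hd, hdx⟩ := h1
    refine ⟨d, hd, d⁻¹ * x, ?_, by group⟩
    rw [← hk, MonoidHom.mem_ker, map_mul, map_inv, hdx, inv_mul_cancel]
  let σ : commutator F →* G := φ.comp (commutator F).subtype
  have hσ : Function.Surjective σ := by
    intro y
    have h1 : y ∈ (commutator F).map φ := by rw [hmap]; exact mem_top _
    obtain ⟨d, hd, hdx⟩ := h1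
    exact ⟨⟨d, hd⟩, hdx⟩
  have hkm : ∀ x : commutator F, x ∈ σ.ker ↔ (x : F) ∈ center F := by
    intro x
    rw [← hk]; rfl
  have hperf : commutator (commutator F) = ⊤ := by
    rw [eq_top_iff]
    have h1 : (commutator F) ≤ (commutator (commutator F)).map (commutator F).subtype := by
      rw [commutator_def F, Subgroup.commutator_le]
      intro x _ y _
      obtain ⟨d, hd, z, hz, rfl⟩ := hdec x
      obtain ⟨d', hd', z', hz', rfl⟩ := hdec y
      have e : ⁅d * z, d' * z'⁆ = ⁅d, d'⁆ := by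
        have c1 : ∀ y, y * z = z * y := fun y => mem_center_iff.1 hz y
        have c2 : ∀ y, y * z' = z' * y := fun y => mem_center_iff.1 hz' y
        rw [commutatorElement_def, commutatorElement_def, mul_inv_rev, mul_inv_rev]
        have a1 : d * z * (d' * z') * (z⁻¹ * d⁻¹) * (z'⁻¹ * d'⁻¹) = d * (z * (d' * z') * z⁻¹) * d⁻¹ * (z'⁻¹ * d'⁻¹) := by group
        rw [a1, ← c1 (d' * z'), mul_inv_cancel_right]
        have a2 : d * (d' * z') * d⁻¹ * (z'⁻¹ * d'⁻¹) = d * d' * (z' * d⁻¹) * z'⁻¹ * d'⁻¹ := by group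
        rw [a2, ← c2]
        group
      rw [e]
      have e2 : ⁅(⟨d, hd⟩ : commutator F), (⟨d', hd'⟩ : commutator F)⁆ ∈ commutator (commutator F) :=
        commutator_mem_commutator (mem_top _) (mem_top _)
      exact Subgroup.mem_map.2 ⟨_, e2, rfl⟩
    intro x _
    obtain ⟨y, hy, hxy⟩ := h1 x.2
    have : y = x := Subtype.ext hxy
    rwa [this] at hy
  have hstem : Cfsg.IsStemExtension σ := by
    refine ⟨hσ, ?_, ?_⟩
    · intro x hx
      rw [mem_center_iff]
      intro y
      apply Subtype.ext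
      exact mem_center_iff.1 ((hkm x).1 hx) y
    · rw [hperf]; exact le_top
  have hcard : Nat.card σ.ker ∣ 4 := by
    rw [← h4]
    let ι : σ.ker →* center F :=
      { toFun := fun x => ⟨((x : commutator F) : F), (hkm x.1).1 x.2⟩
        map_one' := rfl
        map_mul' := fun _ _ => rfl }
    apply Subgroup.card_dvd_of_injective ι
    intro x y hxy
    apply Subtype.ext
    apply Subtype.ext
    exact congrArg (fun z : center F => (z : F)) hxy
  have hne1 : Nat.card σ.ker ≠ 1 := by
    intro h1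
    have h2 : σ.ker = ⊥ := Subgroup.card_eq_one.1 h1
    have h3 : (⟨m, hm⟩ : commutator F) ∈ σ.ker := (hkm _).2 hmc
    rw [h2, mem_bot] at h3
    exact hm1 (congrArg Subtype.val h3)
  have hne4 : Nat.card σ.ker ≠ 4 := fun h => hno (commutator F) σ hstem h
  have h2 : Nat.card σ.ker = 2 := by
    have : Nat.card σ.ker ≤ 4 := Nat.le_of_dvd (by norm_num) hcard
    interval_cases h : Nat.card σ.ker
    all_goals first | rfl | (exfalso; omega)
  refine ⟨commutator F, inferInstance, inferInstance, σ, hstem, ?_⟩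
  haveI : Fact (Nat.Prime 2) := ⟨Nat.prime_two⟩
  refine ⟨mulEquivOfPrimeCardEq (p := 2) h2 ?_⟩
  rw [Nat.card_congr Multiplicative.toAdd, Nat.card_zmod]

end general

theorem fin_four : Finite fourRu := by
  obtain ⟨h1, h2, _⟩ := s1627
  have h3 := Subgroup.card_eq_card_quotient_mul_card_subgroup (center fourRu)
  apply Nat.finite_of_card_ne_zero
  rw [h3, h1]
  change Nat.card Ru * 4 ≠ 0
  rw [h2]
  norm_num

theorem perf_G : commutator H94.MulRuA.G = ⊤ := by
  haveI := H10.Ru.simple_Γ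
  rcases IsSimpleGroup.eq_bot_or_eq_top_of_normal (commutator H94.MulRuA.G) inferInstance with h | h
  · exfalso
    have h1 : center H10.Ru.Γ = ⊤ := (commutator_eq_bot_iff_center_eq_top _).1 h
    rw [center_Γ] at h1
    exact bot_ne_top h1
  · exact h

theorem exG : ∃ (Γ : Type) (_ : Group Γ) (_ : Finite Γ) (σ : Γ →* H94.MulRuA.G), Cfsg.IsStemExtension σ ∧
      Nonempty (σ.ker ≃* Multiplicative (ZMod 2)) := by
  haveI := fin_four
  obtain ⟨e⟩ := iso
  let φ : fourRu →* H94.MulRuA.G := (e.symm : Cfsg.Spor.Ru →* H10.Ru.Γ).comp (QuotientGroup.mk' (center fourRu))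
  refine exists_double φ (e.symm.surjective.comp (QuotientGroup.mk'_surjective _)) ?_ perf_G s1627.1 scI2_comm scI2_center
    scI2_ne H94.MulRuA.noExt4
  ext x
  rw [MonoidHom.mem_ker]
  change e.symm (QuotientGroup.mk' (center fourRu) x) = 1 ↔ _
  rw [map_eq_one_iff e.symm e.symm.injective, ← MonoidHom.mem_ker, QuotientGroup.ker_mk']

theorem mult : Cfsg.HasCyclicSchurMultiplier H94.MulRuA.G 2 := by
  have hG := H94.MulRuA.card_G
  refine hasCyclic_list (by norm_num) exG [(2, 14), (3, 3), (5, 3), (7, 1), (13, 1), (29, 1)] (by decide +kernel) (by rw [hG]; norm_num) ?_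
  intro a ha
  fin_cases ha
  · exact Or.inr (Or.inr ⟨H94.MulRuA.noExt4, by decide +kernel⟩)
  · exact Or.inl H94.MulRuA.noExt3
  · exact Or.inl H94.MulRuA.noExt5
  all_goals exact Or.inr (Or.inl (by rw [hG]; norm_num))

theorem multRu : Cfsg.HasCyclicSchurMultiplier Cfsg.Spor.Ru 2 := by
  obtain ⟨e⟩ := iso
  exact HasSchurMultiplier.congr e mult

end H94.MulRu
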