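import Mathlib
import Cfsg.Agent.Lib.H35.StemStep
import Cfsg.Agent.Lib.H35.StemFin
import Cfsg.Agent.Lib.H35.StemFS
import Cfsg.Agent.Lib.H94.NXRu
import Cfsg.Agent.Lib.H10.RuMain
import Cfsg.Agent.Lib.H94.TCRuA
import Cfsg.Agent.Lib.H94.TCRuB
import Cfsg.Agent.Lib.H94.TCRuC
import Cfsg.Agent.Lib.H9.MultS

set_option autoImplicit false
set_option maxRecDepth 100000
set_option maxHeartbeats 0
set_option linter.all false
set_option Elab.async false

/-! The 2-part of the Schur multiplier of the Rudvalis group (generated file). -/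

namespace H94.MulRuA
open Subgroup H35.Stem H35.TC H35.Net H94.NXRu

abbrev X := Fin 6
/-- exponents of the letters -/
def nn : X → ℕ := ![13, 3, 3, 3, 3, 3]
/-- the group -/
abbrev G : Type := H10.Ru.Γ
abbrev LA := H10.Ru.Lt
theorem memP : ∀ a : LA, H10.Ru.π a ∈ H10.Ru.Γ := by
  intro a
  have h1 := H10.Ru.gs_mem
  have h2 := fun y hy => H10.Ru.T_le (H10.Ru.ts_mem y hy)
  have h3 := fun y hy => H10.Ru.T_le (H10.RuKit.mem_stabs_fix (H10.Ru.us_mem y hy)).1
  cases a
  · exact h1 _ (by simp)
  · exact h1 _ (by simp)
  · exact h1 _ (by simp)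
  · exact h1 _ (by simp)
  · exact h2 _ (by simp)
  · exact h2 _ (by simp)
  · exact h2 _ (by simp)
  · exact h2 _ (by simp)
  · exact h3 _ (by simp)
  · exact h3 _ (by simp)
  · exact h3 _ (by simp)
  · exact h3 _ (by simp)
/-- the generators -/
noncomputable def gP (a : LA) : G := ⟨H10.Ru.π a, memP a⟩
/-- the letters as words -/
def d : X → List LA
  | 0 => [.t1, .u1, .u2i, .t2, .u1i, .t1, .t2, .u2i]
  | 1 => [.t1i, .t1i, .t1i, .t1i, .u2i, .t1i, .t2, .u2i, .t1]
  | 2 => [.u1, .t1i, .u2, .t1, .t1, .u1, .t2, .t2, .t1i]
  | 3 => [.t2, .u1, .t1, .t2, .t1i, .u1, .t1, .t2i, .t1i]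
  | 4 => [.u2i, .t1, .u2i, .t1, .u1, .u2, .u2, .u1, .t1]
  | 5 => [.u1i, .g1, .u1, .u2, .g1i, .t1i, .u1i, .t1i, .g2, .t2, .g1]
/-- the letters -/
noncomputable def g (x : X) : G := ((d x).map gP).prod
theorem hbp' : ∀ x, BP (2 ^ 12) (H10.Ru.net x) (H10.Ru.Γ.subtype (gP x)) := H10.Ru.hbp
theorem ln : LetNet 12 H10.Ru.Γ.subtype g netX := letNet_of hbp' bpx invx (by intro x; fin_cases x <;> decide +kernel)
theorem hinj : Function.Injective H10.Ru.Γ.subtype := H10.Ru.Γ.subtype_injective
noncomputable def ck (w : W X) (m : ℕ) : Bool := chkW netX 12 w m 0 12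
theorem tr (w : W X) (m : ℕ) (h : ck w m = true) : (ev g w) ^ m = 1 := ln.pow_one hinj h
theorem tr1 {w : W X} (h : ck w 1 = true) : ev g w = 1 := ln.ev_one hinj h
theorem hord (x : X) : g x ^ nn x = 1 := by
  have h : ∀ x, ck [(x, true)] (nn x) = true := by intro x; fin_cases x <;> decide +kernel
  have h1 := tr _ _ (h x)
  change (g x * 1) ^ nn x = 1 at h1
  rwa [mul_one] at h1
theorem hn : ∀ x, Nat.Coprime (nn x) 4 := by decide
theorem card_G : Nat.card G = 145926144000 := by rw [H10.Ru.cards.2.2]

/-- letters of level A -/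
def SA : X → Bool := ![true, true, true, true, true, true]

/-- lower letters of level A -/
def TA : X → Bool := ![true, true, true, true, true, false]

def wdA : H94.TCRuA.Lt → W X
  | .b => [(0, false), (0, false)]
  | .bi => [(0, true), (0, true)]
  | .g => [(2, true), (3, true), (2, false)]
  | .gi => [(2, true), (3, false), (2, false)]
  | .f => [(2, true), (4, false), (2, true), (4, true), (3, true), (4, true), (1, true), (4, false)]
  | .fi => [(4, true), (1, false), (4, false), (3, false), (4, false), (2, false), (4, true), (2, false)]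
  | .n => [(5, true), (2, true), (3, false), (2, false)]
  | .ni => [(2, true), (3, true), (2, false), (5, false)]
  | .z => [(5, true), (2, true), (3, false), (2, false), (5, true), (2, true), (3, false), (2, false)]
  | .zi => [(2, true), (3, true), (2, false), (5, false), (2, true), (3, true), (2, false), (5, false)]

def rulesA_0 : List (Rule X) := [
  .low [(0, false), (0, false), (0, false), (0, false), (2, true), (4, false), (2, true), (4, true), (3, true), (4, true), (1, true), (4, false), (0, false), (0, false), (2, true), (4, false), (2, true), (4, true), (3, true), (4, true), (1, true), (4, false), (2, true), (3, true), (4, false), (2, true), (4, true), (3, true), (4, true), (1, true), (4, false), (2, true), (3, false), (2, false), (4, true), (1, false), (4, false), (3, false), (4, false), (2, false), (4, true), (2, false), (0, true), (0, true), (4, true), (1, false), (4, false), (3, false), (4, false), (2, false), (4, true), (3, false), (2, false)],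
  .low [(0, false), (0, false), (0, false), (0, false), (2, true), (4, false), (2, true), (4, true), (3, true), (4, true), (1, true), (4, false), (0, false), (0, false), (0, false), (0, false), (2, true), (4, false), (2, true), (4, true), (3, true), (4, true), (1, true), (4, false), (0, true), (0, true), (4, true), (1, false), (4, false), (3, false), (4, false), (2, false), (4, true), (2, false), (0, true), (0, true), (4, true), (1, false), (4, false), (3, false), (4, false), (2, false), (4, true), (2, false), (0, true), (0, true), (2, true), (4, false), (2, true), (4, true), (3, true), (4, true), (1, true), (4, false)],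
  .low [(0, false), (0, false), (2, true), (3, true), (2, false), (4, true), (1, false), (4, false), (3, false), (4, false), (2, false), (4, true), (2, false), (0, true), (0, true), (2, true), (4, false), (2, true), (4, true), (3, true), (4, true), (1, true), (4, false), (0, false), (0, false), (4, true), (1, false), (4, false), (3, false), (4, false), (2, false), (4, true), (3, true), (4, false), (2, true), (4, true), (3, true), (4, true), (1, true), (4, false), (2, true), (3, true), (2, false), (0, true), (0, true), (2, true), (4, false), (2, true), (4, true), (3, true), (4, true), (1, true), (4, false)],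
  .low [(0, false), (0, false), (0, false), (0, false), (0, false), (0, false), (2, true), (3, false), (2, false), (0, true), (0, true), (2, true), (3, true), (2, false)]]

def rulesA_1 : List (Rule X) := [
  .ord 5,
  .conj [(5, true), (2, true), (3, false), (2, false)] [(0, false), (0, false)] [(0, false), (0, false)] 13,
  .conj [(5, true), (2, true), (3, false), (2, false)] [(2, true), (4, false), (2, true), (4, true), (3, true), (4, true), (1, true), (4, false)] [(4, true), (1, false), (4, false), (3, false), (4, false), (2, false), (4, true), (2, false)] 3,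
  .low [(2, true), (4, false), (2, true), (4, true), (3, true), (4, true), (1, true), (4, false), (2, true), (4, false), (2, true), (4, true), (3, true), (4, true), (1, true), (4, false), (2, true), (4, false), (2, true), (4, true), (3, true), (4, true), (1, true), (4, false)]]

def rulesA : List (Rule X) := rulesA_0 ++ rulesA_1

def cenA : H94.TCRuA.Lt → Bool
  | .z => true
  | .zi => true
  | _ => false

def CA : CP X H94.TCRuA.Lt where
  iv := fun _ => false
  wd := wdA
  cen := cenA
  q := 4
  exact := rulesA.map fun r => red (fun _ => false) (r.word nn)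

theorem tkA_0 : (rulesA_0.all (Rule.chk nn ck)) = true := by decide +kernel

theorem tkA_1 : (rulesA_1.all (Rule.chk nn ck)) = true := by decide +kernel

theorem htA : ∀ r ∈ rulesA, ∀ w ∈ r.needs nn, ev g w = 1 := by
  intro r hr
  refine Rule.needs_of_chk tr ?_
  simp only [rulesA, List.mem_append] at hr
  rcases hr with hr | hr
  · exact List.all_eq_true.1 tkA_0 r hr
  · exact List.all_eq_true.1 tkA_1 r hr

theorem hcA : ∀ z, CA.cen z = true → ev g (CA.wd z) = 1 := by
  intro z hz
  refine tr1 ?_
  cases z <;> first | (exact absurd hz (by decide)) | decide +kernel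

theorem hhA {Γ : Type} [Group Γ] [Finite Γ] {σ : Γ →* G} {f : X → Γ} (h : Lifts σ 4 nn g f) (hi : Inj g f TA) : CA.Holds f :=
  holds h hi rfl (fun _ h => absurd (show false = true from h) (by decide)) rfl (by decide +kernel) htA hcA

/-- the letters as words in the letters of the certificate -/
def dlA : X → List H94.TCRuA.Lt
  | 0 => [.gi, .b, .b, .g]
  | 1 => [.fi, .b, .fi, .b, .g, .fi, .b, .g, .b, .f, .gi, .f, .g]
  | 2 => [.f, .bi, .fi, .b, .b, .g, .f, .g, .f, .bi, .fi]
  | 3 => [.bi, .bi, .f, .bi, .fi, .bi, .gi, .fi, .g, .fi, .g, .b, .f]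
  | 4 => [.b, .gi, .b, .fi, .b, .b, .g, .f, .bi, .g, .bi]
  | 5 => [.n, .g]
theorem dlA_ok : ∀ x, TA x = true → ck ((x, true) :: winv ((dlA x).flatMap wdA)) 1 = true := by
  intro x hx
  fin_cases x <;> first | (exact absurd hx (by decide)) | decide +kernel
theorem dlA_low : ∀ x, TA x = true → (((x, true) :: winv ((dlA x).flatMap wdA)).all fun a => TA a.1) = true := by
  intro x hx
  fin_cases x <;> first | (exact absurd hx (by decide)) | decide +kernel
theorem dlA_top : red (fun _ => false) (((5 : X), true) :: winv ((dlA 5).flatMap wdA)) = [] := by decide +kernel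

/-- checked relation, reduced -/
def okR {X L : Type} [DecidableEq X] [DecidableEq L] (C : CP X L) (inv : L → L) (p : List L × ℕ) : Bool :=
  C.ok inv p || decide (red C.iv (rep (p.1.flatMap C.wd) p.2) ∈ C.exact)
theorem okR_spec {X L P : Type} [Group P] [DecidableEq X] [DecidableEq L] {C : CP X L} {f : X → P} (h : C.Holds f) {inv : L → L}
    (hinv : ∀ x, ev f (C.wd (inv x)) = (ev f (C.wd x))⁻¹) {p : List L × ℕ} (hp : okR C inv p = true) :
    ((p.1.map fun x => ev f (C.wd x)).prod) ^ p.2 = 1 := by
  rw [okR, Bool.or_eq_true, decide_eq_true_eq] at hp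
  rcases hp with h1 | h1
  · exact CP.ok_spec h hinv h1
  · rw [← ev_flatMap, ← ev_rep, ← ev_red h.iv]
    exact h.exact _ h1
theorem relOKR {X L P : Type} [Group P] [DecidableEq X] [DecidableEq L] {C : CP X L} {f : X → P} (h : C.Holds f) {inv : L → L}
    {mm : L → L → ℕ} {ex : List (List L × ℕ)}
    (h1 : ∀ x, C.okinv inv x = true) (h2 : ∀ x y, C.ok inv ([x, y], mm x y) = true)
    (h3 : ex.all (fun p => okR C inv p) = true) :
    (∀ x, ev f (C.wd (inv x)) = (ev f (C.wd x))⁻¹) ∧ RelOK mm ex (fun x => ev f (C.wd x)) := by
  have hinv : ∀ x, ev f (C.wd (inv x)) = (ev f (C.wd x))⁻¹ := fun x => CP.okinv_spec h (h1 x)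
  refine ⟨hinv, ?_, ?_⟩
  · intro x y
    have := CP.ok_spec h hinv (h2 x y)
    simpa using this
  · intro p hp
    exact okR_spec h hinv (List.all_eq_true.1 h3 p hp)

/-- one level, with letters of the certificate generating -/
theorem levelG {P : Type} [Group P] [Finite P] {L : Type} {wd : L → W X} {k : X → P} {N : ℕ}
    {subs : List (List L)} {S S' : X → Bool}
    (main : ∀ H : Subgroup P, (∀ r ∈ subs, (r.map fun x => ev k (wd x)).prod ∈ H) →
      H.relIndex (closure (Set.range fun x => ev k (wd x))) ≤ N ∧
        H.relIndex (closure (Set.range fun x => ev k (wd x))) ≠ 0)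
    (hsub : (subs.all fun r => (r.flatMap wd).all fun a => S' a.1) = true)
    (hS : ∀ x, S x = true → ∃ l : List L, k x = ev k (l.flatMap wd)) :
    Nat.card (Kl k S) ≤ N * Nat.card (Kl k S') := by
  have h1 := (main (Kl k S') (by
    intro r hr
    rw [← ev_flatMap]
    exact ev_mem_Kl (List.all_eq_true.1 hsub r hr))).1
  set K := closure (Set.range fun x => ev k (wd x)) with hK
  have h2 : Kl k S ≤ K := by
    rw [Kl, closure_le]
    rintro _ ⟨x, hx, rfl⟩
    obtain ⟨l, hl⟩ := hS x hx
    rw [SetLike.mem_coe, hl, ev_flatMap]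
    apply Subgroup.list_prod_mem
    intro y hy
    obtain ⟨a, _, rfl⟩ := List.mem_map.1 hy
    exact subset_closure ⟨a, rfl⟩
  have h3 : Nat.card (Kl k S) ≤ Nat.card K := Subgroup.card_le_of_le h2
  have h4 := Subgroup.card_mul_index ((Kl k S').subgroupOf K)
  have h5 : Nat.card ((Kl k S').subgroupOf K) ≤ Nat.card (Kl k S') := by
    refine Nat.card_le_card_of_injective (fun x => (⟨x.1.1, x.2⟩ : Kl k S')) ?_
    intro x y hxy
    apply Subtype.ext
    apply Subtype.ext
    exact congrArg (fun z : Kl k S' => z.1) hxy
  have h6 : ((Kl k S').subgroupOf K).index ≤ N := h1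
  calc Nat.card (Kl k S) ≤ Nat.card K := h3
    _ = Nat.card ((Kl k S').subgroupOf K) * ((Kl k S').subgroupOf K).index := h4.symm
    _ ≤ Nat.card (Kl k S') * N := Nat.mul_le_mul h5 h6
    _ = N * Nat.card (Kl k S') := Nat.mul_comm _ _

theorem lvA {Γ : Type} [Group Γ] [Finite Γ] {σ : Γ →* G} {f : X → Γ} (h : Lifts σ 4 nn g f) (hi : Inj g f TA) :
    Nat.card (Kl f SA) ≤ 16240 * Nat.card (Kl f TA) := by
  have hh : CA.Holds f := hhA h hi
  obtain ⟨hinv, hrel⟩ := relOKR hh (inv := H94.TCRuA.inv) (mm := H94.TCRuA.mm) (ex := H94.TCRuA.extra) (by intro x; cases x <;> decide +kernel)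
    (by intro x y; cases x <;> cases y <;> decide +kernel) (by decide +kernel)
  refine levelG (subs := H94.TCRuA.subs) (fun H hH => H94.TCRuA.main hinv hrel.1 hrel.2 hH) (by decide +kernel) ?_
  intro x hx
  refine ⟨dlA x, ?_⟩
  have key : ev f ((x, true) :: winv ((dlA x).flatMap wdA)) = 1 := by
    cases hT : TA x with
    | true => exact hi _ (dlA_low x hT) (tr1 (dlA_ok x hT))
    | false =>
      have h5 : x = 5 := by
        fin_cases x <;> first | rfl | (exact absurd hT (by decide))
      subst h5
      rw [← ev_red (iv := fun _ => false) (fun _ h => absurd (show false = true from h) (by decide)), dlA_top]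
      rfl
  rw [ev_cons, ev_winv, mul_inv_eq_one] at key
  exact key

/-- letters of level B -/
def SB : X → Bool := ![true, true, true, true, true, false]

/-- lower letters of level B -/
def TB : X → Bool := ![true, true, true, true, false, false]

def wdB : H94.TCRuB.Lt → W X
  | .b => [(0, true)]
  | .bi => [(0, false)]
  | .d => [(1, true)]
  | .di => [(1, false)]
  | .c => [(2, true)]
  | .ci => [(2, false)]
  | .f => [(3, true)]
  | .fi => [(3, false)]
  | .e => [(4, true)]
  | .ei => [(4, false)]

def rulesB_0 : List (Rule X) := [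
  .conj [(4, false), (0, true)] [(4, false)] [(1, false), (0, false), (2, true), (3, true), (0, false)] 3,
  .conj [(4, false), (0, true)] [(4, false)] [(3, false), (2, false), (0, false), (2, false), (1, false)] 3,
  .conj [(4, false), (0, true)] [(4, false)] [(2, false), (1, true), (0, false), (3, false), (2, false)] 3,
  .low [(0, true), (0, true), (0, true), (2, true), (3, false), (2, false), (0, false), (2, true), (3, true), (2, false)],
  .low [(0, true), (0, true), (0, true), (3, false), (2, true), (3, false), (0, true), (3, false), (2, false)],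
  .low [(0, true), (0, true), (1, false), (3, false), (2, false), (3, true), (0, true), (1, false), (2, false)]]

def rulesB_1 : List (Rule X) := [
  .low [(1, true), (3, true), (2, true), (1, true), (3, true), (2, true), (1, true), (3, true), (2, true)],
  .conj [(0, true), (3, true), (2, false)] [(4, true)] [(4, false)] 3,
  .conj [(4, false)] [(2, true), (3, true), (2, false)] [(0, true), (3, false), (0, false)] 3,
  .low [(0, true), (1, false), (2, false), (3, true), (2, true), (1, true), (0, false), (1, true)],
  .low [(0, true), (0, true), (1, true), (0, false), (0, false), (1, true), (3, true), (1, false)],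
  .low [(0, true), (0, true), (3, true), (0, false), (0, false), (3, false), (2, true), (3, true)]]

def rulesB_2 : List (Rule X) := [
  .low [(0, true), (3, true), (0, false), (1, false), (2, false), (1, true), (2, true), (1, true)],
  .low [(1, true), (2, true), (1, false), (2, true), (1, true), (2, false), (1, false), (3, false)],
  .low [(1, true), (2, true), (1, false), (2, false), (3, false), (2, false), (3, true), (2, true)],
  .low [(1, true), (2, true), (1, false), (3, false), (2, true), (3, false), (2, false), (3, true)],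
  .low [(0, true), (0, true), (1, false), (3, true), (1, true), (2, true), (0, true), (2, true)],
  .low [(0, true), (0, true), (3, true), (1, false), (0, true), (1, true), (3, false), (2, true)]]

def rulesB_3 : List (Rule X) := [
  .low [(0, true), (0, true), (1, false), (2, true), (1, true), (2, false), (0, true), (3, false)],
  .low [(0, true), (0, true), (3, false), (2, true), (0, true), (2, false), (1, false), (3, false)]]

def rulesB : List (Rule X) := rulesB_0 ++ rulesB_1 ++ rulesB_2 ++ rulesB_3

def cenB : H94.TCRuB.Lt → Bool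
  | _ => false

def CB : CP X H94.TCRuB.Lt where
  iv := fun _ => false
  wd := wdB
  cen := cenB
  q := 4
  exact := rulesB.map fun r => red (fun _ => false) (r.word nn)

theorem tkB_0 : (rulesB_0.all (Rule.chk nn ck)) = true := by decide +kernel

theorem tkB_1 : (rulesB_1.all (Rule.chk nn ck)) = true := by decide +kernel

theorem tkB_2 : (rulesB_2.all (Rule.chk nn ck)) = true := by decide +kernel

theorem tkB_3 : (rulesB_3.all (Rule.chk nn ck)) = true := by decide +kernel

theorem htB : ∀ r ∈ rulesB, ∀ w ∈ r.needs nn, ev g w = 1 := by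
  intro r hr
  refine Rule.needs_of_chk tr ?_
  simp only [rulesB, List.mem_append] at hr
  rcases hr with ((hr | hr) | hr) | hr
  · exact List.all_eq_true.1 tkB_0 r hr
  · exact List.all_eq_true.1 tkB_1 r hr
  · exact List.all_eq_true.1 tkB_2 r hr
  · exact List.all_eq_true.1 tkB_3 r hr

theorem hcB : ∀ z, CB.cen z = true → ev g (CB.wd z) = 1 := by
  intro z hz
  refine tr1 ?_
  cases z <;> first | (exact absurd hz (by decide)) | decide +kernel

theorem hhB {Γ : Type} [Group Γ] [Finite Γ] {σ : Γ →* G} {f : X → Γ} (h : Lifts σ 4 nn g f) (hi : Inj g f TB) : CB.Holds f :=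
  holds h hi rfl (fun _ h => absurd (show false = true from h) (by decide)) rfl (by decide +kernel) htB hcB

theorem lvB {Γ : Type} [Group Γ] [Finite Γ] {σ : Γ →* G} {f : X → Γ} (h : Lifts σ 4 nn g f) (hi : Inj g f TB) :
    Nat.card (Kl f SB) ≤ 3200 * Nat.card (Kl f TB) := by
  have hh : CB.Holds f := hhB h hi
  obtain ⟨hinv, hrel⟩ := CP.relOK hh (inv := H94.TCRuB.inv) (mm := H94.TCRuB.mm) (ex := H94.TCRuB.extra) (by intro x; cases x <;> decide +kernel)
    (by intro x y; cases x <;> cases y <;> decide +kernel) (by decide +kernel)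
  exact level (subs := H94.TCRuB.subs) (fun H hH => H94.TCRuB.main hinv hrel.1 hrel.2 hH) (by decide +kernel) (by
    intro x hx
    fin_cases x
    · exact ⟨.b, rfl⟩
    · exact ⟨.d, rfl⟩
    · exact ⟨.c, rfl⟩
    · exact ⟨.f, rfl⟩
    · exact ⟨.e, rfl⟩
    · exact absurd hx (by decide))

/-- letters of level C -/
def SC : X → Bool := ![true, true, true, true, false, false]

/-- lower letters of level C -/
def TC : X → Bool := ![true, false, false, false, false, false]

def wdC : H94.TCRuC.Lt → W X
  | .b => [(0, true)]
  | .bi => [(0, false)]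
  | .d => [(1, true)]
  | .di => [(1, false)]
  | .c => [(2, true)]
  | .ci => [(2, false)]
  | .f => [(3, true)]
  | .fi => [(3, false)]

def rulesC_0 : List (Rule X) := [
  .conj [(2, true), (3, false), (2, false)] [(0, true)] [(0, true), (0, true), (0, true)] 13,
  .conj [(0, true), (1, false), (2, false)] [(3, true)] [(1, false)] 3,
  .conj [(0, false), (0, false), (1, true)] [(3, true)] [(1, false)] 3,
  .conj [(0, false), (1, false), (2, false)] [(1, true)] [(3, false)] 3,
  .conj [(1, true), (2, true), (1, false)] [(2, true)] [(3, true)] 3,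
  .conj [(1, false), (2, false), (3, false)] [(2, true)] [(2, true)] 3]

def rulesC_1 : List (Rule X) := [
  .conj [(1, false), (3, false), (2, true)] [(3, true)] [(2, true)] 3,
  .conj [(0, true), (3, false)] [(1, true)] [(2, true)] 3,
  .ord 1]

def rulesC : List (Rule X) := rulesC_0 ++ rulesC_1

def cenC : H94.TCRuC.Lt → Bool
  | _ => false

def CC : CP X H94.TCRuC.Lt where
  iv := fun _ => false
  wd := wdC
  cen := cenC
  q := 4
  exact := rulesC.map fun r => red (fun _ => false) (r.word nn)

theorem tkC_0 : (rulesC_0.all (Rule.chk nn ck)) = true := by decide +kernel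

theorem tkC_1 : (rulesC_1.all (Rule.chk nn ck)) = true := by decide +kernel

theorem htC : ∀ r ∈ rulesC, ∀ w ∈ r.needs nn, ev g w = 1 := by
  intro r hr
  refine Rule.needs_of_chk tr ?_
  simp only [rulesC, List.mem_append] at hr
  rcases hr with hr | hr
  · exact List.all_eq_true.1 tkC_0 r hr
  · exact List.all_eq_true.1 tkC_1 r hr

theorem hcC : ∀ z, CC.cen z = true → ev g (CC.wd z) = 1 := by
  intro z hz
  refine tr1 ?_
  cases z <;> first | (exact absurd hz (by decide)) | decide +kernel

theorem hhC {Γ : Type} [Group Γ] [Finite Γ] {σ : Γ →* G} {f : X → Γ} (h : Lifts σ 4 nn g f) (hi : Inj g f TC) : CC.Holds f :=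
  holds h hi rfl (fun _ h => absurd (show false = true from h) (by decide)) rfl (by decide +kernel) htC hcC

theorem lvC {Γ : Type} [Group Γ] [Finite Γ] {σ : Γ →* G} {f : X → Γ} (h : Lifts σ 4 nn g f) (hi : Inj g f TC) :
    Nat.card (Kl f SC) ≤ 432 * Nat.card (Kl f TC) := by
  have hh : CC.Holds f := hhC h hi
  obtain ⟨hinv, hrel⟩ := CP.relOK hh (inv := H94.TCRuC.inv) (mm := H94.TCRuC.mm) (ex := H94.TCRuC.extra) (by intro x; cases x <;> decide +kernel)
    (by intro x y; cases x <;> cases y <;> decide +kernel) (by decide +kernel)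
  exact level (subs := H94.TCRuC.subs) (fun H hH => H94.TCRuC.main hinv hrel.1 hrel.2 hH) (by decide +kernel) (by
    intro x hx
    fin_cases x
    · exact ⟨.b, rfl⟩
    · exact ⟨.d, rfl⟩
    · exact ⟨.c, rfl⟩
    · exact ⟨.f, rfl⟩
    · exact absurd hx (by decide)
    · exact absurd hx (by decide))

/-! ### generation -/
theorem clos : closure ((fun y : G => (y : Equiv.Perm ℕ)) ⁻¹' {H10.Ru.π .g1, H10.Ru.π .g2}) = ⊤ :=
  Subgroup.closure_closure_coe_preimage
theorem g1_eq : gP .g1 = (ev g [(2, false), (4, false), (2, false), (5, false), (2, false), (3, true), (0, false), (4, true), (5, true), (1, false), (2, false)])⁻¹ := ln.gen hinj hbp' (net := H10.Ru.net) (by decide +kernel)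
theorem g2_eq : gP .g2 = (ev g [(1, false), (5, true), (4, true), (2, true), (4, false), (5, false), (3, false), (4, true), (5, true), (3, false), (4, true), (5, true)])⁻¹ := ln.gen hinj hbp' (net := H10.Ru.net) (by decide +kernel)
theorem t1_eq : gP .t1 = (ev g [(1, true), (2, false), (3, true), (0, true), (2, true), (4, true), (2, true), (4, false)])⁻¹ := ln.gen hinj hbp' (net := H10.Ru.net) (by decide +kernel)
theorem t2_eq : gP .t2 = (ev g [(1, false), (0, false), (4, true), (0, false), (3, true), (4, true), (0, true), (2, false), (1, false)])⁻¹ := ln.gen hinj hbp' (net := H10.Ru.net) (by decide +kernel)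

theorem gen : Kl g SA = ⊤ := by
  rw [eq_top_iff, ← clos, closure_le]
  intro y hy
  rcases hy with hy | hy
  · have e : y = gP .g1 := Subtype.ext hy
    rw [SetLike.mem_coe, e, g1_eq]
    exact inv_mem (ev_mem_Kl (by decide))
  · have e : y = gP .g2 := Subtype.ext hy
    rw [SetLike.mem_coe, e, g2_eq]
    exact inv_mem (ev_mem_Kl (by decide))
theorem card_top : Nat.card (Kl g SA) = 145926144000 := by
  rw [gen, Nat.card_congr (Subgroup.topEquiv (G := G)).toEquiv, card_G]
theorem card_T : 17971200 ≤ Nat.card (Kl g TA) := by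
  have h1 : H10.Ru.T ≤ (Kl g TA).map H10.Ru.Γ.subtype := by
    rw [H10.Ru.T, closure_le]
    rintro y (rfl | rfl)
    · refine ⟨gP .t1, ?_, rfl⟩
      rw [t1_eq]
      exact inv_mem (ev_mem_Kl (by decide))
    · refine ⟨gP .t2, ?_, rfl⟩
      rw [t2_eq]
      exact inv_mem (ev_mem_Kl (by decide))
  haveI : Finite ((Kl g TA).map H10.Ru.Γ.subtype) := by
    have : ((Kl g TA).map H10.Ru.Γ.subtype : Set (Equiv.Perm ℕ)) = H10.Ru.Γ.subtype '' (Kl g TA : Set G) := rfl
    exact Set.Finite.to_subtype (this ▸ Set.toFinite _)
  have h2 := Subgroup.card_le_of_le h1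
  have h3 : Nat.card ((Kl g TA).map H10.Ru.Γ.subtype) = Nat.card (Kl g TA) :=
    Nat.card_congr ((Kl g TA).equivMapOfInjective _ hinj).symm.toEquiv
  rw [h3, H10.Ru.cards.1] at h2
  exact h2
theorem card_L : 5616 ≤ Nat.card (Kl g TB) := by
  have g1 := lvB (Lifts.self (q := 4) hord) (Inj.self _)
  have e2 : Kl g TA = Kl g SB := by congr 1
  have h1 := card_T
  rw [e2] at h1
  omega
theorem bound (Γ : Type) [Group Γ] [Finite Γ] (σ : Γ →* G) (f : X → Γ) (h : Lifts σ 4 nn g f) :
    Nat.card (Kl f SA) ≤ 291852288000 := by
  have e1 : Kl f TA = Kl f SB := by congr 1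
  have e2 : Kl f TB = Kl f SC := by congr 1
  have c1 : Nat.card (Kl f TC) ≤ 13 := card_Kl_one (x0 := 0) (by decide) (by norm_num) (h.ord 0)
  have f3 := lvC h (h.inj_one hn (x0 := 0) (by decide))
  have b3 : Nat.card (Kl f TB) ≤ 5616 := by
    rw [e2]; omega
  have i2 : Inj g f TB := h.inj (b3.trans card_L)
  have f2 := lvB h i2
  have b2 : Nat.card (Kl f TA) ≤ 17971200 := by
    rw [e1]; omega
  have i1 : Inj g f TA := h.inj (b2.trans card_T)
  have f1 := lvA h i1
  omega
theorem noExt4 : NoExt G 4 := noExt_of_bound (q := 4) (dvd_refl 4) hord hn gen bound (by rw [card_G]; norm_num)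

/-! ### odd primes -/

def x3 : W X := [(2, false), (1, false), (0, false), (5, false), (1, false), (5, false), (4, false), (2, true), (0, true), (2, false), (4, false), (0, true)]
def y3 : W X := [(3, false), (0, true), (1, true), (4, true), (1, false), (2, true), (3, true), (4, false), (5, false), (1, true), (5, false), (0, false)]
def z3 : W X := [(4, true), (5, true), (0, false), (4, true), (3, true), (5, false), (1, false), (5, false), (3, false), (1, true), (2, true)]
theorem noStem3 : H9.Mult.NoStem.{0, 0} G 3 := by
  have hfin : Finite G := inferInstance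
  refine H9.Mult.noStem_extra (by norm_num) (by norm_num) (ev g x3) (ev g y3) (ev g z3) ?_ ?_ ?_ ?_ ?_ ?_ ?_ ?_
  · have h := tr1 (w := z3 ++ (x3 ++ (winv z3 ++ x3))) (by decide +kernel)
    rw [ev_append, ev_append, ev_append, ev_winv, ← mul_assoc, ← mul_assoc] at h
    exact eq_inv_of_mul_eq_one_left h
  · have h := tr1 (w := z3 ++ (y3 ++ (winv z3 ++ y3))) (by decide +kernel)
    rw [ev_append, ev_append, ev_append, ev_winv, ← mul_assoc, ← mul_assoc] at h
    exact eq_inv_of_mul_eq_one_left h
  · exact tr _ _ (by decide +kernel)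
  · exact tr _ _ (by decide +kernel)
  · have h := tr1 (w := x3 ++ ((x3 ++ (y3 ++ (winv x3 ++ winv y3))) ++ winv ((x3 ++ (y3 ++ (winv x3 ++ winv y3))) ++ x3))) (by decide +kernel)
    simp only [ev_append, ev_winv] at h
    rw [← mul_assoc, mul_inv_eq_one] at h
    simpa only [mul_assoc] using h
  · have h := tr1 (w := y3 ++ ((x3 ++ (y3 ++ (winv x3 ++ winv y3))) ++ winv ((x3 ++ (y3 ++ (winv x3 ++ winv y3))) ++ y3))) (by decide +kernel)
    simp only [ev_append, ev_winv] at h
    rw [← mul_assoc, mul_inv_eq_one] at h
    simpa only [mul_assoc] using h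
  · intro h
    have h2 : ev g (x3 ++ (y3 ++ (winv x3 ++ winv y3))) = 1 := by
      simp only [ev_append, ev_winv]
      rw [← mul_assoc, ← mul_assoc, h]
      group
    exact ln.ne_one (V := 1) (by decide +kernel) h2
  · rw [card_G]; norm_num
theorem noExt3 : NoExt G 3 := fun Γ _ _ σ hσ hc => noStem3 Γ σ hσ hc

def x5 : W X := [(5, true), (0, true), (3, true), (2, false), (5, false), (2, false), (5, false), (1, true), (2, false), (0, true), (4, true), (1, false)]
def y5 : W X := [(1, true), (5, true), (2, false), (4, true), (5, true), (4, false), (0, false), (5, false), (0, true), (4, true), (1, false), (2, false)]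
def z5 : W X := [(4, false), (1, true), (2, false), (5, false), (2, false), (5, true), (4, false), (0, true), (4, true), (5, true), (2, true), (0, false), (0, false)]
theorem noStem5 : H9.Mult.NoStem.{0, 0} G 5 := by
  have hfin : Finite G := inferInstance
  refine H9.Mult.noStem_extra (by norm_num) (by norm_num) (ev g x5) (ev g y5) (ev g z5) ?_ ?_ ?_ ?_ ?_ ?_ ?_ ?_
  · have h := tr1 (w := z5 ++ (x5 ++ (winv z5 ++ x5))) (by decide +kernel)
    rw [ev_append, ev_append, ev_append, ev_winv, ← mul_assoc, ← mul_assoc] at h
    exact eq_inv_of_mul_eq_one_left h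
  · have h := tr1 (w := z5 ++ (y5 ++ (winv z5 ++ y5))) (by decide +kernel)
    rw [ev_append, ev_append, ev_append, ev_winv, ← mul_assoc, ← mul_assoc] at h
    exact eq_inv_of_mul_eq_one_left h
  · exact tr _ _ (by decide +kernel)
  · exact tr _ _ (by decide +kernel)
  · have h := tr1 (w := x5 ++ ((x5 ++ (y5 ++ (winv x5 ++ winv y5))) ++ winv ((x5 ++ (y5 ++ (winv x5 ++ winv y5))) ++ x5))) (by decide +kernel)
    simp only [ev_append, ev_winv] at h
    rw [← mul_assoc, mul_inv_eq_one] at h
    simpa only [mul_assoc] using h
  · have h := tr1 (w := y5 ++ ((x5 ++ (y5 ++ (winv x5 ++ winv y5))) ++ winv ((x5 ++ (y5 ++ (winv x5 ++ winv y5))) ++ y5))) (by decide +kernel)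
    simp only [ev_append, ev_winv] at h
    rw [← mul_assoc, mul_inv_eq_one] at h
    simpa only [mul_assoc] using h
  · intro h
    have h2 : ev g (x5 ++ (y5 ++ (winv x5 ++ winv y5))) = 1 := by
      simp only [ev_append, ev_winv]
      rw [← mul_assoc, ← mul_assoc, h]
      group
    exact ln.ne_one (V := 1) (by decide +kernel) h2
  · rw [card_G]; norm_num
theorem noExt5 : NoExt G 5 := fun Γ _ _ σ hσ hc => noStem5 Γ σ hσ hc

end H94.MulRuA
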