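import Cfsg.Agent.Lib.H94.QuadForm
import Cfsg.Agent.Lib.H94.Stab

/-!
Overgroups in SL of the similarity group of a non-degenerate quadratic form over a finite field of odd order.
-/

set_option autoImplicit false
set_option linter.unusedSectionVars false

namespace H94.OrthOver

open Matrix Cfsg.Geo H94.Transv H94.FormRow H94.QuadForm QuadraticMap
open scoped MatrixGroups

variable {ι : Type} [Fintype ι] [DecidableEq ι] {F : Type*} [Field F]

variable {Q : (ι → F) → F} {M : Subgroup (GL ι F)}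

theorem frow_add (hQ : IsNondegenerateQuadraticForm Q) (v w : ι → F) :
    frow (polar Q) (v + w) = frow (polar Q) v + frow (polar Q) w := by
  ext i; exact hQ.polar_bilinear.add_right _ _ _

theorem frow_sub (hQ : IsNondegenerateQuadraticForm Q) (v w : ι → F) :
    frow (polar Q) (v - w) = frow (polar Q) v - frow (polar Q) w := by
  ext i; exact B_sub_right hQ _ _ _

theorem frow_smul (hQ : IsNondegenerateQuadraticForm Q) (c : F) (v : ι → F) :
    frow (polar Q) (c • v) = c • frow (polar Q) v := by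
  ext i; exact hQ.polar_bilinear.smul_right _ _ _

theorem frow_vecMul_inv (hQ : IsNondegenerateQuadraticForm Q) {h : GL ι F}
    (hh : ∀ x, Q ((h : Matrix ι ι F) *ᵥ x) = Q x) (v : ι → F) :
    frow (polar Q) v ᵥ* ((h⁻¹ : GL ι F) : Matrix ι ι F) = frow (polar Q) ((h : Matrix ι ι F) *ᵥ v) := by
  apply frow_ext
  intro x
  rw [← dotProduct_mulVec, (linLeft hQ).frow_dot, (linLeft hQ).frow_dot]
  rw [← B_of_Q hh, mulVec_inv_mulVec]

/-- the quadratic form transported by g -/
def pull (g : GL ι F) (Q : (ι → F) → F) : (ι → F) → F := fun x => Q (((g⁻¹ : GL ι F) : Matrix ι ι F) *ᵥ x)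

theorem polar_pull (g : GL ι F) (x y : ι → F) : polar (pull g Q) x y =
    polar Q (((g⁻¹ : GL ι F) : Matrix ι ι F) *ᵥ x) (((g⁻¹ : GL ι F) : Matrix ι ι F) *ᵥ y) := by
  unfold polar pull
  rw [mulVec_add]

theorem pull_quad (hQ : IsNondegenerateQuadraticForm Q) (g : GL ι F) : IsNondegenerateQuadraticForm (pull g Q) where
  smul c v := by unfold pull; rw [mulVec_smul, hQ.smul]
  polar_bilinear :=
    { add_left := fun x y v => by rw [polar_pull, mulVec_add, hQ.polar_bilinear.add_left, ← polar_pull, ← polar_pull]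
      smul_left := fun c x v => by rw [polar_pull, mulVec_smul, hQ.polar_bilinear.smul_left, ← polar_pull]
      add_right := fun v x y => by rw [polar_pull, mulVec_add, hQ.polar_bilinear.add_right, ← polar_pull, ← polar_pull]
      smul_right := fun c x v => by rw [polar_pull, mulVec_smul, hQ.polar_bilinear.smul_right, ← polar_pull] }
  nondegenerate v hv := by
    have hv' : ((g⁻¹ : GL ι F) : Matrix ι ι F) *ᵥ v ≠ 0 := by
      intro h
      apply hv
      have := mulVec_inv_mulVec g v
      rw [h, mulVec_zero] at this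
      exact this.symm
    obtain ⟨⟨x, hx⟩, ⟨y, hy⟩⟩ := hQ.nondegenerate _ hv'
    refine ⟨⟨(g : Matrix ι ι F) *ᵥ x, ?_⟩, ⟨(g : Matrix ι ι F) *ᵥ y, ?_⟩⟩
    · rw [polar_pull, inv_mulVec_mulVec]; exact hx
    · rw [polar_pull, inv_mulVec_mulVec]; exact hy

/-- reflections of the transported form are conjugates of reflections -/
theorem rGL_pull (hQ : IsNondegenerateQuadraticForm Q) (g : GL ι F) {x : ι → F} (hx : pull g Q x ≠ 0)
    (hx' : Q (((g⁻¹ : GL ι F) : Matrix ι ι F) *ᵥ x) ≠ 0) :
    rGL (pull_quad hQ g) x hx = g * rGL hQ (((g⁻¹ : GL ι F) : Matrix ι ι F) *ᵥ x) hx' * g⁻¹ := by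
  apply Units.ext
  rw [Units.val_mul, Units.val_mul, rGL_val, rGL_val, conj_tm, mulVec_inv_mulVec]
  congr 1
  apply frow_ext
  intro z
  rw [smul_dotProduct, (linLeft (pull_quad hQ g)).frow_dot, ← dotProduct_mulVec, smul_dotProduct,
    (linLeft hQ).frow_dot, polar_pull]
  rfl

theorem A_core (hQ : IsNondegenerateQuadraticForm Q) (h2 : (2 : F) ≠ 0)
    (hM : quadSimilarityGroup Q ⊓ specialLinear ι F ≤ M) (hMS : M ≤ specialLinear ι F)
    {g : GL ι F} (hg : g ∈ M) {x y a b t : ι → F} (hx : pull g Q x ≠ 0) (hy : pull g Q y ≠ 0)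
    (hxy : polar (pull g Q) x y = 0) (ha : frow (polar Q) a = frow (polar (pull g Q)) x)
    (hb : frow (polar Q) b = frow (polar (pull g Q)) y) {h : GL ι F} (hh : h ∈ M)
    (hhQ : ∀ x, Q ((h : Matrix ι ι F) *ᵥ x) = Q x) (hhx : (h : Matrix ι ι F) *ᵥ x = x)
    (hhy : (h : Matrix ι ι F) *ᵥ y = y) {d1 d2 : F} (hha : (h : Matrix ι ι F) *ᵥ a = a + d1 • t)
    (hhb : (h : Matrix ι ι F) *ᵥ b = b + d2 • t) (hd : d1 ≠ 0 ∨ d2 ≠ 0) :
    ∃ w, w ≠ 0 ∧ HasT M w (frow (polar Q) t) := by
  have hQ' := pull_quad hQ g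
  set Q' := pull g Q with hQ'def
  set s := rGL hQ' x hx * rGL hQ' y hy with hs
  have hsM : s ∈ M := by
    have : s = g * (rGL hQ (((g⁻¹ : GL ι F) : Matrix ι ι F) *ᵥ x) hx *
        rGL hQ (((g⁻¹ : GL ι F) : Matrix ι ι F) *ᵥ y) hy) * g⁻¹ := by
      rw [hs, rGL_pull hQ g hx hx, rGL_pull hQ g hy hy]
      group
    rw [this]
    exact M.mul_mem (M.mul_mem hg (hM (mul_rGL_mem hQ hx hy))) (M.inv_mem hg)
  have hyx : polar Q' y x = 0 := by rw [B_symm]; exact hxy
  -- matrix of s
  have hsm : (s : Matrix ι ι F) = 1 + vecMulVec x (-(Q' x)⁻¹ • frow (polar Q') x) +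
      vecMulVec y (-(Q' y)⁻¹ • frow (polar Q') y) := by
    rw [hs, Units.val_mul, rGL_val, rGL_val, tm, tm, add_mul, one_mul, mul_add, mul_one, vecMulVec_mul_vecMulVec,
      smul_dotProduct, (linLeft hQ').frow_dot, hyx, smul_zero, zero_smul, vecMulVec_zero, add_zero]
    abel
  have hxi : (-(Q' x)⁻¹ • frow (polar Q') x) ᵥ* ((h⁻¹ : GL ι F) : Matrix ι ι F) =
      (-(Q' x)⁻¹ • frow (polar Q') x) + (-(Q' x)⁻¹ * d1) • frow (polar Q) t := by
    rw [← ha, Matrix.smul_vecMul, frow_vecMul_inv hQ hhQ, hha, frow_add hQ, frow_smul hQ, smul_add, smul_smul]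
  have heta : (-(Q' y)⁻¹ • frow (polar Q') y) ᵥ* ((h⁻¹ : GL ι F) : Matrix ι ι F) =
      (-(Q' y)⁻¹ • frow (polar Q') y) + (-(Q' y)⁻¹ * d2) • frow (polar Q) t := by
    rw [← hb, Matrix.smul_vecMul, frow_vecMul_inv hQ hhQ, hhb, frow_add hQ, frow_smul hQ, smul_add, smul_smul]
  set p := (-(Q' x)⁻¹ * d1) • x + (-(Q' y)⁻¹ * d2) • y with hp
  have hconj : (h : Matrix ι ι F) * s * ((h⁻¹ : GL ι F) : Matrix ι ι F) = s + vecMulVec p (frow (polar Q) t) := by
    rw [hsm, mul_add, mul_add, mul_one, add_mul, add_mul, ← Units.val_mul, mul_inv_cancel, Units.val_one,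
      mul_vecMulVec, mul_vecMulVec, vecMulVec_mul, vecMulVec_mul, hhx, hhy, hxi, heta, hp]
    simp only [vecMulVec_add, add_vecMulVec, smul_vecMulVec, vecMulVec_smul]
    abel
  have hk : s⁻¹ * (h * s * h⁻¹) ∈ M := M.mul_mem (M.inv_mem hsM) (M.mul_mem (M.mul_mem hh hsM) (M.inv_mem hh))
  have hkm : ((s⁻¹ * (h * s * h⁻¹) : GL ι F) : Matrix ι ι F) =
      tm (((s⁻¹ : GL ι F) : Matrix ι ι F) *ᵥ p) (frow (polar Q) t) := by
    rw [Units.val_mul, Units.val_mul, Units.val_mul, hconj, mul_add, ← Units.val_mul, inv_mul_cancel, Units.val_one,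
      mul_vecMulVec, tm]
  have hp0 : p ≠ 0 := by
    intro h0
    have e1 : polar Q' p x = 0 := by rw [h0]; exact (linLeft hQ').zero_left x
    have e2 : polar Q' p y = 0 := by rw [h0]; exact (linLeft hQ').zero_left y
    rw [hp, hQ'.polar_bilinear.add_left, hQ'.polar_bilinear.smul_left, hQ'.polar_bilinear.smul_left, hyx,
      B_self hQ'] at e1
    rw [hp, hQ'.polar_bilinear.add_left, hQ'.polar_bilinear.smul_left, hQ'.polar_bilinear.smul_left, hxy,
      B_self hQ'] at e2
    rcases hd with hd | hd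
    · apply hd
      have e3 : 2 * d1 = 0 := by
        have : -(Q' x)⁻¹ * d1 * (2 * Q' x) + (-(Q' y)⁻¹ * d2) * 0 = - (2 * d1) := by
          field_simp; ring
        rw [this] at e1
        exact neg_eq_zero.1 e1
      exact (mul_eq_zero.1 e3).resolve_left h2
    · apply hd
      have e3 : 2 * d2 = 0 := by
        have : -(Q' x)⁻¹ * d1 * 0 + (-(Q' y)⁻¹ * d2) * (2 * Q' y) = - (2 * d2) := by
          field_simp; ring
        rw [this] at e2
        exact neg_eq_zero.1 e2
      exact (mul_eq_zero.1 e3).resolve_left h2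
  refine ⟨((s⁻¹ : GL ι F) : Matrix ι ι F) *ᵥ p, ?_, ?_, _, hk, hkm⟩
  · intro h0
    apply hp0
    have := mulVec_inv_mulVec s p
    rw [h0, mulVec_zero] at this
    exact this.symm
  · have h1 := (mem_specialLinear_iff _).1 (hMS hk)
    rw [hkm, det_tm'] at h1
    exact add_eq_left.1 h1

/-- Step B: some nontrivial transvection with non-singular direction exists -/
theorem exists_transvection (hQ : IsNondegenerateQuadraticForm Q) (h2 : (2 : F) ≠ 0)
    (hM : quadSimilarityGroup Q ⊓ specialLinear ι F ≤ M) (hMS : M ≤ specialLinear ι F) (hn : 9 ≤ Fintype.card ι)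
    {g : GL ι F} (hg : g ∈ M) (hgs : g ∉ quadSimilarityGroup Q) :
    ∃ w t, w ≠ 0 ∧ Q t ≠ 0 ∧ HasT M w (frow (polar Q) t) := by
  by_contra hcon
  have hcon' : ∀ w t, w ≠ 0 → Q t ≠ 0 → ¬ HasT M w (frow (polar Q) t) := by
    intro w t hw ht hT
    exact hcon ⟨w, t, hw, ht, hT⟩
  apply hgs
  have hQ' := pull_quad hQ g
  set Q' := pull g Q with hQ'def
  -- S
  have hS : ∀ v, ∃ u, frow (polar Q) u = frow (polar Q') v := fun v =>
    exists_frow_eq (linLeft hQ) hQ.polar_bilinear.add_right hQ.polar_bilinear.smul_right (nd hQ) _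
  -- stable pairs
  have hpair : ∀ x y a, Q' x ≠ 0 → Q' y ≠ 0 → polar Q' x y = 0 → frow (polar Q) a = frow (polar Q') x →
      a ∈ Submodule.span F {x, y} := by
    intro x y a hx hy hxy ha
    obtain ⟨b, hb⟩ := hS y
    have hbmem : b ∈ Submodule.span F {x, y, a} := by
      by_contra hb'
      obtain ⟨h, t, hh, hhQ, hhx, hhy, hha, ht0, c, hc, hhb⟩ := exists_mover hQ h2 hn hb'
      obtain ⟨w, hw, hT⟩ := A_core hQ h2 hM hMS hg hx hy hxy ha hb (hM hh) hhQ hhx hhy
        (d1 := 0) (d2 := c) (t := t) (by rw [hha, zero_smul, add_zero]) hhb (Or.inr hc)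
      exact hcon' w t hw ht0 hT
    by_contra ha'
    have ha'' : a ∉ Submodule.span F {x, y, x} := by
      intro h
      apply ha'
      have : ({x, y, x} : Set (ι → F)) = {x, y} := by
        ext z; simp only [Set.mem_insert_iff, Set.mem_singleton_iff]; tauto
      rwa [this] at h
    obtain ⟨h, t, hh, hhQ, hhx, hhy, -, ht0, c, hc, hha⟩ := exists_mover hQ h2 hn ha''
    obtain ⟨α, β, γ, hαβγ⟩ := Submodule.mem_span_triple.1 hbmem
    have hhb : (h : Matrix ι ι F) *ᵥ b = b + (γ * c) • t := by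
      rw [← hαβγ, mulVec_add, mulVec_add, mulVec_smul, mulVec_smul, mulVec_smul, hhx, hhy, hha, smul_add, smul_smul]
      abel
    obtain ⟨w, hw, hT⟩ := A_core hQ h2 hM hMS hg hx hy hxy ha hb (hM hh) hhQ hhx hhy hha hhb (Or.inl hc)
    exact hcon' w t hw ht0 hT
  -- eigenvectors
  have heig : ∀ x, Q' x ≠ 0 → ∃ c : F, ∀ v, polar Q' v x = c * polar Q v x := by
    intro x hx
    obtain ⟨a, ha⟩ := hS x
    obtain ⟨y, hy, hyQ⟩ := exists_nonsing hQ' (X := perp hQ' x) (by
      have := finrank_inf_perp hQ' ⊤ x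
      rw [top_inf_eq, finrank_top, Module.finrank_fintype_fun_eq_card] at this
      omega)
    obtain ⟨y2, hy2, hy2Q⟩ := exists_nonsing hQ' (X := perp hQ' x ⊓ perp hQ' y) (by
      have := finrank_inf_perp hQ' ⊤ x
      have h3 := finrank_inf_perp hQ' (perp hQ' x) y
      rw [top_inf_eq, finrank_top, Module.finrank_fintype_fun_eq_card] at this
      omega)
    have hyx : polar Q' y x = 0 := hy
    have hy2x : polar Q' y2 x = 0 := hy2.1
    have hy2y : polar Q' y2 y = 0 := hy2.2
    obtain ⟨α, β, e1⟩ := Submodule.mem_span_pair.1 (hpair x y a hx hyQ (by rw [B_symm]; exact hyx) ha)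
    obtain ⟨α', β', e2⟩ := Submodule.mem_span_pair.1 (hpair x y2 a hx hy2Q (by rw [B_symm]; exact hy2x) ha)
    have hβ : β = 0 := by
      have h1 : polar Q' a y = β * (2 * Q' y) := by
        rw [← e1, hQ'.polar_bilinear.add_left, hQ'.polar_bilinear.smul_left, hQ'.polar_bilinear.smul_left,
          B_self hQ', B_symm x y, hyx]
        ring
      have h3 : polar Q' a y = 0 := by
        rw [← e2, hQ'.polar_bilinear.add_left, hQ'.polar_bilinear.smul_left, hQ'.polar_bilinear.smul_left,
          B_symm x y, hyx, hy2y]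
        ring
      rw [h1] at h3
      exact (mul_eq_zero.1 h3).resolve_right (mul_ne_zero h2 hyQ)
    refine ⟨α, fun v => ?_⟩
    rw [← (linLeft hQ').frow_dot, ← ha, ← e1, hβ, zero_smul, add_zero, frow_smul hQ, smul_dotProduct,
      (linLeft hQ).frow_dot, smul_eq_mul]
  -- nonzero vectors from nonsingular
  have hne0 : ∀ x, Q' x ≠ 0 → x ≠ 0 := by
    rintro x hx rfl
    exact hx (Q_zero hQ')
  -- two orthogonal nonsingular vectors with different constants have Q' x + Q' y = 0
  have hdiff : ∀ x y c d, Q' x ≠ 0 → Q' y ≠ 0 → polar Q' x y = 0 → (∀ v, polar Q' v x = c * polar Q v x) →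
      (∀ v, polar Q' v y = d * polar Q v y) → c ≠ d → Q' x + Q' y = 0 := by
    intro x y c d hx hy hxy hc hd hcd
    by_contra hne
    have hxyQ : Q' (x + y) ≠ 0 := by rw [Q_add (Q := Q'), hxy, add_zero]; exact hne
    obtain ⟨e, he⟩ := heig _ hxyQ
    have key : (e - c) • x + (e - d) • y = 0 := by
      apply nd hQ
      intro v
      rw [hQ.polar_bilinear.add_right, hQ.polar_bilinear.smul_right, hQ.polar_bilinear.smul_right]
      have h1 := he v
      rw [hQ'.polar_bilinear.add_right, hQ.polar_bilinear.add_right, hc, hd] at h1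
      linear_combination (-1) * h1
    have k1 : polar Q' ((e - c) • x + (e - d) • y) x = 0 := by rw [key]; exact (linLeft hQ').zero_left x
    have k2 : polar Q' ((e - c) • x + (e - d) • y) y = 0 := by rw [key]; exact (linLeft hQ').zero_left y
    rw [hQ'.polar_bilinear.add_left, hQ'.polar_bilinear.smul_left, hQ'.polar_bilinear.smul_left, B_self hQ',
      B_symm y x, hxy] at k1
    rw [hQ'.polar_bilinear.add_left, hQ'.polar_bilinear.smul_left, hQ'.polar_bilinear.smul_left, B_self hQ',
      hxy] at k2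
    have l1 : e - c = 0 := by
      have : (e - c) * (2 * Q' x) = 0 := by linear_combination k1
      exact (mul_eq_zero.1 this).resolve_right (mul_ne_zero h2 hx)
    have l2 : e - d = 0 := by
      have : (e - d) * (2 * Q' y) = 0 := by linear_combination k2
      exact (mul_eq_zero.1 this).resolve_right (mul_ne_zero h2 hy)
    apply hcd
    rw [← sub_eq_zero.1 l1, sub_eq_zero.1 l2]
  have hsame : ∀ x y c d, Q' x ≠ 0 → Q' y ≠ 0 → polar Q' x y = 0 → (∀ v, polar Q' v x = c * polar Q v x) →
      (∀ v, polar Q' v y = d * polar Q v y) → c = d := by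
    intro x y c d hx hy hxy hc hd
    by_contra hcd
    have h0 := hdiff x y c d hx hy hxy hc hd hcd
    obtain ⟨z, hz, hzQ⟩ := exists_nonsing hQ' (X := perp hQ' x ⊓ perp hQ' y) (by
      have := finrank_inf_perp hQ' ⊤ x
      have h3 := finrank_inf_perp hQ' (perp hQ' x) y
      rw [top_inf_eq, finrank_top, Module.finrank_fintype_fun_eq_card] at this
      omega)
    have hzx : polar Q' z x = 0 := hz.1
    have hzy : polar Q' z y = 0 := hz.2
    have hxz : polar Q' x z = 0 := by rw [B_symm]; exact hzx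
    have hyz : polar Q' y z = 0 := by rw [B_symm]; exact hzy
    obtain ⟨e, he⟩ := heig z hzQ
    by_cases hec : e = c
    · subst hec
      -- e = c ≠ d
      have h1 := hdiff z y e d hzQ hy hzy he hd hcd
      -- Q' z = - Q' y = Q' x
      have hxzQ : Q' (x + z) ≠ 0 := by
        rw [Q_add (Q := Q'), hxz, add_zero]
        intro h3
        have : (2 : F) * Q' y = 0 := by linear_combination h0 + h1 - h3
        exact hy ((mul_eq_zero.1 this).resolve_left h2)
      have h4 := hdiff (x + z) y e d hxzQ hy (by rw [hQ'.polar_bilinear.add_left, hxy, hzy, add_zero])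
        (fun v => by rw [hQ'.polar_bilinear.add_right, hQ.polar_bilinear.add_right, hc, he]; ring) hd hcd
      rw [Q_add (Q := Q'), hxz, add_zero] at h4
      apply hy
      linear_combination h0 + h1 - h4
    · have h1 := hdiff z x e c hzQ hx hzx he hc hec
      by_cases hed : e = d
      · subst hed
        have hyzQ : Q' (y + z) ≠ 0 := by
          rw [Q_add (Q := Q'), hyz, add_zero]
          intro h3
          have : (2 : F) * Q' x = 0 := by linear_combination h0 + h1 - h3
          exact hx ((mul_eq_zero.1 this).resolve_left h2)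
        have h4 := hdiff (y + z) x e c hyzQ hx (by
            rw [hQ'.polar_bilinear.add_left, hzx, B_symm y x, hxy, add_zero])
          (fun v => by rw [hQ'.polar_bilinear.add_right, hQ.polar_bilinear.add_right, hd, he]; ring) hc hec
        rw [Q_add (Q := Q'), hyz, add_zero] at h4
        apply hx
        linear_combination h0 + h1 - h4
      · have h3 := hdiff z y e d hzQ hy hzy he hd hed
        have : (2 : F) * Q' z = 0 := by linear_combination h1 + h3 - h0
        exact hzQ ((mul_eq_zero.1 this).resolve_left h2)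
  -- scalar
  obtain ⟨x, -, hxQ⟩ := exists_nonsing hQ' (X := ⊤) (by
    rw [finrank_top, Module.finrank_fintype_fun_eq_card]; omega)
  obtain ⟨c, hc⟩ := heig x hxQ
  let S0 : Submodule F (ι → F) :=
    { carrier := {w | ∀ v, polar Q' v w = c * polar Q v w}
      add_mem' := fun {a b} ha hb v => by
        rw [hQ'.polar_bilinear.add_right, hQ.polar_bilinear.add_right, ha v, hb v]; ring
      zero_mem' := fun v => by rw [B_zero_right hQ', B_zero_right hQ, mul_zero]
      smul_mem' := fun d a ha v => by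
        rw [hQ'.polar_bilinear.smul_right, hQ.polar_bilinear.smul_right, ha v]; ring }
  obtain ⟨e0, he0, he0Q⟩ := exists_nonsing hQ' (X := perp hQ' x) (by
      have := finrank_inf_perp hQ' ⊤ x
      rw [top_inf_eq, finrank_top, Module.finrank_fintype_fun_eq_card] at this
      omega)
  have hle : perp hQ' x ≤ S0 := le_of_nonsing hQ' h2 he0 he0Q (by
    intro y hy hyQ
    obtain ⟨d, hd⟩ := heig y hyQ
    have : c = d := hsame x y c d hxQ hyQ (by rw [B_symm]; exact hy) hc hd
    subst this
    exact hd)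
  have hall : ∀ v, polar Q' v v = c * polar Q v v := by
    intro v
    have hv : v ∈ S0 := by
      have hx2 : polar Q' x x ≠ 0 := by rw [B_self hQ']; exact mul_ne_zero h2 hxQ
      have h1 : v - (polar Q' v x / polar Q' x x) • x ∈ perp hQ' x := by
        show polar Q' _ x = 0
        rw [(linLeft hQ').sub_left, hQ'.polar_bilinear.smul_left, div_mul_cancel₀ _ hx2, sub_self]
      have h3 := S0.add_mem (hle h1) (S0.smul_mem (polar Q' v x / polar Q' x x) (show x ∈ S0 from hc))
      rwa [sub_add_cancel] at h3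
    exact hv v
  have hallQ : ∀ v, Q' v = c * Q v := by
    intro v
    have := hall v
    rw [B_self hQ', B_self hQ] at this
    have h3 : (2 : F) * (Q' v - c * Q v) = 0 := by linear_combination this
    exact sub_eq_zero.1 ((mul_eq_zero.1 h3).resolve_left h2)
  have hc0 : c ≠ 0 := by
    rintro rfl
    apply hxQ
    rw [hallQ, zero_mul]
  have hinv : g⁻¹ ∈ quadSimilarityGroup Q := ⟨Units.mk0 c hc0, hallQ⟩
  have := (quadSimilarityGroup Q).inv_mem hinv
  rwa [inv_inv] at this

end H94.OrthOver
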