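import Cfsg.Agent.Lib.H94.OrthOver

/-!
Overgroups in SL of the similarity group of a non-degenerate quadratic form over a finite field of odd order, part 2.
-/

set_option autoImplicit false
set_option linter.unusedSectionVars false

namespace H94.OrthOver2

open Matrix Cfsg.Geo H94.Transv H94.FormRow H94.QuadForm H94.OrthOver QuadraticMap
open scoped MatrixGroups

variable {ι : Type} [Fintype ι] [DecidableEq ι] {F : Type*} [Field F]

variable {Q : (ι → F) → F} {M : Subgroup (GL ι F)}

/-- on a large subspace the form takes every value -/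
theorem universal [Fintype F] (hodd : Odd (Fintype.card F)) (hQ : IsNondegenerateQuadraticForm Q)
    {X : Submodule F (ι → F)} (hX : Fintype.card ι + 2 < 2 * Module.finrank F X) (s : F) : ∃ z ∈ X, Q z = s := by
  obtain ⟨t1, ht1, h1⟩ := exists_nonsing hQ (X := X) (by omega)
  have h3 := finrank_inf_perp hQ X t1
  obtain ⟨t2, ht2, h4⟩ := exists_nonsing hQ (X := X ⊓ perp hQ t1) (by omega)
  have h5 : polar Q t1 t2 = 0 := by rw [B_symm]; exact ht2.2
  obtain ⟨a, b, hab⟩ := FiniteField.exists_root_sum_quadratic (R := F)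
    (f := Polynomial.C (Q t1) * Polynomial.X ^ 2) (g := Polynomial.C (Q t2) * Polynomial.X ^ 2 - Polynomial.C s)
    (by rw [Polynomial.degree_C_mul h1, Polynomial.degree_X_pow]; rfl)
    (by
      have : (Polynomial.C (Q t2) * Polynomial.X ^ 2 : Polynomial F).degree = 2 := by
        rw [Polynomial.degree_C_mul h4, Polynomial.degree_X_pow]; rfl
      rw [Polynomial.degree_sub_C (by rw [this]; exact two_pos)]; exact this)
    (Nat.odd_iff.1 hodd)
  refine ⟨a • t1 + b • t2, X.add_mem (X.smul_mem _ ht1) (X.smul_mem _ ht2.1), ?_⟩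
  rw [Q_add (Q := Q), hQ.smul, hQ.smul, hQ.polar_bilinear.smul_left, hQ.polar_bilinear.smul_right, h5]
  simp at hab
  linear_combination hab

/-- chain lemma -/
theorem chain (hQ : IsNondegenerateQuadraticForm Q) (h2 : (2 : F) ≠ 0) {X S : Submodule F (ι → F)}
    (hX : Fintype.card ι + 4 < 2 * Module.finrank F X) {u : ι → F} (hu : u ∈ X) (hQu : Q u ≠ 0) (huS : u ∈ S)
    (hS : ∀ v ∈ S, Q v ≠ 0 → ∀ x ∈ X, Q x ≠ 0 → polar Q v x ≠ 0 → x ∈ S) : X ≤ S := by
  refine le_of_nonsing hQ h2 hu hQu ?_
  intro x hx hQx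
  by_cases hux : polar Q u x = 0
  · have hxu : polar Q x u = 0 := by rw [B_symm]; exact hux
    obtain ⟨z', hz'X, hz'u, hz'x, hne⟩ : ∃ z' ∈ X, polar Q z' u = 0 ∧ polar Q z' x = 0 ∧ Q u + Q x + Q z' ≠ 0 := by
      by_cases h0 : Q u + Q x = 0
      · have h3 := finrank_inf_perp hQ X u
        have h4 := finrank_inf_perp hQ (X ⊓ perp hQ u) x
        obtain ⟨t, ht, hQt⟩ := exists_nonsing hQ (X := X ⊓ perp hQ u ⊓ perp hQ x) (by omega)
        exact ⟨t, ht.1.1, ht.1.2, ht.2, by rw [h0, zero_add]; exact hQt⟩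
      · exact ⟨0, X.zero_mem, (linLeft hQ).zero_left u, (linLeft hQ).zero_left x, by
          rw [Q_zero hQ, add_zero]; exact h0⟩
    have hzX : u + x + z' ∈ X := X.add_mem (X.add_mem hu hx) hz'X
    have hzQ : Q (u + x + z') = Q u + Q x + Q z' := by
      rw [Q_add (Q := Q), Q_add (Q := Q), hux, hQ.polar_bilinear.add_left, B_symm u z', hz'u, B_symm x z', hz'x]
      ring
    have hz : u + x + z' ∈ S := by
      apply hS u huS hQu _ hzX (by rw [hzQ]; exact hne)
      rw [hQ.polar_bilinear.add_right, hQ.polar_bilinear.add_right, B_self hQ, hux, B_symm u z', hz'u, add_zero,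
        add_zero]
      exact mul_ne_zero h2 hQu
    apply hS _ hz (by rw [hzQ]; exact hne) x hx hQx
    rw [hQ.polar_bilinear.add_left, hQ.polar_bilinear.add_left, B_self hQ, hux, hz'x, zero_add, add_zero]
    exact mul_ne_zero h2 hQx
  · exact hS u huS hQu x hx hQx hux

/-- the action of a product of two reflections with second factor trivial -/
theorem two_refl (hQ : IsNondegenerateQuadraticForm Q) {x y v : ι → F} (hx : Q x ≠ 0) (hy : Q y ≠ 0)
    (hvy : polar Q v y = 0) :
    ((rGL hQ x hx * rGL hQ y hy : GL ι F) : Matrix ι ι F) *ᵥ v = v - (polar Q v x / Q x) • x := by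
  rw [Units.val_mul, ← mulVec_mulVec, rGL_mulVec, rGL_mulVec, hvy, zero_div, zero_smul, sub_zero]

theorem full_of [Fintype F] (hodd : Odd (Fintype.card F)) (hQ : IsNondegenerateQuadraticForm Q) (h2 : (2 : F) ≠ 0)
    (hM : quadSimilarityGroup Q ⊓ specialLinear ι F ≤ M) (hn : 9 ≤ Fintype.card ι) {w u : ι → F}
    (hu : Q u ≠ 0) (hT : HasT M w (frow (polar Q) u)) : Full M w := by
  have hwu : polar Q w u = 0 := by
    have := hT.1; rwa [(linLeft hQ).frow_dot] at this
  have hdim : Fintype.card ι ≤ Module.finrank F (perp hQ w) + 1 := by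
    have := finrank_inf_perp hQ ⊤ w
    rwa [top_inf_eq, finrank_top, Module.finrank_fintype_fun_eq_card] at this
  -- (♦)
  have hdiam : ∀ v x, HasT M w (frow (polar Q) v) → polar Q x w = 0 → Q x ≠ 0 →
      HasT M w (frow (polar Q) ((polar Q v x / Q x) • x)) := by
    intro v x hv hxw hx
    have h3 := finrank_inf_perp hQ (perp hQ w) v
    obtain ⟨y, hy, hyQ⟩ := exists_nonsing hQ (X := perp hQ w ⊓ perp hQ v) (by omega)
    have hwy : polar Q w y = 0 := by rw [B_symm]; exact hy.1
    have hvy : polar Q v y = 0 := by rw [B_symm]; exact hy.2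
    have h1 := hv.conj (hM (mul_rGL_mem hQ hx hyQ))
    rw [frow_vecMul_inv hQ (by intro z; rw [Units.val_mul, ← mulVec_mulVec, Q_refl hQ, Q_refl hQ]),
      two_refl hQ hx hyQ hvy, two_refl hQ hx hyQ hwy, B_symm w x, hxw, zero_div, zero_smul, sub_zero] at h1
    have h4 := hv.sub_right h1
    rwa [← frow_sub hQ, sub_sub_cancel] at h4
  -- (♦♦)
  have hdd : ∀ v x, HasT M w (frow (polar Q) v) → polar Q x w = 0 → Q x ≠ 0 → polar Q v x ≠ 0 →
      ∀ c : F, HasT M w (frow (polar Q) (c • x)) := by
    intro v x hv hxw hx hvx c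
    by_cases hc : c = 0
    · rw [hc, zero_smul]
      have : frow (polar Q) (0 : ι → F) = 0 := by
        have := frow_smul hQ 0 (0 : ι → F)
        simpa using this
      rw [this]; exact HasT.zero_right w
    have h3 := finrank_inf_perp hQ (perp hQ w) x
    have h4 := finrank_inf_perp hQ (perp hQ w ⊓ perp hQ x) v
    obtain ⟨z', hz', hz'Q⟩ := universal hodd hQ (X := perp hQ w ⊓ perp hQ x ⊓ perp hQ v) (by omega)
      (2 * polar Q v x / c - Q x)
    have hz'w : polar Q z' w = 0 := hz'.1.1
    have hz'x : polar Q z' x = 0 := hz'.1.2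
    have hz'v : polar Q z' v = 0 := hz'.2
    have hzQ : Q (x + z') = 2 * polar Q v x / c := by
      rw [Q_add (Q := Q), hz'Q, B_symm x z', hz'x]; ring
    have hzQ0 : Q (x + z') ≠ 0 := by
      rw [hzQ]; exact div_ne_zero (mul_ne_zero h2 hvx) hc
    have hvz : polar Q v (x + z') = polar Q v x := by
      rw [hQ.polar_bilinear.add_right, B_symm v z', hz'v, add_zero]
    have hzx : polar Q (x + z') x = 2 * Q x := by
      rw [hQ.polar_bilinear.add_left, B_self hQ, hz'x, add_zero]
    have h5 := hdiam v (x + z') hv (by rw [hQ.polar_bilinear.add_left, hxw, hz'w, add_zero]) hzQ0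
    have h6 := hdiam _ x h5 hxw hx
    rw [hQ.polar_bilinear.smul_left, hvz, hzx, hzQ] at h6
    convert h6 using 3
    field_simp
  let S : Submodule F (ι → F) :=
    { carrier := {v | ∀ c : F, HasT M w (frow (polar Q) (c • v))}
      add_mem' := fun {a b} ha hb c => by
        rw [smul_add, frow_add hQ]; exact (ha c).add_right (hb c)
      zero_mem' := fun c => by
        have : frow (polar Q) (0 : ι → F) = 0 := by
          have := frow_smul hQ 0 (0 : ι → F)
          simpa using this
        rw [smul_zero, this]; exact HasT.zero_right w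
      smul_mem' := fun d a ha c => by
        rw [smul_smul]; exact ha _ }
  have huw : polar Q u w = 0 := by rw [B_symm]; exact hwu
  have huS : u ∈ S := hdd u u hT huw hu (by rw [B_self hQ]; exact mul_ne_zero h2 hu)
  have hle : perp hQ w ≤ S := by
    refine chain hQ h2 (by omega) (show u ∈ perp hQ w from huw) hu huS ?_
    intro v hv _ x hx hQx hvx
    have hv1 := hv 1
    rw [one_smul] at hv1
    exact hdd v x hv1 hx hQx hvx
  intro φ hφ
  obtain ⟨y, rfl⟩ := exists_frow_eq (linLeft hQ) hQ.polar_bilinear.add_right hQ.polar_bilinear.smul_right (nd hQ) φ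
  rw [(linLeft hQ).frow_dot, B_symm] at hφ
  have := hle (show y ∈ perp hQ w from hφ) 1
  rwa [one_smul] at this

theorem specialLinear_le_of_full_centre (hQ : IsNondegenerateQuadraticForm Q) (h2 : (2 : F) ≠ 0)
    (hM : quadSimilarityGroup Q ⊓ specialLinear ι F ≤ M) (hn : 9 ≤ Fintype.card ι) {w : ι → F}
    (hw0 : w ≠ 0) (hw : Full M w) : specialLinear ι F ≤ M := by
  apply specialLinear_le_of_full
  have hmem : ∀ v ∈ fullSubmodule M, ∀ x, Q x ≠ 0 → polar Q v x ≠ 0 → x ∈ fullSubmodule M := by
    intro v hv x hx hvx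
    obtain ⟨y, hy, hyQ⟩ := exists_nonsing hQ (X := perp hQ v) (by
      have := finrank_inf_perp hQ ⊤ v
      rw [top_inf_eq, finrank_top, Module.finrank_fintype_fun_eq_card] at this
      omega)
    have hvy : polar Q v y = 0 := by rw [B_symm]; exact hy
    have h1 : _ ∈ fullSubmodule M := fullSubmodule_stable (hM (mul_rGL_mem hQ hx hyQ)) hv
    rw [two_refl hQ hx hyQ hvy] at h1
    have h3 := (fullSubmodule M).sub_mem hv h1
    rw [sub_sub_cancel] at h3
    have h4 := (fullSubmodule M).smul_mem (polar Q v x / Q x)⁻¹ h3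
    rwa [smul_smul, inv_mul_cancel₀ (div_ne_zero hvx hx), one_smul] at h4
  obtain ⟨e, -, he⟩ := exists_nonsing hQ (X := ⊤) (by
    rw [finrank_top, Module.finrank_fintype_fun_eq_card]; omega)
  obtain ⟨x0, hx0, hwx0⟩ : ∃ x, Q x ≠ 0 ∧ polar Q w x ≠ 0 := by
    by_contra hcon
    push Not at hcon
    apply hw0
    apply nd hQ
    intro x
    have := le_of_nonsing hQ h2 (X := ⊤) (S := perp hQ w) trivial he (fun y _ hy => by
      show polar Q y w = 0
      rw [B_symm]; exact hcon y hy)
    exact this (show x ∈ (⊤ : Submodule F (ι → F)) from trivial)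
  rw [eq_top_iff]
  refine chain hQ h2 (by rw [finrank_top, Module.finrank_fintype_fun_eq_card]; omega) trivial hx0
    (hmem w hw x0 hx0 hwx0) ?_
  intro v hv _ x _ hQx hvx
  exact hmem v hv x hQx hvx

theorem not_specialLinear_le (hQ : IsNondegenerateQuadraticForm Q) (h2 : (2 : F) ≠ 0) (hn : 9 ≤ Fintype.card ι) :
    ¬ specialLinear ι F ≤ quadSimilarityGroup Q := by
  intro hle
  obtain ⟨v, -, hv⟩ := exists_nonsing hQ (X := ⊤) (by
    rw [finrank_top, Module.finrank_fintype_fun_eq_card]; omega)
  have hv0 : v ≠ 0 := by rintro rfl; exact hv (Q_zero hQ)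
  obtain ⟨x, hx⟩ : ∃ x, x ∉ Submodule.span F {v} := by
    by_contra hcon
    push Not at hcon
    have h1 : (⊤ : Submodule F (ι → F)) ≤ Submodule.span F {v} := fun y _ => hcon y
    have h3 := Submodule.finrank_mono h1
    rw [finrank_top, Module.finrank_fintype_fun_eq_card, finrank_span_singleton hv0] at h3
    omega
  obtain ⟨φ, h1, h3⟩ := exists_functional hx
  obtain ⟨c, hc⟩ := hle (tGL_mem_specialLinear v φ h1)
  have e1 := hc v
  have e2 := hc x
  have e3 := hc (x + v)
  rw [tGL_val, tm_mulVec, h1, zero_smul, add_zero] at e1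
  have hc1 : (c : F) = 1 := by
    have : ((c : F) - 1) * Q v = 0 := by linear_combination -e1
    exact sub_eq_zero.1 ((mul_eq_zero.1 this).resolve_right hv)
  rw [tGL_val, tm_mulVec, h3, one_smul, hc1, one_mul, Q_add (Q := Q)] at e2
  rw [tGL_val, tm_mulVec, dotProduct_add, h1, h3, add_zero, one_smul, hc1, one_mul, Q_add (Q := Q) (x + v) v,
    hQ.polar_bilinear.add_left, B_self hQ] at e3
  have : (2 : F) * Q v = 0 := by linear_combination e3 - e2
  exact hv ((mul_eq_zero.1 this).resolve_left h2)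

/-- The similarity group of a non-degenerate quadratic form (odd characteristic), intersected with SL, is maximal in SL. -/
theorem similarity_maximal [Fintype F] (hodd : Odd (Fintype.card F)) (hQ : IsNondegenerateQuadraticForm Q)
    (hn : 9 ≤ Fintype.card ι) : IsMaximalIn (specialLinear ι F) (quadSimilarityGroup Q ⊓ specialLinear ι F) := by
  have h2 : (2 : F) ≠ 0 := by
    intro h
    have hchar : CharP F 2 := by
      refine CharTwo.of_one_ne_zero_of_two_eq_zero one_ne_zero h
    have hev : 2 ∣ Fintype.card F := by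
      have := FiniteField.card F 2
      obtain ⟨n, hp, hn⟩ := this
      rw [hn]; exact dvd_pow_self 2 n.ne_zero
    exact (Nat.not_even_iff_odd.2 hodd) (even_iff_two_dvd.2 hev)
  refine ⟨lt_of_le_of_ne inf_le_right fun h => ?_, fun M hM1 hM2 => ?_⟩
  · apply not_specialLinear_le hQ h2 hn
    rw [← h]; exact inf_le_left
  · by_cases hM : M ≤ quadSimilarityGroup Q
    · exact Or.inl (le_antisymm (le_inf hM hM2) hM1)
    · right
      apply le_antisymm hM2
      obtain ⟨g, hg, hgs⟩ := Set.not_subset.1 hM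
      obtain ⟨w, t, hw, ht, hT⟩ := exists_transvection hQ h2 hM1 hM2 hn hg hgs
      exact specialLinear_le_of_full_centre hQ h2 hM1 hn hw (full_of hodd hQ h2 hM1 hn ht hT)

end H94.OrthOver2
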