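import Cfsg.Agent.Lib.H94.FormRow

/-!
Elementary facts about non-degenerate quadratic forms (given as functions) over fields of characteristic ≠ 2:
non-singular vectors in large subspaces, reflections.
-/

set_option autoImplicit false
set_option linter.unusedSectionVars false

namespace H94.QuadForm

open Matrix Cfsg.Geo H94.Transv H94.FormRow QuadraticMap
open scoped MatrixGroups

variable {ι : Type} [Fintype ι] [DecidableEq ι] {F : Type*} [Field F]

variable {Q : (ι → F) → F}

theorem linLeft (hQ : IsNondegenerateQuadraticForm Q) : LinLeft (polar Q) :=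
  ⟨hQ.polar_bilinear.add_left, hQ.polar_bilinear.smul_left⟩

theorem B_symm (x y : ι → F) : polar Q x y = polar Q y x := polar_comm Q x y

theorem Q_add (x y : ι → F) : Q (x + y) = Q x + Q y + polar Q x y := by
  unfold polar; ring

theorem B_self (hQ : IsNondegenerateQuadraticForm Q) (x : ι → F) : polar Q x x = 2 * Q x := by
  have : Q (x + x) = 4 * Q x := by
    have h := hQ.smul 2 x
    rw [two_smul] at h
    rw [h]; ring
  unfold polar
  rw [this]; ring

theorem Q_zero (hQ : IsNondegenerateQuadraticForm Q) : Q 0 = 0 := by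
  have := hQ.smul 0 0
  simpa using this

theorem nd (hQ : IsNondegenerateQuadraticForm Q) (v : ι → F) (h : ∀ x, polar Q x v = 0) : v = 0 := by
  by_contra h0
  obtain ⟨x, hx⟩ := (hQ.nondegenerate v h0).1
  exact hx (h x)

theorem B_zero_right (hQ : IsNondegenerateQuadraticForm Q) (x : ι → F) : polar Q x 0 = 0 := by
  have := hQ.polar_bilinear.smul_right 0 x 0
  simpa using this

theorem B_sub_right (hQ : IsNondegenerateQuadraticForm Q) (x v w : ι → F) :
    polar Q x (v - w) = polar Q x v - polar Q x w := by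
  have := hQ.polar_bilinear.add_right x (v - w) w
  rw [sub_add_cancel] at this
  rw [this]; ring

/-- w^⊥ -/
def perp (hQ : IsNondegenerateQuadraticForm Q) (w : ι → F) : Submodule F (ι → F) where
  carrier := {v | polar Q v w = 0}
  add_mem' {a b} ha hb := by
    have ha' : polar Q a w = 0 := ha
    have hb' : polar Q b w = 0 := hb
    show polar Q (a + b) w = 0
    rw [hQ.polar_bilinear.add_left, ha', hb', add_zero]
  zero_mem' := (linLeft hQ).zero_left w
  smul_mem' c a ha := by
    have ha' : polar Q a w = 0 := ha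
    show polar Q (c • a) w = 0
    rw [hQ.polar_bilinear.smul_left, ha', mul_zero]

theorem mem_perp (hQ : IsNondegenerateQuadraticForm Q) {v w : ι → F} : v ∈ perp hQ w ↔ polar Q v w = 0 := Iff.rfl

theorem finrank_inf_perp (hQ : IsNondegenerateQuadraticForm Q) (A : Submodule F (ι → F)) (w : ι → F) :
    Module.finrank F A ≤ Module.finrank F (A ⊓ perp hQ w : Submodule F (ι → F)) + 1 := by
  let L : (ι → F) →ₗ[F] F :=
    { toFun := fun x => polar Q x w
      map_add' := fun a b => hQ.polar_bilinear.add_left a b w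
      map_smul' := fun c a => hQ.polar_bilinear.smul_left c a w }
  have hker : LinearMap.ker L = perp hQ w := by
    ext v; exact Iff.rfl
  have h1 := L.finrank_range_add_finrank_ker
  have h2 : Module.finrank F (LinearMap.range L) ≤ 1 := by
    have := Submodule.finrank_le (LinearMap.range L)
    simpa using this
  have h3 := Submodule.finrank_sup_add_finrank_inf_eq A (perp hQ w)
  have h4 := Submodule.finrank_le (A ⊔ perp hQ w)
  rw [hker] at h1
  omega

/-- totally isotropic subspaces have dimension at most n/2 -/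
theorem ti_bound (hQ : IsNondegenerateQuadraticForm Q) {X : Submodule F (ι → F)}
    (hX : ∀ x ∈ X, ∀ y ∈ X, polar Q x y = 0) : 2 * Module.finrank F X ≤ Fintype.card ι := by
  let L : (ι → F) →ₗ[F] ((ι → F) →ₗ[F] F) :=
    { toFun := fun w =>
        { toFun := fun x => polar Q x w
          map_add' := fun a b => hQ.polar_bilinear.add_left a b w
          map_smul' := fun c a => hQ.polar_bilinear.smul_left c a w }
      map_add' := fun a b => LinearMap.ext fun x => hQ.polar_bilinear.add_right x a b
      map_smul' := fun c a => LinearMap.ext fun x => hQ.polar_bilinear.smul_right c x a }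
  let φ : X →ₗ[F] Module.Dual F ((ι → F) ⧸ X) :=
    { toFun := fun x => X.liftQ (L x) (fun y hy => hX y hy x x.2)
      map_add' := fun a b => by
        apply LinearMap.ext
        intro v
        obtain ⟨v, rfl⟩ := X.mkQ_surjective v
        exact hQ.polar_bilinear.add_right v a b
      map_smul' := fun c a => by
        apply LinearMap.ext
        intro v
        obtain ⟨v, rfl⟩ := X.mkQ_surjective v
        exact hQ.polar_bilinear.smul_right c v a }
  have hinj : Function.Injective φ := by
    intro x x' h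
    have h1 : ∀ v, polar Q v x = polar Q v x' := fun v => DFunLike.congr_fun h (X.mkQ v)
    have : (x : ι → F) - x' = 0 := by
      apply nd hQ
      intro v
      rw [B_sub_right hQ, h1, sub_self]
    exact Subtype.ext (sub_eq_zero.1 this)
  have hle := LinearMap.finrank_le_finrank_of_injective hinj
  rw [Subspace.dual_finrank_eq] at hle
  have h2 := Submodule.finrank_quotient_add_finrank X
  rw [Module.finrank_fintype_fun_eq_card] at h2
  omega

/-- a subspace of dimension > n/2 contains a non-singular vector -/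
theorem exists_nonsing (hQ : IsNondegenerateQuadraticForm Q) {X : Submodule F (ι → F)}
    (hX : Fintype.card ι < 2 * Module.finrank F X) : ∃ t ∈ X, Q t ≠ 0 := by
  by_contra h
  push Not at h
  have := ti_bound hQ (X := X) (fun x hx y hy => by
    have h1 := h (x + y) (X.add_mem hx hy)
    rw [Q_add (Q := Q), h x hx, h y hy] at h1
    simpa using h1)
  omega

/-- a submodule containing all non-singular vectors of X contains X if X has one -/
theorem le_of_nonsing (hQ : IsNondegenerateQuadraticForm Q) (h2 : (2 : F) ≠ 0) {X S : Submodule F (ι → F)}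
    {e : ι → F} (he : e ∈ X) (hQe : Q e ≠ 0) (hS : ∀ y ∈ X, Q y ≠ 0 → y ∈ S) : X ≤ S := by
  intro x hx
  by_cases hxQ : Q x = 0
  · by_cases h1 : Q (x + e) = 0
    · have h3 : Q (x - e) ≠ 0 := by
        intro h3
        have e1 := Q_add (Q := Q) x e
        have e2 := Q_add (Q := Q) x (-e)
        have e3 : Q (-e) = Q e := by
          have := hQ.smul (-1) e
          simpa using this
        have e4 : polar Q x (-e) = - polar Q x e := by
          have := hQ.polar_bilinear.smul_right (-1) x e
          simpa using this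
        rw [← sub_eq_add_neg, h3, e3, e4, hxQ] at e2
        rw [h1, hxQ] at e1
        have : (2 : F) * Q e = 0 := by linear_combination (-1) * e1 - e2
        exact hQe ((mul_eq_zero.1 this).resolve_left h2)
      have := S.add_mem (hS _ (X.sub_mem hx he) h3) (hS e he hQe)
      rwa [sub_add_cancel] at this
    · have := S.sub_mem (hS _ (X.add_mem hx he) h1) (hS e he hQe)
      rwa [add_sub_cancel_right] at this
  · exact hS x hx hxQ

/-! ### reflections -/

theorem refl_mulVec (hQ : IsNondegenerateQuadraticForm Q) (v x : ι → F) :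
    tm v (-(Q v)⁻¹ • frow (polar Q) v) *ᵥ x = x - (polar Q x v / Q v) • v := by
  rw [(linLeft hQ).tm_frow_mulVec, sub_eq_add_neg, ← neg_smul]
  congr 2
  rw [div_eq_mul_inv]; ring

theorem refl_mul_self (hQ : IsNondegenerateQuadraticForm Q) {v : ι → F} (hv : Q v ≠ 0) :
    tm v (-(Q v)⁻¹ • frow (polar Q) v) * tm v (-(Q v)⁻¹ • frow (polar Q) v) = 1 := by
  apply Matrix.ext_of_mulVec_single
  intro i
  rw [← mulVec_mulVec, refl_mulVec hQ, refl_mulVec hQ, one_mulVec]
  generalize (Pi.single i 1 : ι → F) = x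
  have : polar Q (x - (polar Q x v / Q v) • v) v = - polar Q x v := by
    rw [(linLeft hQ).sub_left, hQ.polar_bilinear.smul_left, B_self hQ]
    field_simp; ring
  rw [this, neg_div, neg_smul, sub_neg_eq_add, sub_add_cancel]

/-- the reflection as an element of GL -/
def rGL (hQ : IsNondegenerateQuadraticForm Q) (v : ι → F) (hv : Q v ≠ 0) : GL ι F where
  val := tm v (-(Q v)⁻¹ • frow (polar Q) v)
  inv := tm v (-(Q v)⁻¹ • frow (polar Q) v)
  val_inv := refl_mul_self hQ hv
  inv_val := refl_mul_self hQ hv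

theorem rGL_val (hQ : IsNondegenerateQuadraticForm Q) (v : ι → F) (hv : Q v ≠ 0) :
    (rGL hQ v hv : Matrix ι ι F) = tm v (-(Q v)⁻¹ • frow (polar Q) v) := rfl

theorem rGL_inv (hQ : IsNondegenerateQuadraticForm Q) (v : ι → F) (hv : Q v ≠ 0) :
    (rGL hQ v hv)⁻¹ = rGL hQ v hv := Units.ext rfl

theorem rGL_mulVec (hQ : IsNondegenerateQuadraticForm Q) (v : ι → F) (hv : Q v ≠ 0) (x : ι → F) :
    (rGL hQ v hv : Matrix ι ι F) *ᵥ x = x - (polar Q x v / Q v) • v := refl_mulVec hQ v x

theorem Q_refl (hQ : IsNondegenerateQuadraticForm Q) (v : ι → F) (hv : Q v ≠ 0) (x : ι → F) :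
    Q ((rGL hQ v hv : Matrix ι ι F) *ᵥ x) = Q x := by
  rw [rGL_mulVec, sub_eq_add_neg, ← neg_smul, Q_add (Q := Q), hQ.smul, hQ.polar_bilinear.smul_right]
  field_simp
  ring

theorem det_tm' (v φ : ι → F) : (tm v φ).det = 1 + φ ⬝ᵥ v := by
  have := Matrix.det_one_add_replicateCol_mul_replicateRow (ι := Unit) v φ
  rw [tm, ← this, vecMulVec_eq Unit]

theorem det_rGL (hQ : IsNondegenerateQuadraticForm Q) (v : ι → F) (hv : Q v ≠ 0) :
    (rGL hQ v hv : Matrix ι ι F).det = -1 := by
  rw [rGL_val, det_tm', smul_dotProduct, (linLeft hQ).frow_dot, B_self hQ, smul_eq_mul]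
  field_simp; ring

/-- the polar form is preserved -/
theorem B_of_Q {g : GL ι F} (hg : ∀ x, Q ((g : Matrix ι ι F) *ᵥ x) = Q x) (x y : ι → F) :
    polar Q ((g : Matrix ι ι F) *ᵥ x) ((g : Matrix ι ι F) *ᵥ y) = polar Q x y := by
  unfold polar
  rw [← mulVec_add, hg, hg, hg]

theorem mul_rGL_mem (hQ : IsNondegenerateQuadraticForm Q) {v w : ι → F} (hv : Q v ≠ 0) (hw : Q w ≠ 0) :
    rGL hQ v hv * rGL hQ w hw ∈ quadSimilarityGroup Q ⊓ specialLinear ι F := by
  constructor
  · refine ⟨1, fun x => ?_⟩
    rw [Units.val_mul, ← mulVec_mulVec, Q_refl hQ, Q_refl hQ, Units.val_one, one_mul]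
  · show _ ∈ specialLinear ι F
    rw [mem_specialLinear_iff, Units.val_mul, Matrix.det_mul, det_rGL, det_rGL]; ring

/-- for b outside the submodule R (small) there is a product h of two reflections fixing R pointwise, with h b - b a
nonzero multiple of a non-singular vector. -/
theorem exists_mover (hQ : IsNondegenerateQuadraticForm Q) (h2 : (2 : F) ≠ 0) {x y a b : ι → F}
    (hn : 9 ≤ Fintype.card ι) (hb : b ∉ Submodule.span F {x, y, a}) :
    ∃ (h : GL ι F) (t : ι → F), h ∈ quadSimilarityGroup Q ⊓ specialLinear ι F ∧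
      (∀ v, Q ((h : Matrix ι ι F) *ᵥ v) = Q v) ∧ (h : Matrix ι ι F) *ᵥ x = x ∧ (h : Matrix ι ι F) *ᵥ y = y ∧
      (h : Matrix ι ι F) *ᵥ a = a ∧ Q t ≠ 0 ∧ ∃ c : F, c ≠ 0 ∧ (h : Matrix ι ι F) *ᵥ b = b + c • t := by
  obtain ⟨φ, hφ1, hφ2⟩ := exists_functional_submodule hb
  obtain ⟨z0, rfl⟩ := exists_frow_eq (linLeft hQ) hQ.polar_bilinear.add_right hQ.polar_bilinear.smul_right (nd hQ) φ
  have e1 : polar Q x z0 = 0 := by
    have := hφ1 x (Submodule.subset_span (by simp)); rwa [(linLeft hQ).frow_dot] at this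
  have e2 : polar Q y z0 = 0 := by
    have := hφ1 y (Submodule.subset_span (by simp)); rwa [(linLeft hQ).frow_dot] at this
  have e3 : polar Q a z0 = 0 := by
    have := hφ1 a (Submodule.subset_span (by simp)); rwa [(linLeft hQ).frow_dot] at this
  have e4 : polar Q b z0 = 1 := by rwa [(linLeft hQ).frow_dot] at hφ2
  -- y' ∈ {x,y,a,b}^⊥ non-singular
  obtain ⟨y', hy', hQy'⟩ : ∃ y' ∈ (perp hQ x ⊓ perp hQ y ⊓ perp hQ a ⊓ perp hQ b : Submodule F (ι → F)), Q y' ≠ 0 := by
    apply exists_nonsing hQ
    have h1 := finrank_inf_perp hQ ⊤ x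
    have h3 := finrank_inf_perp hQ (perp hQ x) y
    have h4 := finrank_inf_perp hQ (perp hQ x ⊓ perp hQ y) a
    have h5 := finrank_inf_perp hQ (perp hQ x ⊓ perp hQ y ⊓ perp hQ a) b
    rw [top_inf_eq, finrank_top, Module.finrank_fintype_fun_eq_card] at h1
    omega
  have f1 : polar Q x y' = 0 := by rw [B_symm]; exact hy'.1.1.1
  have f2 : polar Q y y' = 0 := by rw [B_symm]; exact hy'.1.1.2
  have f3 : polar Q a y' = 0 := by rw [B_symm]; exact hy'.1.2
  have f4 : polar Q b y' = 0 := by rw [B_symm]; exact hy'.2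
  -- t = z0 or z0 ± y'
  obtain ⟨t, ht0, t1, t2, t3, t4⟩ : ∃ t, Q t ≠ 0 ∧ polar Q x t = 0 ∧ polar Q y t = 0 ∧ polar Q a t = 0 ∧
      polar Q b t = 1 := by
    by_cases hz : Q z0 = 0
    · by_cases hz1 : Q (z0 + y') = 0
      · refine ⟨z0 - y', ?_, ?_, ?_, ?_, ?_⟩
        · intro h3
          have e5 := Q_add (Q := Q) z0 y'
          have e6 := Q_add (Q := Q) z0 (-y')
          have e7 : Q (-y') = Q y' := by
            have := hQ.smul (-1) y'
            simpa using this
          have e8 : polar Q z0 (-y') = - polar Q z0 y' := by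
            have := hQ.polar_bilinear.smul_right (-1) z0 y'
            simpa using this
          rw [← sub_eq_add_neg, h3, e7, e8, hz] at e6
          rw [hz1, hz] at e5
          have : (2 : F) * Q y' = 0 := by linear_combination (-1) * e5 - e6
          exact hQy' ((mul_eq_zero.1 this).resolve_left h2)
        all_goals rw [B_sub_right hQ]; simp [e1, e2, e3, e4, f1, f2, f3, f4]
      · refine ⟨z0 + y', hz1, ?_, ?_, ?_, ?_⟩
        all_goals rw [hQ.polar_bilinear.add_right]; simp [e1, e2, e3, e4, f1, f2, f3, f4]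
    · exact ⟨z0, hz, e1, e2, e3, e4⟩
  refine ⟨rGL hQ t ht0 * rGL hQ y' hQy', t, mul_rGL_mem hQ ht0 hQy', ?_, ?_, ?_, ?_, ht0, -(Q t)⁻¹,
    neg_ne_zero.2 (inv_ne_zero ht0), ?_⟩
  · intro v
    rw [Units.val_mul, ← mulVec_mulVec, Q_refl hQ, Q_refl hQ]
  · rw [Units.val_mul, ← mulVec_mulVec, rGL_mulVec, rGL_mulVec, f1, zero_div, zero_smul, sub_zero, t1, zero_div,
      zero_smul, sub_zero]
  · rw [Units.val_mul, ← mulVec_mulVec, rGL_mulVec, rGL_mulVec, f2, zero_div, zero_smul, sub_zero, t2, zero_div,
      zero_smul, sub_zero]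
  · rw [Units.val_mul, ← mulVec_mulVec, rGL_mulVec, rGL_mulVec, f3, zero_div, zero_smul, sub_zero, t3, zero_div,
      zero_smul, sub_zero]
  · rw [Units.val_mul, ← mulVec_mulVec, rGL_mulVec, rGL_mulVec, f4, zero_div, zero_smul, sub_zero, t4, one_div,
      sub_eq_add_neg, ← neg_smul]

end H94.QuadForm
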