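import Mathlib
import Cfsg.Agent.Lib.H35.StemPerf

/-!
# Covers from permutations when the certificates use central letters; a generation criterion
-/

set_option autoImplicit false

namespace H94.StemE

open H35.Stem

open Subgroup H35.TC H35.Net

section

variable {X P G : Type} [Group P] [Group G]

/-- the letters of the generated group of pairs -/
def fE (p : X → P) (g : X → G) (S : X → Bool) (hS : ∀ x, S x = true) (x : X) : EE p g S :=
  ⟨pr p g x, mem_Kl (f := pr p g) (hS x)⟩

theorem coe_ev_fE (p : X → P) (g : X → G) (S : X → Bool) (hS : ∀ x, S x = true) (w : W X) :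
    ((ev (fE p g S hS) w : EE p g S) : P × G) = (ev p w, ev g w) := by
  have h1 : (EE p g S).subtype (ev (fE p g S hS) w) = ev (pr p g) w := ev_hom (EE p g S).subtype (fE p g S hS) w
  rw [← ev_pr]
  exact h1

theorem Kl_fE_top (p : X → P) (g : X → G) (S : X → Bool) (hS : ∀ x, S x = true) : Kl (fE p g S hS) S = ⊤ := by
  rw [eq_top_iff]
  rintro ⟨y, hy⟩ -
  have h1 : EE p g S ≤ (Kl (fE p g S hS) S).map (EE p g S).subtype := by
    rw [map_Kl]
    exact le_refl _
  obtain ⟨z, hz, hzy⟩ := h1 hy
  have : z = ⟨y, hy⟩ := Subtype.ext hzy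
  rw [← this]
  exact hz

theorem card_Kl_fE (p : X → P) (g : X → G) (S : X → Bool) (hS : ∀ x, S x = true) :
    Nat.card (Kl (fE p g S hS) S) = Nat.card (EE p g S) := by
  rw [Kl_fE_top, Nat.card_congr (Subgroup.topEquiv (G := EE p g S)).toEquiv]

/-- the central presentation of a level holds for pairs -/
theorem holdsE [DecidableEq X] {L : Type} [DecidableEq L] {C : CP X L} {n : X → ℕ} {p : X → P} {g : X → G}
    {S : X → Bool} (hS : ∀ x, S x = true) {rules : List (Rule X)}
    (hiv : ∀ x, C.iv x = true → p x * p x = 1 ∧ g x * g x = 1)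
    (hex : C.exact = rules.map fun r => red C.iv (r.word n))
    (ht : ∀ r ∈ rules, ev p (r.word n) = 1 ∧ ev g (r.word n) = 1)
    (hz : ∀ z, C.cen z = true → ev g (C.wd z) = 1 ∧ (∀ x, p x * ev p (C.wd z) = ev p (C.wd z) * p x) ∧
      (ev p (C.wd z)) ^ C.q = 1) : C.Holds (fE p g S hS) := by
  have hv : ∀ x, C.iv x = true → fE p g S hS x * fE p g S hS x = 1 := by
    intro x hx
    apply Subtype.ext
    exact Prod.ext (hiv x hx).1 (hiv x hx).2
  refine ⟨hv, ?_, ?_, ?_⟩
  · intro z hz1 y
    obtain ⟨h1, h2, h3⟩ := hz z hz1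
    have h4 : EE p g S ≤ centralizer {((ev p (C.wd z), 1) : P × G)} := by
      rw [EE, Kl, closure_le]
      rintro _ ⟨x, _, rfl⟩
      rw [SetLike.mem_coe, mem_centralizer_singleton_iff]
      apply Prod.ext
      · exact h2 x
      · change g x * 1 = 1 * g x
        rw [mul_one, one_mul]
    have h5 := mem_centralizer_singleton_iff.1 (h4 y.2)
    apply Subtype.ext
    change ((ev (fE p g S hS) (C.wd z) : EE p g S) : P × G) * (y : P × G) =
      (y : P × G) * ((ev (fE p g S hS) (C.wd z) : EE p g S) : P × G)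
    rw [coe_ev_fE, h1]
    exact h5.symm
  · intro z hz1
    obtain ⟨h1, h2, h3⟩ := hz z hz1
    apply Subtype.ext
    change ((ev (fE p g S hS) (C.wd z) : EE p g S) : P × G) ^ C.q = 1
    rw [coe_ev_fE, h1]
    exact Prod.ext h3 (one_pow _)
  · intro w hw
    rw [hex, List.mem_map] at hw
    obtain ⟨r, hr, rfl⟩ := hw
    rw [ev_red hv]
    apply Subtype.ext
    rw [coe_ev_fE, (ht r hr).1, (ht r hr).2]
    rfl

end

/-- a subgroup that contains a subgroup `M` fixing a point and moves this point to many points is everything -/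
theorem eq_top_of_orbit {G : Type*} [Group G] [Finite G] {α : Type*} [MulAction G α] (H M : Subgroup G) (a : α)
    (hM : M ≤ H) (hMa : M ≤ MulAction.stabilizer G a) (s : Finset α) (hs : ∀ x ∈ s, ∃ h ∈ H, h • a = x)
    (hc : Nat.card G < 2 * (s.card * Nat.card M)) : H = ⊤ := by
  have h1 : s.card ≤ (MulAction.orbit H a).ncard := by
    have hfin : (MulAction.orbit H a).Finite := Set.finite_range _
    rw [← Set.ncard_coe_finset]
    apply Set.ncard_le_ncard _ hfin
    intro x hx
    obtain ⟨h, hh, hx⟩ := hs x hx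
    exact ⟨⟨h, hh⟩, hx⟩
  have h2 : Nat.card M ≤ Nat.card (MulAction.stabilizer H a) := by
    let f : M → MulAction.stabilizer H a := fun m => ⟨⟨m.1, hM m.2⟩, hMa m.2⟩
    refine Nat.card_le_card_of_injective f ?_
    intro m m' h
    have h3 : ((f m).1 : G) = ((f m').1 : G) := by rw [h]
    exact Subtype.ext h3
  have h3 := Subgroup.card_mul_index (MulAction.stabilizer H a)
  rw [MulAction.index_stabilizer] at h3
  have h4 : s.card * Nat.card M ≤ Nat.card H := by
    rw [← h3, Nat.mul_comm]
    exact Nat.mul_le_mul h2 h1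
  have h5 := Subgroup.card_mul_index H
  have h6 : H.index < 2 := by
    by_contra hcon
    have h7 : 2 ≤ H.index := by omega
    have h8 : Nat.card H * 2 ≤ Nat.card G := by
      rw [← h5]
      exact Nat.mul_le_mul_left _ h7
    have h9 : 2 * (s.card * Nat.card M) ≤ Nat.card G :=
      (Nat.mul_le_mul_left 2 h4).trans (by rw [Nat.mul_comm]; exact h8)
    omega
  have h7 : H.index ≠ 0 := Subgroup.index_ne_zero_of_finite
  have h8 : H.index = 1 := by omega
  exact Subgroup.index_eq_one.1 h8

end H94.StemE
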