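import Cfsg.Agent.Lib.H94.SubfieldOver

/-!
Maximality in SL_n(F) of the subfield groups.
-/

set_option autoImplicit false
set_option linter.unusedSectionVars false

namespace H94.SubfieldMax

open Matrix Cfsg.Geo H94.Transv H94.FormRow H94.SubfieldOver
open scoped MatrixGroups

variable {ι : Type} [Fintype ι] [DecidableEq ι] {F : Type*} [Field F]

theorem conj_maximal {G : Type*} [Group G] (e : G ≃* G) {K H : Subgroup G} (h : IsMaximalIn K H) :
    IsMaximalIn (K.map e.toMonoidHom) (H.map e.toMonoidHom) := by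
  have hinj : Function.Injective e.toMonoidHom := e.injective
  refine ⟨(Subgroup.map_lt_map_iff_of_injective hinj).2 h.1, fun M h1 h2 => ?_⟩
  have h3 : H ≤ M.comap e.toMonoidHom := Subgroup.map_le_iff_le_comap.1 h1
  have h4 : M.comap e.toMonoidHom ≤ K := by
    have h5 := Subgroup.comap_mono (f := e.toMonoidHom) h2
    rwa [Subgroup.comap_map_eq_self_of_injective hinj] at h5
  have h5 : (M.comap e.toMonoidHom).map e.toMonoidHom = M := Subgroup.map_comap_eq_self_of_surjective e.surjective M
  rcases h.2 _ h3 h4 with h6 | h6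
  · left; rw [← h6, h5]
  · right; rw [← h6, h5]

theorem map_conj_specialLinear (P : GL ι F) :
    (specialLinear ι F).map (MulAut.conj P).toMonoidHom = specialLinear ι F := by
  have : (specialLinear ι F).Normal := MonoidHom.normal_ker _
  ext g
  constructor
  · rintro ⟨x, hx, rfl⟩
    exact this.conj_mem x hx P
  · intro hg
    refine ⟨P⁻¹ * g * P, ?_, ?_⟩
    · have := this.conj_mem g hg P⁻¹
      rwa [inv_inv] at this
    · show P * (P⁻¹ * g * P) * P⁻¹ = g
      group

/-- the standard subfield group -/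
def std (F₀ : Subfield F) (ι : Type) [Fintype ι] [DecidableEq ι] : Subgroup (GL ι F) :=
  (Matrix.GeneralLinearGroup.map (n := ι) (F₀.subtype : F₀ →+* F)).range ⊔ scalars ι F

theorem mem_std {F₀ : Subfield F} {g : GL ι F} (hg : g ∈ std F₀ ι) :
    ∃ (c : Fˣ) (g₀ : Matrix ι ι F₀), (g : Matrix ι ι F) = (c : F) • g₀.map F₀.subtype := by
  have hn : (scalars ι F).Normal := inferInstance
  rw [std, Subgroup.mem_sup_of_normal_right] at hg
  obtain ⟨_, ⟨y, rfl⟩, z, hz, rfl⟩ := hg
  obtain ⟨c, hc⟩ := (mem_scalars_iff z).1 hz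
  refine ⟨c, y, ?_⟩
  rw [Units.val_mul, hc, Matrix.mul_smul, Matrix.mul_one]
  rfl

theorem mem_std_of {F₀ : Subfield F} {g : GL ι F} {c : F} {g₀ : Matrix ι ι F₀} (hc : c ≠ 0)
    (h : (g : Matrix ι ι F) = c • g₀.map F₀.subtype) : g ∈ std F₀ ι := by
  have hdet : g₀.det ≠ 0 := by
    intro h0
    have h1 : (g : Matrix ι ι F).det ≠ 0 := by
      have := (Matrix.isUnit_iff_isUnit_det _).1 g.isUnit
      exact this.ne_zero
    apply h1
    rw [h, Matrix.det_smul]
    have : (g₀.map F₀.subtype).det = F₀.subtype g₀.det := (RingHom.map_det F₀.subtype g₀).symm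
    rw [this, h0, map_zero, mul_zero]
  set y : GL ι F₀ := Matrix.GeneralLinearGroup.mkOfDetNeZero g₀ hdet with hy
  have hz : (Units.map (Matrix.scalar ι : F →+* Matrix ι ι F).toMonoidHom (Units.mk0 c hc)) ∈ scalars ι F :=
    ⟨_, rfl⟩
  have : g = Matrix.GeneralLinearGroup.map (F₀.subtype : F₀ →+* F) y *
      (Units.map (Matrix.scalar ι : F →+* Matrix ι ι F).toMonoidHom (Units.mk0 c hc)) := by
    apply Units.ext
    rw [h, Units.val_mul]
    ext i j
    simp [hy, Matrix.GeneralLinearGroup.mkOfDetNeZero, Matrix.mul_apply, Matrix.diagonal_apply, mul_comm]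
  rw [this, std]
  exact Subgroup.mul_mem_sup ⟨y, rfl⟩ hz

theorem std_maximal [Finite F] (F₀ : Subfield F) {r : ℕ} (hr : r.Prime) (hcard : Nat.card F = Nat.card F₀ ^ r)
    (hn : 5 ≤ Fintype.card ι) : IsMaximalIn (specialLinear ι F) (std F₀ ι ⊓ specialLinear ι F) := by
  have hq : 1 < Nat.card F₀ := Finite.one_lt_card
  have hfin : Module.finrank F₀ F = r := by
    have h1 := Module.natCard_eq_pow_finrank (K := F₀) (V := F)
    rw [hcard] at h1
    exact (Nat.pow_right_injective hq h1).symm
  refine ⟨lt_of_le_of_ne inf_le_right fun h => ?_, fun M h1 h2 => ?_⟩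
  · -- strictness
    obtain ⟨c, hc⟩ : ∃ c : F, c ∉ F₀ := by
      by_contra hcon
      push Not at hcon
      have h3 : F₀ = ⊤ := by
        ext x; exact ⟨fun _ => trivial, fun _ => hcon x⟩
      have h4 : Nat.card F₀ = Nat.card F := by
        rw [h3]; exact Nat.card_congr Subfield.topEquiv.toEquiv
      rw [hcard] at h4
      have h5 : Nat.card F₀ ^ 1 = Nat.card F₀ ^ r := by rw [pow_one]; exact h4
      have := Nat.pow_right_injective hq h5
      exact hr.one_lt.ne this
    obtain ⟨i, j, hij⟩ := Fintype.exists_pair_of_one_lt_card (α := ι) (by omega)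
    have hT : (Pi.single j (1 : F) : ι → F) ⬝ᵥ Pi.single i c = 0 := by simp [hij]
    have hm : tGL _ _ hT ∈ std F₀ ι ⊓ specialLinear ι F := by
      rw [h]; exact tGL_mem_specialLinear _ _ _
    obtain ⟨d, g₀, hd⟩ := mem_std hm.1
    have e1 := congrFun (congrFun hd i) i
    have e2 := congrFun (congrFun hd i) j
    rw [tGL_val, tm] at e1 e2
    simp [vecMulVec_apply, hij, Matrix.one_apply_ne hij] at e1 e2
    apply hc
    rw [e2]
    have h6 : (d : F) = ((g₀ i i : F₀) : F)⁻¹ := by
      exact eq_inv_of_mul_eq_one_left e1.symm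
    rw [h6]
    exact F₀.mul_mem (F₀.inv_mem (g₀ i i).2) (g₀ i j).2
  · have hM : HasR M F₀ := by
      intro v φ h
      refine HasT.mk (up_dot_zero h) (h1 ⟨?_, tGL_mem_specialLinear _ _ _⟩)
      refine mem_std_of (c := 1) (g₀ := tm v φ) one_ne_zero ?_
      rw [one_smul, tGL_val]
      ext i j
      simp only [tm, Matrix.add_apply, vecMulVec_apply, Matrix.map_apply, map_add, map_mul]
      by_cases hij : i = j
      · subst hij; simp [up]; rfl
      · simp [Matrix.one_apply_ne hij, up]; rfl
    let A : Subalgebra F₀ F :=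
      { carrier := Aset M F₀
        mul_mem' := fun ha hb => Aset_mul hn ha hb
        add_mem' := fun {a b} ha hb v φ h => by
          rw [add_smul]; exact (ha v φ h).add_right (hb v φ h)
        algebraMap_mem' := fun k => Aset_base hM k }
    have hsimple : IsSimpleOrder (Subalgebra F₀ F) := Subalgebra.isSimpleOrder_of_finrank_prime F₀ F (hfin ▸ hr)
    rcases eq_bot_or_eq_top A with hA | hA
    · left
      refine le_antisymm (fun g hg => ⟨?_, h2 hg⟩) h1
      obtain ⟨c, g₀, hc, hcg⟩ := eq_smul_map hn hM (by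
        intro c hc
        have h3 : c ∈ A := hc
        rw [hA] at h3
        obtain ⟨k, hk⟩ := Algebra.mem_bot.1 h3
        exact ⟨k, hk⟩) hg
      exact mem_std_of hc hcg
    · right
      refine le_antisymm h2 (specialLinear_le_of_Aset (K := F₀) ?_)
      intro c
      have h3 : c ∈ A := by rw [hA]; trivial
      exact h3

theorem maximal [Finite F] (F₀ : Subfield F) {r : ℕ} (hr : r.Prime) (hcard : Nat.card F = Nat.card F₀ ^ r)
    (hn : 5 ≤ Fintype.card ι) (P : GL ι F) :
    IsMaximalIn (specialLinear ι F) (subfieldSubgroup F₀ P ⊓ specialLinear ι F) := by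
  have h := conj_maximal (MulAut.conj P) (std_maximal (ι := ι) F₀ hr hcard hn)
  rw [map_conj_specialLinear, Subgroup.map_inf _ _ _ (MulAut.conj P).injective, map_conj_specialLinear] at h
  exact h

end H94.SubfieldMax
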