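import Cfsg.Agent.Lib.H94.Gleason

/-!
Overgroups of SL_n(K) in GL_n(F), K ≤ F finite fields: a subgroup M containing the K-rational transvections and no
transvection T(v, cφ) with v, φ rational, c ∉ K, lies in F^* GL_n(K).
-/

set_option autoImplicit false
set_option linter.unusedSectionVars false

namespace H94.SubfieldOver

open Matrix Cfsg.Geo H94.Transv H94.FormRow H94.Stab H94.Gleason
open scoped MatrixGroups

variable {ι : Type} [Fintype ι] [DecidableEq ι] {K F : Type*} [Field K] [Field F] [Algebra K F]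

/-- rational vectors -/
def up (F : Type*) [Field F] [Algebra K F] (v : ι → K) : ι → F := algebraMap K F ∘ v

theorem up_dot (φ v : ι → K) : up F φ ⬝ᵥ up F v = algebraMap K F (φ ⬝ᵥ v) :=
  (RingHom.map_dotProduct (algebraMap K F) φ v).symm

theorem up_dot_zero {φ v : ι → K} (h : φ ⬝ᵥ v = 0) : up F φ ⬝ᵥ up F v = 0 := by
  rw [up_dot, h, map_zero]

theorem up_add (v w : ι → K) : up F (v + w) = up F v + up F w := by
  ext i; simp [up]

theorem up_smul (c : K) (v : ι → K) : up F (c • v) = algebraMap K F c • up F v := by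
  ext i; simp [up]

theorem up_zero : up F (0 : ι → K) = 0 := by
  ext i; simp [up]

theorem up_injective : Function.Injective (up F : (ι → K) → (ι → F)) := by
  intro v w h
  ext i
  exact (algebraMap K F).injective (congrFun h i)

theorem up_single (i : ι) (c : K) : up F (Pi.single i c) = Pi.single i (algebraMap K F c) := by
  ext j
  by_cases h : j = i
  · subst h; simp [up]
  · simp [up, Pi.single_eq_of_ne h]

theorem up_ne_zero {v : ι → K} (h : v ≠ 0) : up F v ≠ 0 := by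
  intro h'
  apply h
  apply up_injective (F := F)
  rw [h', up_zero]

/-! ### existence of vectors by dimension -/

/-- {φ | φ · v = 0} -/
def ann (v : ι → K) : Submodule K (ι → K) where
  carrier := {φ | φ ⬝ᵥ v = 0}
  add_mem' {a b} ha hb := by
    have ha' : a ⬝ᵥ v = 0 := ha
    have hb' : b ⬝ᵥ v = 0 := hb
    show (a + b) ⬝ᵥ v = 0
    rw [add_dotProduct, ha', hb', add_zero]
  zero_mem' := zero_dotProduct v
  smul_mem' c a ha := by
    have ha' : a ⬝ᵥ v = 0 := ha
    show (c • a) ⬝ᵥ v = 0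
    rw [smul_dotProduct, ha', smul_zero]

theorem finrank_inf_ann (A : Submodule K (ι → K)) (w : ι → K) :
    Module.finrank K A ≤ Module.finrank K (A ⊓ ann w : Submodule K (ι → K)) + 1 := by
  let L : (ι → K) →ₗ[K] K :=
    { toFun := fun x => x ⬝ᵥ w
      map_add' := fun a b => add_dotProduct a b w
      map_smul' := fun c a => smul_dotProduct c a w }
  have hker : LinearMap.ker L = ann w := by
    ext v; exact Iff.rfl
  have h1 := L.finrank_range_add_finrank_ker
  have h2 : Module.finrank K (LinearMap.range L) ≤ 1 := by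
    have := Submodule.finrank_le (LinearMap.range L)
    simpa using this
  have h3 := Submodule.finrank_sup_add_finrank_inf_eq A (ann w)
  have h4 := Submodule.finrank_le (A ⊔ ann w)
  rw [hker] at h1
  omega

theorem finrank_span_pair_le (a b : ι → K) : Module.finrank K (Submodule.span K {a, b}) ≤ 2 := by
  classical
  have := finrank_span_finset_le_card (R := K) ({a, b} : Finset (ι → K))
  have h2 : ({a, b} : Finset (ι → K)).card ≤ 2 := Finset.card_le_two
  have h3 : ((({a, b} : Finset (ι → K)) : Set (ι → K))) = {a, b} := by simp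
  rw [h3] at this
  exact this.trans h2

/-- φ killing v₁, v₂ and outside span{a, b}, n ≥ 5 -/
theorem exists_ann (hn : 5 ≤ Fintype.card ι) (v₁ v₂ a b : ι → K) :
    ∃ φ, φ ⬝ᵥ v₁ = 0 ∧ φ ⬝ᵥ v₂ = 0 ∧ φ ∉ Submodule.span K {a, b} := by
  by_contra hcon
  push Not at hcon
  have h1 : (⊤ ⊓ ann v₁ ⊓ ann v₂ : Submodule K (ι → K)) ≤ Submodule.span K {a, b} := fun φ hφ =>
    hcon φ hφ.1.2 hφ.2
  have h2 := Submodule.finrank_mono h1
  have h3 := finrank_inf_ann (⊤ : Submodule K (ι → K)) v₁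
  have h4 := finrank_inf_ann (⊤ ⊓ ann v₁ : Submodule K (ι → K)) v₂
  have h5 := finrank_span_pair_le a b
  rw [finrank_top, Module.finrank_fintype_fun_eq_card] at h3
  omega

theorem not_mem_span_swap {a b : ι → K} (h : a ∉ Submodule.span K {b}) (hb : b ≠ 0) :
    b ∉ Submodule.span K {a} := by
  intro hm
  obtain ⟨c, rfl⟩ := Submodule.mem_span_singleton.1 hm
  have hc : c ≠ 0 := by rintro rfl; simp at hb
  apply h
  refine Submodule.mem_span_singleton.2 ⟨c⁻¹, ?_⟩
  rw [smul_smul, inv_mul_cancel₀ hc, one_smul]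

theorem not_mem_left {a x y : ι → K} (h : a ∉ Submodule.span K {x, y}) : a ∉ Submodule.span K {x} := fun h' =>
  h (Submodule.span_mono (by simp) h')

theorem not_mem_right {a x y : ι → K} (h : a ∉ Submodule.span K {x, y}) : a ∉ Submodule.span K {y} := fun h' =>
  h (Submodule.span_mono (by simp) h')

/-! ### the coefficient set -/

variable {M : Subgroup (GL ι F)}

/-- M contains the K-rational transvections -/
def HasR (M : Subgroup (GL ι F)) (K : Type*) [Field K] [Algebra K F] : Prop :=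
  ∀ v φ : ι → K, φ ⬝ᵥ v = 0 → HasT M (up F v) (up F φ)

/-- coefficient set -/
def Aset (M : Subgroup (GL ι F)) (K : Type*) [Field K] [Algebra K F] : Set F :=
  {c | ∀ v φ : ι → K, φ ⬝ᵥ v = 0 → HasT M (up F v) (c • up F φ)}

theorem step_v (hM : HasR M K) {v v' φ : ι → K} {c : F} (h : HasT M (up F v) (c • up F φ))
    (hφv' : φ ⬝ᵥ v' = 0) (hvv' : v ∉ Submodule.span K {v'}) : HasT M (up F v') (c • up F φ) := by
  obtain ⟨φ'', h1, h2⟩ := exists_functional hvv'
  have h3 := (hM v' φ'' h1).comm_left h (by rw [smul_dotProduct, up_dot_zero hφv', smul_zero])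
  rwa [up_dot, h2, map_one, one_smul] at h3

theorem step_φ (hM : HasR M K) {v φ φ' : ι → K} {c : F} (h : HasT M (up F v) (c • up F φ))
    (hφ'v : φ' ⬝ᵥ v = 0) (hφφ' : φ ∉ Submodule.span K {φ'}) : HasT M (up F v) (c • up F φ') := by
  obtain ⟨x, h1, h2⟩ := exists_functional hφφ'
  rw [dotProduct_comm] at h1 h2
  have h3 := (hM x φ' h1).comm_right h (up_dot_zero hφ'v)
  rwa [smul_dotProduct, up_dot, h2, map_one, smul_eq_mul, mul_one] at h3

theorem Aset_of_one (hn : 5 ≤ Fintype.card ι) (hM : HasR M K) {v φ : ι → K} {c : F} (hv : v ≠ 0) (hφ : φ ≠ 0)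
    (h : HasT M (up F v) (c • up F φ)) : c ∈ Aset M K := by
  intro v' φ' h'
  by_cases hv' : v' = 0
  · rw [hv', up_zero]; exact HasT.zero_left _
  by_cases hφ' : φ' = 0
  · rw [hφ', up_zero, smul_zero]; exact HasT.zero_right _
  obtain ⟨ψ, h1, h2, h3⟩ := exists_ann hn v v' φ φ'
  obtain ⟨x, h4, -, h5⟩ := exists_ann hn ψ ψ v v'
  have s1 := step_φ hM h h1 (not_mem_span_swap (not_mem_left h3) hφ)
  have s2 := step_v hM s1 (by rw [dotProduct_comm]; exact h4) (not_mem_span_swap (not_mem_left h5) hv)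
  have s3 := step_v hM s2 h2 (not_mem_right h5)
  exact step_φ hM s3 h' (not_mem_right h3)

theorem Aset_mul (hn : 5 ≤ Fintype.card ι) {a b : F} (ha : a ∈ Aset M K) (hb : b ∈ Aset M K) :
    a * b ∈ Aset M K := by
  intro v φ h
  by_cases ha0 : a = 0
  · rw [ha0, zero_mul, zero_smul]; exact HasT.zero_right _
  by_cases hφ0 : φ = 0
  · rw [hφ0, up_zero, smul_zero]; exact HasT.zero_right _
  obtain ⟨φ', h1, -, h2⟩ := exists_ann hn v v φ φ
  obtain ⟨v', h3, h4⟩ := exists_functional (not_mem_left h2)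
  rw [dotProduct_comm] at h3 h4
  have h5 := (ha v φ' h1).comm_left (hb v' φ h3) (by rw [smul_dotProduct, up_dot_zero h, smul_zero])
  rw [smul_dotProduct, up_dot, h4, map_one, smul_eq_mul, mul_one, hasT_smul_iff ha0, smul_smul] at h5
  exact h5

theorem Aset_base (hM : HasR M K) (k : K) : algebraMap K F k ∈ Aset M K := by
  intro v φ h
  have := hM v (k • φ) (by rw [smul_dotProduct, h, smul_zero])
  rwa [up_smul] at this

/-- If the coefficient set is everything then SL ≤ M. -/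
theorem specialLinear_le_of_Aset (h : ∀ c : F, c ∈ Aset M K) : specialLinear ι F ≤ M := by
  apply specialLinear_le_of_elementary
  intro i j c hij
  by_cases hc : c = 0
  · rw [hc, Pi.single_zero]; exact HasT.zero_left _
  have h1 := h c (Pi.single i (1 : K)) (Pi.single j 1) (by simp [hij.symm])
  rw [← hasT_smul_iff hc, up_single, up_single, map_one] at h1
  convert h1 using 1
  ext k
  by_cases hk : k = i
  · subst hk; simp
  · simp [Pi.single_eq_of_ne hk]

/-! ### the rigid case -/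

/-- functionals of transvections with rational centre are rational -/
theorem rational_functional (hn : 5 ≤ Fintype.card ι) (hM : HasR M K)
    (hA : ∀ c ∈ Aset M K, ∃ k : K, algebraMap K F k = c) {v : ι → K} (hv : v ≠ 0) {φ : ι → F}
    (h : HasT M (up F v) φ) : ∃ φ₀ : ι → K, φ = up F φ₀ := by
  have key : ∀ i, ∃ k : K, algebraMap K F k = φ i := by
    intro i
    have e1 : φ ⬝ᵥ up F (Pi.single i (1 : K)) = φ i := by
      rw [up_single, map_one, dotProduct_single, mul_one]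
    by_cases hi : (Pi.single i (1 : K) : ι → K) ∈ Submodule.span K {v}
    · obtain ⟨k, hk⟩ := Submodule.mem_span_singleton.1 hi
      refine ⟨0, ?_⟩
      rw [← e1, ← hk, up_smul, dotProduct_smul, h.1, smul_zero, map_zero]
    · obtain ⟨φ₁, h1, h2, h3⟩ := exists_ann hn v (Pi.single i (1 : K)) 0 0
      have hφ₁ : φ₁ ≠ 0 := by
        rintro rfl; exact h3 (Submodule.zero_mem _)
      have h4 := (hM _ φ₁ h2).comm_right h (up_dot_zero h1)
      rw [e1] at h4
      exact hA _ (Aset_of_one hn hM hv hφ₁ h4)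
  choose φ₀ hφ₀ using key
  exact ⟨φ₀, by ext i; exact (hφ₀ i).symm⟩

theorem comb_of_vanish {v w φ ψ θ : ι → F} (hφv : φ ⬝ᵥ v = 0) (hψw : ψ ⬝ᵥ w = 0) (hφ : φ ⬝ᵥ w ≠ 0)
    (hψ : ψ ⬝ᵥ v ≠ 0) (hθ : ∀ u, φ ⬝ᵥ u = 0 → ψ ⬝ᵥ u = 0 → θ ⬝ᵥ u = 0) :
    ∃ s t : F, θ = s • φ + t • ψ := by
  refine ⟨θ ⬝ᵥ w / φ ⬝ᵥ w, θ ⬝ᵥ v / ψ ⬝ᵥ v, ?_⟩
  apply frow_ext
  intro u
  have h := hθ (u - (φ ⬝ᵥ u / φ ⬝ᵥ w) • w - (ψ ⬝ᵥ u / ψ ⬝ᵥ v) • v)
    (by rw [dotProduct_sub, dotProduct_sub, dotProduct_smul, dotProduct_smul, hφv, smul_eq_mul, div_mul_cancel₀ _ hφ]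
        simp)
    (by rw [dotProduct_sub, dotProduct_sub, dotProduct_smul, dotProduct_smul, hψw, smul_eq_mul, smul_eq_mul,
          div_mul_cancel₀ _ hψ]
        simp)
  rw [dotProduct_sub, dotProduct_sub, dotProduct_smul, dotProduct_smul, smul_eq_mul, smul_eq_mul] at h
  rw [add_dotProduct, smul_dotProduct, smul_dotProduct, smul_eq_mul, smul_eq_mul]
  field_simp
  field_simp at h
  linear_combination h

/-- Main claim: for w in the M-orbit of a rational vector, ratios of rational functionals killing a rational vector v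
lie in K. -/
theorem ratio_mem [Finite F] (hn : 5 ≤ Fintype.card ι) (hM : HasR M K)
    (hA : ∀ c ∈ Aset M K, ∃ k : K, algebraMap K F k = c) {g : GL ι F} (hg : g ∈ M) {v₀ v φ₁ φ₃ : ι → K}
    (hv₀ : v₀ ≠ 0) (hv : v ≠ 0) (h1 : φ₁ ⬝ᵥ v = 0) (h3 : φ₃ ⬝ᵥ v = 0)
    (ha1 : up F φ₁ ⬝ᵥ ((g : Matrix ι ι F) *ᵥ up F v₀) ≠ 0) :
    ∃ k : K, up F φ₃ ⬝ᵥ ((g : Matrix ι ι F) *ᵥ up F v₀) =
      algebraMap K F k * (up F φ₁ ⬝ᵥ ((g : Matrix ι ι F) *ᵥ up F v₀)) := by
  set w := (g : Matrix ι ι F) *ᵥ up F v₀ with hw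
  by_cases hdep : φ₃ ∈ Submodule.span K {φ₁}
  · obtain ⟨k, rfl⟩ := Submodule.mem_span_singleton.1 hdep
    exact ⟨k, by rw [up_smul, smul_dotProduct, smul_eq_mul]⟩
  have hφ₁0 : φ₁ ≠ 0 := by
    rintro rfl; rw [up_zero, zero_dotProduct] at ha1; exact ha1 rfl
  -- ψ
  obtain ⟨ψ, hψT, hψv⟩ : ∃ ψ, HasT M w ψ ∧ ψ ⬝ᵥ up F v ≠ 0 := by
    by_contra hcon
    push Not at hcon
    have hall : ∀ ψ₀ : ι → K, ψ₀ ⬝ᵥ v₀ = 0 → up F ψ₀ ⬝ᵥ (((g⁻¹ : GL ι F) : Matrix ι ι F) *ᵥ up F v) = 0 := by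
      intro ψ₀ h0
      have h4 := hcon _ ((hM v₀ ψ₀ h0).conj hg)
      rwa [← dotProduct_mulVec] at h4
    set y := ((g⁻¹ : GL ι F) : Matrix ι ι F) *ᵥ up F v with hy
    obtain ⟨j, hj⟩ := Function.ne_iff.1 hv₀
    rw [Pi.zero_apply] at hj
    have hyi : ∀ i, algebraMap K F (v₀ j) * y i = algebraMap K F (v₀ i) * y j := by
      intro i
      have h4 := hall (v₀ j • Pi.single i 1 - v₀ i • Pi.single j 1) (by
        rw [sub_dotProduct, smul_dotProduct, smul_dotProduct, single_one_dotProduct, single_one_dotProduct,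
          smul_eq_mul, smul_eq_mul, mul_comm, sub_self])
      have e : up F (v₀ j • Pi.single i 1 - v₀ i • Pi.single j 1 : ι → K) =
          algebraMap K F (v₀ j) • Pi.single i 1 - algebraMap K F (v₀ i) • Pi.single j 1 := by
        rw [sub_eq_add_neg, up_add, ← neg_smul, up_smul, up_smul, up_single, up_single, map_one, map_neg,
          neg_smul, sub_eq_add_neg]
      rw [e, sub_dotProduct, smul_dotProduct, smul_dotProduct, single_one_dotProduct, single_one_dotProduct,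
        smul_eq_mul, smul_eq_mul, sub_eq_zero] at h4
      exact h4
    have hj' : algebraMap K F (v₀ j) ≠ 0 := by
      intro h; exact hj ((map_eq_zero _).1 h)
    have hyv : y = (y j / algebraMap K F (v₀ j)) • up F v₀ := by
      ext i
      have h4 := hyi i
      show y i = y j / algebraMap K F (v₀ j) * algebraMap K F (v₀ i)
      field_simp
      linear_combination h4
    have hv' : up F v = (y j / algebraMap K F (v₀ j)) • w := by
      rw [hw, ← mulVec_smul, ← hyv, hy, mulVec_inv_mulVec]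
    have h5 : up F φ₁ ⬝ᵥ up F v = 0 := up_dot_zero h1
    rw [hv', dotProduct_smul] at h5
    have h6 := (smul_eq_zero.1 h5).resolve_right ha1
    rw [h6, zero_smul] at hv'
    exact up_ne_zero hv hv'
  have hψw : ψ ⬝ᵥ w = 0 := hψT.1
  -- φ₂
  obtain ⟨φ₂, h2, ha2, hind⟩ : ∃ φ₂ : ι → K, φ₂ ⬝ᵥ v = 0 ∧ up F φ₂ ⬝ᵥ w ≠ 0 ∧ φ₂ ∉ Submodule.span K {φ₁, φ₃} := by
    obtain ⟨φ₂, h4, -, h5⟩ := exists_ann hn v v φ₁ φ₃
    by_cases h6 : up F φ₂ ⬝ᵥ w = 0
    · refine ⟨φ₂ + φ₁, ?_, ?_, ?_⟩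
      · rw [add_dotProduct, h4, h1, add_zero]
      · rw [up_add, add_dotProduct, h6, zero_add]; exact ha1
      · intro h7
        apply h5
        have : φ₁ ∈ Submodule.span K {φ₁, φ₃} := Submodule.subset_span (by simp)
        exact (Submodule.add_mem_iff_left _ this).1 h7
    · exact ⟨φ₂, h4, h6, h5⟩
  -- the two elements z₁, z₂
  obtain ⟨z₁, hz₁, hz₁f, c₁, hc₁, e₁⟩ := gleason (hM v φ₁ h1) hψT ha1 hψv
  obtain ⟨z₂, hz₂, hz₂f, c₂, hc₂, e₂⟩ := gleason (hM v φ₂ h2) hψT ha2 hψv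
  have e₁' : ((z₁⁻¹ : GL ι F) : Matrix ι ι F) *ᵥ w = c₁⁻¹ • up F v := by
    have h4 := inv_mulVec_mulVec z₁ (up F v)
    rw [e₁, mulVec_smul] at h4
    rw [← h4, smul_smul, inv_mul_cancel₀ hc₁, one_smul]
  have e₂' : ((z₂⁻¹ : GL ι F) : Matrix ι ι F) *ᵥ w = c₂⁻¹ • up F v := by
    have h4 := inv_mulVec_mulVec z₂ (up F v)
    rw [e₂, mulVec_smul] at h4
    rw [← h4, smul_smul, inv_mul_cancel₀ hc₂, one_smul]
  set z := z₂⁻¹ * z₁ with hz
  have hzM : z ∈ M := M.mul_mem (M.inv_mem hz₂) hz₁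
  set c := c₁ * c₂⁻¹ with hc
  have hc0 : c ≠ 0 := mul_ne_zero hc₁ (inv_ne_zero hc₂)
  have hzv : (z : Matrix ι ι F) *ᵥ up F v = c • up F v := by
    rw [hz, Units.val_mul, ← mulVec_mulVec, e₁, mulVec_smul, e₂', smul_smul]
  have hT := (hM v φ₃ h3).conj hzM
  rw [hzv, hasT_smul_iff hc0] at hT
  obtain ⟨φ'', hφ''⟩ := rational_functional hn hM hA hv hT
  -- z₁⁻¹ part
  obtain ⟨s', t', est'⟩ := comb_of_vanish (v := up F v) (w := w) (φ := up F φ₁) (ψ := ψ)
    (θ := up F φ₃ ᵥ* ((z₁⁻¹ : GL ι F) : Matrix ι ι F) - up F φ₃) (up_dot_zero h1) hψw ha1 hψv (by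
      intro u hu1 hu2
      rw [sub_dotProduct, ← dotProduct_mulVec, (fixer _ _).inv_mem hz₁f u hu1 hu2, sub_self])
  have est : up F φ₃ ᵥ* ((z₁⁻¹ : GL ι F) : Matrix ι ι F) = up F φ₃ + s' • up F φ₁ + t' • ψ := by
    rw [sub_eq_iff_eq_add] at est'; rw [est']; abel
  -- evaluation at w: a3 = - s' a1
  have ha3 : up F φ₃ ⬝ᵥ w = - s' * (up F φ₁ ⬝ᵥ w) := by
    have h4 : (up F φ₃ ᵥ* ((z₁⁻¹ : GL ι F) : Matrix ι ι F)) ⬝ᵥ w = 0 := by
      rw [← dotProduct_mulVec, e₁', dotProduct_smul, up_dot_zero h3, smul_zero]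
    rw [est, add_dotProduct, add_dotProduct, smul_dotProduct, smul_dotProduct, hψw, smul_zero, add_zero,
      smul_eq_mul] at h4
    linear_combination h4
  -- z₂ part
  set θ := up F φ₃ ᵥ* ((z₁⁻¹ : GL ι F) : Matrix ι ι F) with hθ
  obtain ⟨s, t, hst'⟩ := comb_of_vanish (v := up F v) (w := w) (φ := up F φ₂) (ψ := ψ)
    (θ := θ ᵥ* (z₂ : Matrix ι ι F) - θ) (up_dot_zero h2) hψw ha2 hψv (by
      intro u hu1 hu2
      rw [sub_dotProduct, ← dotProduct_mulVec, hz₂f u hu1 hu2, sub_self])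
  have hst : θ ᵥ* (z₂ : Matrix ι ι F) = θ + s • up F φ₂ + t • ψ := by
    rw [sub_eq_iff_eq_add] at hst'; rw [hst']; abel
  have hzinv : up F φ₃ ᵥ* ((z⁻¹ : GL ι F) : Matrix ι ι F) = θ ᵥ* (z₂ : Matrix ι ι F) := by
    rw [hz, _root_.mul_inv_rev, inv_inv, Units.val_mul, ← vecMul_vecMul]
  rw [hzinv, hst, est] at hφ''
  -- t'' = 0 by evaluating at v
  have ht : t' + t = 0 := by
    have h4 := hT.1
    rw [hzinv, hst, est, smul_dotProduct, add_dotProduct, add_dotProduct, add_dotProduct, add_dotProduct,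
      smul_dotProduct, smul_dotProduct, smul_dotProduct, smul_dotProduct, up_dot_zero h1, up_dot_zero h2,
      up_dot_zero h3] at h4
    simp only [smul_eq_mul, mul_zero, zero_add, add_zero] at h4
    have h5 := (mul_eq_zero.1 h4).resolve_left hc0
    rw [← add_mul] at h5
    exact (mul_eq_zero.1 h5).resolve_right hψv
  have hφ3 : c • (up F φ₃ + s' • up F φ₁ + s • up F φ₂) = up F φ'' := by
    rw [← hφ'']
    have : t = - t' := by linear_combination ht
    rw [this, neg_smul]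
    congr 1
    abel
  -- rational vectors dual to φ₁, φ₂, φ₃
  have hφ₃not : φ₃ ∉ Submodule.span K {φ₁, φ₂} := by
    intro h4
    obtain ⟨a, b, hab⟩ := Submodule.mem_span_pair.1 h4
    by_cases hb : b = 0
    · apply hdep
      rw [hb, zero_smul, add_zero] at hab
      exact Submodule.mem_span_singleton.2 ⟨a, hab⟩
    · apply hind
      refine Submodule.mem_span_pair.2 ⟨-(b⁻¹ * a), b⁻¹, ?_⟩
      rw [← hab, smul_add, smul_smul, smul_smul, inv_mul_cancel₀ hb, one_smul, neg_smul]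
      abel
  have hφ₁not : φ₁ ∉ Submodule.span K {φ₂, φ₃} := by
    intro h4
    obtain ⟨a, b, hab⟩ := Submodule.mem_span_pair.1 h4
    by_cases ha : a = 0
    · rw [ha, zero_smul, zero_add] at hab
      have hb : b ≠ 0 := by
        rintro rfl; rw [zero_smul] at hab; exact hφ₁0 hab.symm
      apply hdep
      refine Submodule.mem_span_singleton.2 ⟨b⁻¹, ?_⟩
      rw [← hab, smul_smul, inv_mul_cancel₀ hb, one_smul]
    · apply hind
      refine Submodule.mem_span_pair.2 ⟨a⁻¹, -(a⁻¹ * b), ?_⟩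
      rw [← hab, smul_add, smul_smul, smul_smul, inv_mul_cancel₀ ha, one_smul, neg_smul]
      abel
  obtain ⟨x₃, hx₃, hx₃'⟩ := exists_functional_submodule hφ₃not
  obtain ⟨x₁, hx₁, hx₁'⟩ := exists_functional_submodule hφ₁not
  have k31 : φ₁ ⬝ᵥ x₃ = 0 := by rw [dotProduct_comm]; exact hx₃ _ (Submodule.subset_span (by simp))
  have k32 : φ₂ ⬝ᵥ x₃ = 0 := by rw [dotProduct_comm]; exact hx₃ _ (Submodule.subset_span (by simp))
  have k33 : φ₃ ⬝ᵥ x₃ = 1 := by rw [dotProduct_comm]; exact hx₃'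
  have k12 : φ₂ ⬝ᵥ x₁ = 0 := by rw [dotProduct_comm]; exact hx₁ _ (Submodule.subset_span (by simp))
  have k13 : φ₃ ⬝ᵥ x₁ = 0 := by rw [dotProduct_comm]; exact hx₁ _ (Submodule.subset_span (by simp))
  have k11 : φ₁ ⬝ᵥ x₁ = 1 := by rw [dotProduct_comm]; exact hx₁'
  have hcK : c = algebraMap K F (φ'' ⬝ᵥ x₃) := by
    rw [← up_dot, ← hφ3, smul_dotProduct, add_dotProduct, add_dotProduct, smul_dotProduct, smul_dotProduct, up_dot,
      up_dot, up_dot, k31, k32, k33]
    simp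
  have hcs : c * s' = algebraMap K F (φ'' ⬝ᵥ x₁) := by
    rw [← up_dot, ← hφ3, smul_dotProduct, add_dotProduct, add_dotProduct, smul_dotProduct, smul_dotProduct, up_dot,
      up_dot, up_dot, k11, k12, k13]
    simp
  refine ⟨-(φ'' ⬝ᵥ x₁ / φ'' ⬝ᵥ x₃), ?_⟩
  rw [ha3, map_neg, map_div₀, ← hcs, ← hcK]
  field_simp

/-- each g ∈ M maps rational vectors to multiples of rational vectors -/
theorem image_rational [Finite F] (hn : 5 ≤ Fintype.card ι) (hM : HasR M K)
    (hA : ∀ c ∈ Aset M K, ∃ k : K, algebraMap K F k = c) {g : GL ι F} (hg : g ∈ M) {v₀ : ι → K}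
    (hv₀ : v₀ ≠ 0) : ∃ (c : F) (u : ι → K), (g : Matrix ι ι F) *ᵥ up F v₀ = c • up F u := by
  set w := (g : Matrix ι ι F) *ᵥ up F v₀ with hw
  have hw0 : w ≠ 0 := by
    intro h
    have h1 := inv_mulVec_mulVec g (up F v₀)
    rw [← hw, h, mulVec_zero] at h1
    exact up_ne_zero hv₀ h1.symm
  obtain ⟨j, hj⟩ := Function.ne_iff.1 hw0
  rw [Pi.zero_apply] at hj
  have key : ∀ i, ∃ k : K, w i = algebraMap K F k * w j := by
    intro i
    by_cases hij : i = j
    · exact ⟨1, by rw [hij, map_one, one_mul]⟩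
    obtain ⟨k, hk⟩ : ∃ k, k ∉ ({i, j} : Finset ι) := by
      by_contra hcon
      push Not at hcon
      have h1 : (Finset.univ : Finset ι) ⊆ {i, j} := fun k _ => hcon k
      have h2 := Finset.card_le_card h1
      have h3 : ({i, j} : Finset ι).card ≤ 2 := Finset.card_le_two
      rw [Finset.card_univ] at h2
      omega
    have hki : k ≠ i := fun h => hk (by simp [h])
    have hkj : k ≠ j := fun h => hk (by simp [h])
    have hdotj : ∀ (x : ι → F) (l : ι), up F (Pi.single l (1 : K)) ⬝ᵥ x = x l := by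
      intro x l
      rw [up_single, map_one, single_one_dotProduct]
    obtain ⟨a, ha⟩ := ratio_mem hn hM hA hg (v := Pi.single k (1 : K)) (φ₁ := Pi.single j 1) (φ₃ := Pi.single i 1)
      hv₀ (by
        intro h
        have := congrFun h k
        simp at this)
      (by simp [hkj.symm]) (by simp [hki.symm]) (by rw [hdotj]; exact hj)
    rw [hdotj, hdotj] at ha
    exact ⟨a, ha⟩
  choose u hu using key
  refine ⟨w j, u, ?_⟩
  ext i
  rw [hu i, mul_comm]
  rfl

/-- g ∈ F^* GL_n(K) -/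
theorem eq_smul_map [Finite F] (hn : 5 ≤ Fintype.card ι) (hM : HasR M K)
    (hA : ∀ c ∈ Aset M K, ∃ k : K, algebraMap K F k = c) {g : GL ι F} (hg : g ∈ M) :
    ∃ (c : F) (g₀ : Matrix ι ι K), c ≠ 0 ∧ (g : Matrix ι ι F) = c • g₀.map (algebraMap K F) := by
  have h1 : ∀ i, ∃ (c : F) (u : ι → K), (g : Matrix ι ι F) *ᵥ up F (Pi.single i (1 : K)) = c • up F u := by
    intro i
    apply image_rational hn hM hA hg
    intro h
    have := congrFun h i
    simp at this
  choose c u hcu using h1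
  have hinj : ∀ x : ι → F, x ≠ 0 → (g : Matrix ι ι F) *ᵥ x ≠ 0 := by
    intro x hx h
    have h2 := inv_mulVec_mulVec g x
    rw [h, mulVec_zero] at h2
    exact hx h2.symm
  have hsing : ∀ i, (Pi.single i (1 : K) : ι → K) ≠ 0 := by
    intro i h
    have := congrFun h i
    simp at this
  have hc0 : ∀ i, c i ≠ 0 := by
    intro i h
    apply hinj _ (up_ne_zero (hsing i))
    rw [hcu, h, zero_smul]
  have hu0 : ∀ i, u i ≠ 0 := by
    intro i h
    apply hinj _ (up_ne_zero (hsing i))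
    rw [hcu, h, up_zero, smul_zero]
  have hne : Nonempty ι := Fintype.card_pos_iff.1 (by omega)
  obtain ⟨i₀⟩ := hne
  have hratio : ∀ i, ∃ k : K, c i = algebraMap K F k * c i₀ := by
    intro i
    by_cases hi : i = i₀
    · exact ⟨1, by rw [hi, map_one, one_mul]⟩
    -- independence of u i and u i₀
    have hind : u i ∉ Submodule.span K {u i₀} := by
      intro hm
      obtain ⟨k, hk⟩ := Submodule.mem_span_singleton.1 hm
      -- g (e_i - (c i k / c i₀) e_i₀) = 0
      have h3 : (g : Matrix ι ι F) *ᵥ (up F (Pi.single i (1 : K)) -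
          (c i * algebraMap K F k / c i₀) • up F (Pi.single i₀ (1 : K))) = 0 := by
        rw [mulVec_sub, mulVec_smul, hcu, hcu, ← hk, up_smul, smul_smul, smul_smul, div_mul_cancel₀ _ (hc0 i₀),
          sub_self]
      refine hinj _ ?_ h3
      intro h4
      have := congrFun h4 i
      rw [up_single, up_single] at this
      simp [Ne.symm hi, Pi.single_eq_of_ne hi] at this
    obtain ⟨φ, hφ1, hφ2⟩ := exists_functional hind
    obtain ⟨ψ, hψ1, hψ2⟩ := exists_functional (not_mem_span_swap hind (hu0 i₀))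
    have hsum0 : (Pi.single i (1 : K) + Pi.single i₀ 1 : ι → K) ≠ 0 := by
      intro h
      have := congrFun h i
      simp [Pi.single_eq_of_ne hi] at this
    obtain ⟨μ, x, hμ⟩ := image_rational hn hM hA hg hsum0
    rw [up_add, mulVec_add, hcu, hcu] at hμ
    have e1 : c i = μ * algebraMap K F (φ ⬝ᵥ x) := by
      have := congrArg (fun y => up F φ ⬝ᵥ y) hμ
      simp only [dotProduct_add, dotProduct_smul, up_dot, hφ1, hφ2, map_one, map_zero, smul_eq_mul, mul_one,
        mul_zero, add_zero] at this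
      exact this
    have e2 : c i₀ = μ * algebraMap K F (ψ ⬝ᵥ x) := by
      have := congrArg (fun y => up F ψ ⬝ᵥ y) hμ
      simp only [dotProduct_add, dotProduct_smul, up_dot, hψ1, hψ2, map_one, map_zero, smul_eq_mul, mul_one,
        mul_zero, zero_add] at this
      exact this
    refine ⟨φ ⬝ᵥ x / ψ ⬝ᵥ x, ?_⟩
    have hψx : algebraMap K F (ψ ⬝ᵥ x) ≠ 0 := by
      intro h; rw [h, mul_zero] at e2; exact hc0 i₀ e2
    rw [e1, e2, map_div₀]
    field_simp
  choose k hk using hratio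
  refine ⟨c i₀, Matrix.of fun a b => k b * u b a, hc0 i₀, ?_⟩
  apply Matrix.ext_of_mulVec_single
  intro b
  have h5 := hcu b
  rw [up_single, map_one] at h5
  rw [h5, hk b]
  ext a
  simp [up, Matrix.smul_mulVec, Matrix.mulVec_single]
  ring

end H94.SubfieldOver
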