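import Cfsg.Agent.Lib.H94.FormRow
import Cfsg.Agent.Lib.H94.Stab

/-!
Overgroups in SL of the similarity group of a non-degenerate symplectic form.
-/

set_option autoImplicit false

namespace H94.SympOver

open Matrix Cfsg.Geo H94.Transv H94.FormRow
open scoped MatrixGroups

variable {ι : Type} [Fintype ι] [DecidableEq ι] {F : Type*} [Field F]

theorem linLeft {f : (ι → F) → (ι → F) → F} (hf : IsBilinearForm f) : LinLeft f := ⟨hf.add_left, hf.smul_left⟩

/-- symplectic transvections are isometries -/
theorem isometry_tm {f : (ι → F) → (ι → F) → F} (hf : IsSymplecticForm f) (v : ι → F) (a : F) (x y : ι → F) :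
    f (tm v (a • frow f v) *ᵥ x) (tm v (a • frow f v) *ᵥ y) = f x y := by
  have hl := linLeft hf.bilinear
  rw [hl.tm_frow_mulVec, hl.tm_frow_mulVec, hf.bilinear.add_left, hf.bilinear.add_right, hf.bilinear.add_right,
    hf.bilinear.smul_left, hf.bilinear.smul_right, hf.bilinear.smul_left, hf.bilinear.smul_right, hf.alternating,
    hf.skew v y]
  ring

theorem tGL_mem_similarity {f : (ι → F) → (ι → F) → F} (hf : IsSymplecticForm f) (v : ι → F) (a : F)
    (h : (a • frow f v) ⬝ᵥ v = 0) : tGL v (a • frow f v) h ∈ similarityGroup f :=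
  ⟨1, fun x y => by rw [tGL_val, isometry_tm hf, Units.val_one, one_mul]⟩

theorem frow_dot_self {f : (ι → F) → (ι → F) → F} (hf : IsSymplecticForm f) (v : ι → F) (a : F) :
    (a • frow f v) ⬝ᵥ v = 0 := by
  rw [smul_dotProduct, (linLeft hf.bilinear).frow_dot, hf.alternating, smul_zero]

/-- a subgroup containing all symplectic transvections (isometry group level) and an element that is not a similarity
contains SL. -/
theorem specialLinear_le {f : (ι → F) → (ι → F) → F} (hf : IsSymplecticForm f) {M : Subgroup (GL ι F)}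
    (hM : ∀ (v : ι → F) (a : F), HasT M v (a • frow f v)) {g : GL ι F} (hg : g ∈ M) (hgs : g ∉ similarityGroup f) :
    specialLinear ι F ≤ M := by
  have hl := linLeft hf.bilinear
  have hnd : ∀ v, (∀ x, f x v = 0) → v = 0 := by
    intro v hv
    by_contra h0
    obtain ⟨x, hx⟩ := (hf.nondegenerate v h0).1
    exact hx (hv x)
  -- find w such that the two functionals differ
  have hex : ∃ w, (frow f (((g⁻¹ : GL ι F) : Matrix ι ι F) *ᵥ w) ᵥ* ((g⁻¹ : GL ι F) : Matrix ι ι F)) ∉
      Submodule.span F {frow f w} := by
    by_contra hcon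
    push Not at hcon
    apply hgs
    set G := ((g⁻¹ : GL ι F) : Matrix ι ι F) with hG
    obtain ⟨c, hc⟩ := const_multiple (f := f) (f' := fun x w => f (G *ᵥ x) (G *ᵥ w))
      hf.bilinear.add_right
      (fun x v w => by rw [mulVec_add, hf.bilinear.add_right]) hnd id
      (fun c x v => hf.bilinear.smul_right c x v)
      (fun c x v => by rw [mulVec_smul, hf.bilinear.smul_right]; rfl) Function.surjective_id
      (fun w => by
        obtain ⟨c, hc⟩ := Submodule.mem_span_singleton.1 (hcon w)
        refine ⟨c, fun x => ?_⟩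
        rw [← hl.pull_dot, ← hG, ← hc, smul_dotProduct, hl.frow_dot, smul_eq_mul])
    have hginv : g⁻¹ ∈ similarityGroup f := by
      by_cases hz : ∀ w : ι → F, w = 0
      · refine ⟨1, fun u v => ?_⟩
        rw [hz (_ *ᵥ u), hz (_ *ᵥ v), hz u, hz v]; simp
      push Not at hz
      obtain ⟨w, hw⟩ := hz
      have hc0 : c ≠ 0 := by
        rintro rfl
        obtain ⟨x, hx⟩ := (hf.nondegenerate ((G : Matrix ι ι F) *ᵥ w) (by
          intro h
          apply hw
          have := mulVec_inv_mulVec g w
          rw [← hG, h, mulVec_zero] at this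
          exact this.symm)).1
        apply hx
        have := hc ((g : Matrix ι ι F) *ᵥ x) w
        simp only [hG, inv_mulVec_mulVec, zero_mul] at this
        exact this
      exact ⟨Units.mk0 c hc0, fun u v => hc u v⟩
    have := (similarityGroup f).inv_mem hginv
    rwa [inv_inv] at this
  obtain ⟨w, hw⟩ := hex
  set ψ := (frow f (((g⁻¹ : GL ι F) : Matrix ι ι F) *ᵥ w) ᵥ* ((g⁻¹ : GL ι F) : Matrix ι ι F)) with hψ
  have hTψ : HasT M w ψ := by
    have := (hM (((g⁻¹ : GL ι F) : Matrix ι ι F) *ᵥ w) 1).conj hg
    rw [one_smul, mulVec_inv_mulVec] at this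
    exact this
  -- y1
  obtain ⟨y1, hy1, hψy1⟩ : ∃ y1, f y1 w = 0 ∧ ψ ⬝ᵥ y1 ≠ 0 := by
    by_contra hcon
    push Not at hcon
    apply hw
    apply mem_span_of_ker_le
    intro x hx
    rw [hl.frow_dot] at hx
    exact hcon x hx
  have hstep : ∀ y, f y w = 0 → ψ ⬝ᵥ y ≠ 0 → HasT M w (frow f y) := by
    intro y hy hne
    have h1 := (hM y (ψ ⬝ᵥ y)⁻¹).comm_right hTψ (by
      rw [smul_dotProduct, hl.frow_dot, hf.skew, hy]; simp)
    rw [smul_smul, mul_inv_cancel₀ hne, one_smul] at h1
    exact h1
  have hall : ∀ y, f y w = 0 → HasT M w (frow f y) := by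
    intro y hy
    by_cases hne : ψ ⬝ᵥ y = 0
    · have h1 := hstep (y + y1) (by rw [hf.bilinear.add_left, hy, hy1, add_zero])
        (by rw [dotProduct_add, hne, zero_add]; exact hψy1)
      have h2 := hstep y1 hy1 hψy1
      have h3 := h1.sub_right h2
      have e : frow f (y + y1) - frow f y1 = frow f y := by
        ext i
        simp [frow, hf.bilinear.add_right]
      rwa [e] at h3
    · exact hstep y hy hne
  have hfull : Full M w := by
    intro φ hφ
    obtain ⟨y, rfl⟩ := exists_frow_eq hl hf.bilinear.add_right hf.bilinear.smul_right hnd φ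
    apply hall
    rw [hl.frow_dot, hf.skew, neg_eq_zero] at hφ
    exact hφ
  have hw0 : w ≠ 0 := by
    rintro rfl
    apply hw
    have : ψ = 0 := by
      rw [hψ, mulVec_zero]
      have : frow f 0 = 0 := by
        ext i
        have := hf.bilinear.smul_right 0 (Pi.single i 1) 0
        simpa [frow] using this
      rw [this, zero_vecMul]
    rw [this]; exact Submodule.zero_mem _
  apply specialLinear_le_of_full
  rw [eq_top_iff]
  intro y _
  have hmem : ∀ y, f w y ≠ 0 → y ∈ fullSubmodule M := by
    intro y hy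
    have h1 : (tGL y _ (hM y 1).1 : Matrix ι ι F) *ᵥ w ∈ fullSubmodule M :=
      fullSubmodule_stable (hM y 1).mem hfull
    rw [tGL_val, hl.tm_frow_mulVec, one_mul] at h1
    have h2 := (fullSubmodule M).sub_mem h1 (show w ∈ fullSubmodule M from hfull)
    rw [add_sub_cancel_left] at h2
    have h3 := (fullSubmodule M).smul_mem (f w y)⁻¹ h2
    rwa [smul_smul, inv_mul_cancel₀ hy, one_smul] at h3
  by_cases hy : f w y = 0
  · obtain ⟨y1, hy1⟩ := (hf.nondegenerate w hw0).2
    have h1 := hmem (y + y1) (by rw [hf.bilinear.add_right, hy, zero_add]; exact hy1)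
    have h2 := hmem y1 hy1
    have := (fullSubmodule M).sub_mem h1 h2
    rwa [add_sub_cancel_right] at this
  · exact hmem y hy

/-- The similarity group of a symplectic form does not contain SL when the dimension is at least 3. -/
theorem not_specialLinear_le {f : (ι → F) → (ι → F) → F} (hf : IsSymplecticForm f) (hn : 3 ≤ Fintype.card ι) :
    ¬ specialLinear ι F ≤ similarityGroup f := by
  intro hle
  have hl := linLeft hf.bilinear
  have : Nonempty ι := Fintype.card_pos_iff.1 (by omega)
  obtain ⟨i⟩ := ‹Nonempty ι›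
  set v : ι → F := Pi.single i 1 with hv
  have hv0 : v ≠ 0 := by
    intro h
    have := congrFun h i
    simp [hv] at this
  obtain ⟨x, hx⟩ := (hf.nondegenerate v hv0).1
  obtain ⟨y, hy, hyv⟩ : ∃ y, f y v = 0 ∧ y ∉ Submodule.span F {v} := by
    by_contra hcon
    push Not at hcon
    let L : (ι → F) →ₗ[F] F :=
      { toFun := fun x => f x v
        map_add' := fun a b => hf.bilinear.add_left a b v
        map_smul' := fun c a => hf.bilinear.smul_left c a v }
    have h1 : LinearMap.ker L ≤ Submodule.span F {v} := fun y hy => hcon y hy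
    have h2 := Submodule.finrank_mono h1
    have h3 := L.finrank_range_add_finrank_ker
    have h4 : Module.finrank F (LinearMap.range L) ≤ 1 := by
      have := Submodule.finrank_le (LinearMap.range L)
      simpa using this
    have h5 : Module.finrank F (Submodule.span F {v}) ≤ 1 := finrank_span_singleton hv0 |>.le
    rw [Module.finrank_fintype_fun_eq_card] at h3
    omega
  obtain ⟨φ, h1, h2⟩ := exists_functional hyv
  obtain ⟨c, hc⟩ := hle (tGL_mem_specialLinear v φ h1)
  have e1 := hc x v
  have e2 := hc x y
  rw [tGL_val, tm_mulVec, tm_mulVec, h1, zero_smul, add_zero, hf.bilinear.add_left, hf.bilinear.smul_left,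
    hf.alternating, mul_zero, add_zero] at e1
  have hc1 : (c : F) = 1 := by
    have : ((c : F) - 1) * f x v = 0 := by linear_combination -e1
    exact sub_eq_zero.1 ((mul_eq_zero.1 this).resolve_right hx)
  rw [tGL_val, tm_mulVec, tm_mulVec, h2, one_smul, hf.bilinear.add_left, hf.bilinear.add_right, hf.bilinear.add_right,
    hf.bilinear.smul_left, hf.bilinear.smul_left, hf.alternating, hf.skew v y, hy, hc1] at e2
  apply hx
  linear_combination e2

/-- The similarity group of a non-degenerate symplectic form, intersected with SL, is maximal in SL. -/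
theorem similarity_maximal {f : (ι → F) → (ι → F) → F} (hf : IsSymplecticForm f) (hn : 3 ≤ Fintype.card ι) :
    IsMaximalIn (specialLinear ι F) (similarityGroup f ⊓ specialLinear ι F) := by
  refine ⟨lt_of_le_of_ne inf_le_right fun h => ?_, fun M hM1 hM2 => ?_⟩
  · apply not_specialLinear_le hf hn
    rw [← h]; exact inf_le_left
  · by_cases hM : M ≤ similarityGroup f
    · exact Or.inl (le_antisymm (le_inf hM hM2) hM1)
    · right
      apply le_antisymm hM2
      obtain ⟨g, hg, hgs⟩ := Set.not_subset.1 hM
      exact specialLinear_le hf (fun v a => HasT.mk (frow_dot_self hf v a)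
        (hM1 ⟨tGL_mem_similarity hf v a _, tGL_mem_specialLinear _ _ _⟩)) hg hgs

end H94.SympOver
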