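import Cfsg.Agent.Lib.H94.Transv

/-!
GL_2(2) ⊗ GL_k(2) is not maximal: it lies in the normaliser of the field of order 4 in the first factor.
-/

set_option autoImplicit false
set_option linter.unusedSectionVars false

namespace H94.TensorTwo

open Matrix Cfsg.Geo H94.Transv
open scoped MatrixGroups Kronecker

variable {F : Type*} [Field F]

theorem sl_eq_top {ι : Type} [Fintype ι] [DecidableEq ι] [Fintype F] (hq : Fintype.card F = 2) :
    specialLinear ι F = ⊤ := by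
  rw [eq_top_iff]
  intro g _
  rw [specialLinear, MonoidHom.mem_ker]
  have h := FiniteField.pow_card_sub_one_eq_one (((Matrix.GeneralLinearGroup.det g : Fˣ)) : F) (Units.ne_zero _)
  rw [hq, pow_one] at h
  exact Units.ext h

/-- the element ω of order 3 -/
def om : Matrix (Fin 2) (Fin 2) F := !![0, 1; 1, 1]

theorem om_sq : (om : Matrix (Fin 2) (Fin 2) F) * om = om + 1 := by
  ext i j; fin_cases i <;> fin_cases j <;> simp [om, Matrix.mul_apply, Fin.sum_univ_two]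

theorem om_conj (h01 : ∀ a : F, a = 0 ∨ a = 1) (h2 : (2 : F) = 0) (a : GL (Fin 2) F) :
    (a : Matrix (Fin 2) (Fin 2) F) * om = om * (a : Matrix (Fin 2) (Fin 2) F) ∨
    (a : Matrix (Fin 2) (Fin 2) F) * om = (om + 1) * (a : Matrix (Fin 2) (Fin 2) F) := by
  have hdet : (a : Matrix (Fin 2) (Fin 2) F).det ≠ 0 := by
    have := (Matrix.isUnit_iff_isUnit_det _).1 a.isUnit
    exact this.ne_zero
  generalize (a : Matrix (Fin 2) (Fin 2) F) = A at *
  obtain ⟨x, y, z, w, rfl⟩ : ∃ x y z w, A = !![x, y; z, w] := ⟨A 0 0, A 0 1, A 1 0, A 1 1, by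
    ext i j; fin_cases i <;> fin_cases j <;> rfl⟩
  rw [Matrix.det_fin_two_of] at hdet
  have h11 : (1 : F) + 1 = 0 := by rw [one_add_one_eq_two, h2]
  rcases h01 x with rfl | rfl <;> rcases h01 y with rfl | rfl <;> rcases h01 z with rfl | rfl <;>
    rcases h01 w with rfl | rfl <;> simp [h11, om, Matrix.one_fin_two] at hdet ⊢

theorem om_mul (h2 : (2 : F) = 0) : (om : Matrix (Fin 2) (Fin 2) F) * (om + 1) = 1 := by
  rw [mul_add, mul_one, om_sq]
  ext i j
  simp only [Matrix.add_apply]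
  linear_combination (om i j : F) * h2

/-- the semilinear group, inside GL(Fin 2 × Fin k) -/
def K0 (k : ℕ) (F : Type*) [Field F] : Subgroup (GL (Fin 2 × Fin k) F) where
  carrier := {g | ∃ δ : F, (g : Matrix (Fin 2 × Fin k) (Fin 2 × Fin k) F) * ((om : Matrix (Fin 2) (Fin 2) F) ⊗ₖ (1 : Matrix (Fin k) (Fin k) F)) =
    ((om : Matrix (Fin 2) (Fin 2) F) ⊗ₖ (1 : Matrix (Fin k) (Fin k) F) + δ • 1) * (g : Matrix (Fin 2 × Fin k) (Fin 2 × Fin k) F)}
  mul_mem' {g h} hg hh := by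
    obtain ⟨δ, hg⟩ := hg
    obtain ⟨ε, hh⟩ := hh
    refine ⟨δ + ε, ?_⟩
    rw [Units.val_mul, mul_assoc, hh, ← mul_assoc, mul_add, hg]
    simp only [add_mul, mul_smul_comm, smul_mul_assoc, mul_one, one_mul, add_smul, mul_assoc]
    abel
  one_mem' := ⟨0, by simp⟩
  inv_mem' {g} hg := by
    obtain ⟨δ, hg⟩ := hg
    refine ⟨-δ, ?_⟩
    set W := ((om : Matrix (Fin 2) (Fin 2) F) ⊗ₖ (1 : Matrix (Fin k) (Fin k) F)) with hW
    have h1 := congrArg (fun X => ((g⁻¹ : GL (Fin 2 × Fin k) F) : Matrix (Fin 2 × Fin k) (Fin 2 × Fin k) F) * X *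
      ((g⁻¹ : GL (Fin 2 × Fin k) F) : Matrix (Fin 2 × Fin k) (Fin 2 × Fin k) F)) hg
    have e1 : ((g⁻¹ : GL (Fin 2 × Fin k) F) : Matrix (Fin 2 × Fin k) (Fin 2 × Fin k) F) * (g : Matrix (Fin 2 × Fin k) (Fin 2 × Fin k) F) = 1 := by
      rw [← Units.val_mul, inv_mul_cancel, Units.val_one]
    have e2 : (g : Matrix (Fin 2 × Fin k) (Fin 2 × Fin k) F) * ((g⁻¹ : GL (Fin 2 × Fin k) F) : Matrix (Fin 2 × Fin k) (Fin 2 × Fin k) F) = 1 := by
      rw [← Units.val_mul, mul_inv_cancel, Units.val_one]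
    rw [← mul_assoc, e1, one_mul, mul_assoc, mul_assoc, e2, mul_one, mul_add, mul_smul_comm, mul_one] at h1
    rw [add_mul, h1, smul_mul_assoc, one_mul, add_assoc, ← add_smul, add_neg_cancel, zero_smul, add_zero]

theorem kron_le (k : ℕ) (h01 : ∀ a : F, a = 0 ∨ a = 1) (h2 : (2 : F) = 0) : kroneckerSubgroup 2 k F ≤ K0 k F := by
  rintro g ⟨a, b, hg⟩
  rcases om_conj h01 h2 a with h | h
  · refine ⟨0, ?_⟩
    rw [zero_smul, add_zero, hg, ← Matrix.mul_kronecker_mul, ← Matrix.mul_kronecker_mul, h, mul_one, one_mul]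
  · refine ⟨1, ?_⟩
    have e : ((om : Matrix (Fin 2) (Fin 2) F) ⊗ₖ (1 : Matrix (Fin k) (Fin k) F) + (1 : F) • 1) =
      (om + 1 : Matrix (Fin 2) (Fin 2) F) ⊗ₖ (1 : Matrix (Fin k) (Fin k) F) := by
      rw [Matrix.add_kronecker, Matrix.one_kronecker_one, one_smul]
    rw [e, hg, ← Matrix.mul_kronecker_mul, ← Matrix.mul_kronecker_mul, h, mul_one, one_mul]

/-- an element of K0 that is not a Kronecker product -/
theorem exists_not_kron (k : ℕ) (hk : 2 ≤ k) (h2 : (2 : F) = 0) : ∃ g ∈ K0 k F, g ∉ kroneckerSubgroup 2 k F := by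
  have h11 : (1 : F) + 1 = 0 := by rw [one_add_one_eq_two, h2]
  obtain ⟨i0, i1, h01⟩ : ∃ i0 i1 : Fin k, i0 ≠ i1 := ⟨⟨0, by omega⟩, ⟨1, by omega⟩, by simp⟩
  have hu : ∀ j : Fin k, (if j = i0 then (om : Matrix (Fin 2) (Fin 2) F) else 1) *
      (if j = i0 then (om + 1 : Matrix (Fin 2) (Fin 2) F) else 1) = 1 := by
    intro j; split_ifs
    · exact om_mul h2
    · exact mul_one 1
  have hu' : ∀ j : Fin k, (if j = i0 then (om + 1 : Matrix (Fin 2) (Fin 2) F) else 1) *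
      (if j = i0 then (om : Matrix (Fin 2) (Fin 2) F) else 1) = 1 := by
    intro j; split_ifs
    · rw [add_mul, one_mul, ← om_mul h2, mul_add, mul_one]
    · exact mul_one 1
  let g : GL (Fin 2 × Fin k) F :=
    ⟨Matrix.blockDiagonal fun j => if j = i0 then om else 1, Matrix.blockDiagonal fun j => if j = i0 then om + 1 else 1,
      by rw [← Matrix.blockDiagonal_mul]; simp only [hu]; exact Matrix.blockDiagonal_one,
      by rw [← Matrix.blockDiagonal_mul]; simp only [hu']; exact Matrix.blockDiagonal_one⟩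
  refine ⟨g, ⟨0, ?_⟩, ?_⟩
  · rw [zero_smul, add_zero, Matrix.kronecker_one]
    show (Matrix.blockDiagonal fun j => if j = i0 then om else 1) * _ = _ * (Matrix.blockDiagonal fun j => if j = i0 then om else 1)
    rw [← Matrix.blockDiagonal_mul, ← Matrix.blockDiagonal_mul]
    congr 1
    ext1 j
    split_ifs
    · rfl
    · rw [mul_one, one_mul]
  · rintro ⟨a, b, hab⟩
    have hg : (g : Matrix (Fin 2 × Fin k) (Fin 2 × Fin k) F) = Matrix.blockDiagonal fun j => if j = i0 then om else 1 := rfl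
    rw [hg] at hab
    have e := fun (x y : Fin 2) (i : Fin k) => congrFun (congrFun hab (x, i)) (y, i)
    simp only [Matrix.blockDiagonal_apply, if_true, Matrix.kroneckerMap_apply] at e
    have e1 := e 0 0 i0
    have e2 := e 0 1 i0
    have e3 := e 0 0 i1
    have e4 := e 0 1 i1
    simp [om, h01.symm] at e1 e2 e3 e4
    rcases e1 with h | h
    · rw [h, zero_mul] at e3; exact one_ne_zero e3
    · rw [h, mul_zero] at e2; exact one_ne_zero e2

theorem K0_ne_top (k : ℕ) (hk : 3 ≤ k) : K0 k F ≠ ⊤ := by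
  intro htop
  have h0 : 0 < k := by omega
  have h1 : 1 < k := by omega
  have h2 : 2 < k := by omega
  have hT : (Pi.single ((0 : Fin 2), (⟨1, h1⟩ : Fin k)) (1 : F) : Fin 2 × Fin k → F) ⬝ᵥ
      Pi.single ((0 : Fin 2), (⟨0, h0⟩ : Fin k)) 1 = 0 := by simp
  have hm : tGL _ _ hT ∈ K0 k F := by rw [htop]; trivial
  obtain ⟨δ, hδ⟩ := hm
  rw [tGL_val, tm, add_mul, mul_add, one_mul, mul_one, add_assoc, add_right_inj, add_mul, smul_mul_assoc, one_mul,
    vecMulVec_mul, mul_vecMulVec] at hδ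
  have e1 := congrFun (congrFun hδ ((0 : Fin 2), (⟨2, h2⟩ : Fin k))) ((0 : Fin 2), (⟨2, h2⟩ : Fin k))
  simp [vecMulVec_apply] at e1
  rw [← e1] at hδ
  have e2 := congrFun (congrFun hδ ((0 : Fin 2), (⟨0, h0⟩ : Fin k))) ((1 : Fin 2), (⟨1, h1⟩ : Fin k))
  simp [vecMulVec_apply, om, Matrix.single_vecMul] at e2

end H94.TensorTwo
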