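import Cfsg.Agent.Lib.H94.FormRow

/-!
Elementary facts about non-degenerate unitary (Hermitian) forms over finite fields: trace and norm maps,
anisotropic vectors in large subspaces, isotropic vectors span.
-/

set_option autoImplicit false
set_option linter.unusedSectionVars false

namespace H94.UnitForm

open Matrix Cfsg.Geo H94.Transv H94.FormRow
open scoped MatrixGroups

variable {ι : Type} [Fintype ι] [DecidableEq ι] {F : Type*} [Field F]

section form

variable {σ : F ≃+* F} {f : (ι → F) → (ι → F) → F}

theorem linLeft (hf : IsUnitaryForm σ f) : LinLeft f := ⟨hf.add_left, hf.smul_left⟩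

theorem add_right (hf : IsUnitaryForm σ f) (x v w : ι → F) : f x (v + w) = f x v + f x w := by
  rw [hf.herm, hf.add_left, map_add, ← hf.herm, ← hf.herm]

theorem smul_right (hf : IsUnitaryForm σ f) (c : F) (x v : ι → F) : f x (c • v) = σ c * f x v := by
  rw [hf.herm, hf.smul_left, map_mul, ← hf.herm]

theorem zero_right (hf : IsUnitaryForm σ f) (x : ι → F) : f x 0 = 0 := by
  have := smul_right hf 0 x 0
  simpa using this

theorem sub_right (hf : IsUnitaryForm σ f) (x v w : ι → F) : f x (v - w) = f x v - f x w := by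
  have := add_right hf x (v - w) w
  rw [sub_add_cancel] at this
  rw [this]; ring

theorem fix_self (hf : IsUnitaryForm σ f) (v : ι → F) : σ (f v v) = f v v := (hf.herm v v).symm

theorem eq_zero_symm (hf : IsUnitaryForm σ f) {v w : ι → F} (h : f v w = 0) : f w v = 0 := by
  rw [hf.herm, h, map_zero]

theorem ne_zero_symm (hf : IsUnitaryForm σ f) {v w : ι → F} (h : f v w ≠ 0) : f w v ≠ 0 :=
  fun h' => h (eq_zero_symm hf h')

theorem nd (hf : IsUnitaryForm σ f) (v : ι → F) (h : ∀ x, f x v = 0) : v = 0 := by
  by_contra h0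
  obtain ⟨x, hx⟩ := (hf.nondegenerate v h0).1
  exact hx (h x)

theorem exists_alpha (hf : IsUnitaryForm σ f) : ∃ α : F, α ≠ 0 ∧ α + σ α = 0 := by
  obtain ⟨c, hc⟩ : ∃ c, σ c ≠ c := by
    by_contra h
    push Not at h
    exact hf.ne_refl (RingEquiv.ext h)
  refine ⟨c - σ c, fun h => hc (sub_eq_zero.1 h).symm, ?_⟩
  rw [map_sub, hf.involutive]; ring

theorem exists_theta (hf : IsUnitaryForm σ f) : ∃ θ : F, θ + σ θ ≠ 0 := by
  by_contra h
  push Not at h
  apply hf.ne_refl
  have h1 := h 1
  rw [map_one] at h1
  ext c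
  have h2 := h c
  have : σ c = - c := by linear_combination h2
  rw [RingEquiv.refl_apply, this]
  linear_combination (-c) * h1

theorem trace_surj (hf : IsUnitaryForm σ f) (a : F) (ha : σ a = a) : ∃ x : F, x + σ x = a := by
  obtain ⟨θ, hθ⟩ := exists_theta hf
  have hfix : σ (θ + σ θ) = θ + σ θ := by rw [map_add, hf.involutive]; ring
  refine ⟨a * θ / (θ + σ θ), ?_⟩
  rw [map_div₀, map_mul, ha, hfix, ← add_div, ← mul_add, mul_div_assoc, div_self hθ, mul_one]

/-- polarization: a subspace all of whose vectors are isotropic is totally isotropic. -/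
theorem ti_of_isotropic (hf : IsUnitaryForm σ f) {X : Submodule F (ι → F)} (hX : ∀ t ∈ X, f t t = 0) :
    ∀ x ∈ X, ∀ y ∈ X, f x y = 0 := by
  intro x hx y hy
  by_contra hne
  obtain ⟨θ, hθ⟩ := exists_theta hf
  set c := θ / f x y with hc
  have h := hX (c • x + y) (X.add_mem (X.smul_mem c hx) hy)
  rw [hf.add_left, add_right hf, add_right hf, hX y hy, smul_right hf, smul_right hf, hf.smul_left, hX x hx,
    hf.smul_left, hf.herm y x] at h
  apply hθ
  have h1 : c * f x y = θ := by rw [hc, div_mul_cancel₀ _ hne]
  have h2 : σ c * σ (f x y) = σ θ := by rw [← map_mul, h1]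
  rw [h1, h2] at h
  linear_combination h

end form

section fin

variable [Finite F] {σ : F ≃+* F} {f : (ι → F) → (ι → F) → F}

/-- norm map is surjective onto the fixed field -/
theorem norm_surj (hf : IsUnitaryForm σ f) (a : F) (ha : σ a = a) (ha0 : a ≠ 0) :
    ∃ x : F, x ≠ 0 ∧ x * σ x = a := by
  classical
  have : Fintype F := Fintype.ofFinite F
  let s : Fˣ →* Fˣ := Units.map (σ : F →* F)
  let φ : Fˣ →* Fˣ := { toFun := fun y => y / s y, map_one' := by simp, map_mul' := fun a b => by
                          rw [map_mul]; exact mul_div_mul_comm _ _ _ _ }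
  let N : Fˣ →* Fˣ := { toFun := fun y => y * s y, map_one' := by simp, map_mul' := fun a b => by
                          rw [map_mul]; exact mul_mul_mul_comm _ _ _ _ }
  have hss : ∀ y : Fˣ, s (s y) = y := fun y => Units.ext (hf.involutive y)
  have h90 : N.ker = φ.range := by
    apply le_antisymm
    · intro x hx
      have hx1 : (x : F) * σ x = 1 := by
        have := congrArg (Units.val) (MonoidHom.mem_ker.1 hx)
        exact this
      obtain ⟨c, hc⟩ : ∃ c : F, c + x * σ c ≠ 0 := by
        by_contra h
        push Not at h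
        have h1 := h 1
        rw [map_one, mul_one] at h1
        have hx' : (x : F) = -1 := by linear_combination h1
        apply hf.ne_refl
        ext c
        have := h c
        rw [hx'] at this
        rw [RingEquiv.refl_apply]
        linear_combination -this
      refine ⟨Units.mk0 _ hc, ?_⟩
      show (Units.mk0 _ hc / s (Units.mk0 _ hc) : Fˣ) = x
      rw [div_eq_iff_eq_mul]
      apply Units.ext
      show c + x * σ c = x * σ (c + x * σ c)
      rw [map_add, map_mul, hf.involutive]
      linear_combination (-c) * hx1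
    · rintro _ ⟨y, rfl⟩
      rw [MonoidHom.mem_ker]
      show (y / s y) * s (y / s y) = 1
      rw [map_div, hss]
      simp
  have hker : N.range ≤ φ.ker := by
    rintro _ ⟨y, rfl⟩
    rw [MonoidHom.mem_ker]
    show (y * s y) / s (y * s y) = 1
    rw [map_mul, hss, mul_comm, div_self']
  have hcard : Nat.card N.range = Nat.card φ.ker := by
    have h1 := Subgroup.card_mul_index N.ker
    have h2 := Subgroup.card_mul_index φ.ker
    rw [Subgroup.index_ker] at h1 h2
    rw [h90] at h1
    have : 0 < Nat.card φ.range := Nat.card_pos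
    have h3 : Nat.card φ.range * Nat.card N.range = Nat.card φ.range * Nat.card φ.ker := by
      rw [h1, mul_comm (Nat.card φ.range), h2]
    exact Nat.eq_of_mul_eq_mul_left this h3
  have heq : N.range = φ.ker := Subgroup.eq_of_le_of_card_ge hker hcard.ge
  have hmem : Units.mk0 a ha0 ∈ N.range := by
    rw [heq, MonoidHom.mem_ker]
    show Units.mk0 a ha0 / s (Units.mk0 a ha0) = 1
    have : s (Units.mk0 a ha0) = Units.mk0 a ha0 := Units.ext ha
    rw [this, div_self']
  obtain ⟨x, hx⟩ := hmem
  refine ⟨x, x.ne_zero, ?_⟩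
  have := congrArg Units.val hx
  exact this

/-- codimension-one subspace v ↦ f v w = 0 -/
def perp (hf : IsUnitaryForm σ f) (w : ι → F) : Submodule F (ι → F) where
  carrier := {v | f v w = 0}
  add_mem' {a b} ha hb := by
    have ha' : f a w = 0 := ha
    have hb' : f b w = 0 := hb
    show f (a + b) w = 0
    rw [hf.add_left, ha', hb', add_zero]
  zero_mem' := (linLeft hf).zero_left w
  smul_mem' c a ha := by
    have ha' : f a w = 0 := ha
    show f (c • a) w = 0
    rw [hf.smul_left, ha', mul_zero]

theorem mem_perp (hf : IsUnitaryForm σ f) {v w : ι → F} : v ∈ perp hf w ↔ f v w = 0 := Iff.rfl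

theorem finrank_inf_perp (hf : IsUnitaryForm σ f) (A : Submodule F (ι → F)) (w : ι → F) :
    Module.finrank F A ≤ Module.finrank F (A ⊓ perp hf w : Submodule F (ι → F)) + 1 := by
  let L : (ι → F) →ₗ[F] F :=
    { toFun := fun x => f x w
      map_add' := fun a b => hf.add_left a b w
      map_smul' := fun c a => hf.smul_left c a w }
  have hker : LinearMap.ker L = perp hf w := by
    ext v; exact Iff.rfl
  have h1 := L.finrank_range_add_finrank_ker
  have h2 : Module.finrank F (LinearMap.range L) ≤ 1 := by
    have := Submodule.finrank_le (LinearMap.range L)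
    simpa using this
  have h3 := Submodule.finrank_sup_add_finrank_inf_eq A (perp hf w)
  have h4 := Submodule.finrank_le (A ⊔ perp hf w)
  rw [hker] at h1
  omega

/-- totally isotropic subspaces have dimension at most n/2 -/
theorem ti_bound (hf : IsUnitaryForm σ f) {X : Submodule F (ι → F)} (hX : ∀ x ∈ X, ∀ y ∈ X, f x y = 0) :
    2 * Module.finrank F X ≤ Fintype.card ι := by
  classical
  let L : (ι → F) → ((ι → F) →ₗ[F] F) := fun w =>
    { toFun := fun x => f x w
      map_add' := fun a b => hf.add_left a b w
      map_smul' := fun c a => hf.smul_left c a w }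
  let φ : X → Module.Dual F ((ι → F) ⧸ X) := fun x => X.liftQ (L x) (fun y hy => hX y hy x x.2)
  have hinj : Function.Injective φ := by
    intro x x' h
    have h1 : ∀ v, f v x = f v x' := by
      intro v
      exact DFunLike.congr_fun h (X.mkQ v)
    have : (x : ι → F) - x' = 0 := by
      apply nd hf
      intro v
      rw [sub_right hf, h1, sub_self]
    exact Subtype.ext (sub_eq_zero.1 this)
  have hfin : Finite (Module.Dual F ((ι → F) ⧸ X)) := Module.finite_of_finite F
  have hcard := Nat.card_le_card_of_injective φ hinj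
  rw [Module.natCard_eq_pow_finrank (K := F) (V := X),
    Module.natCard_eq_pow_finrank (K := F) (V := Module.Dual F ((ι → F) ⧸ X)), Subspace.dual_finrank_eq] at hcard
  have hq : 1 < Nat.card F := Finite.one_lt_card
  have h1 := (Nat.pow_le_pow_iff_right hq).1 hcard
  have h2 := Submodule.finrank_quotient_add_finrank X
  rw [Module.finrank_fintype_fun_eq_card] at h2
  omega

/-- a subspace of dimension > n/2 contains a non-isotropic vector -/
theorem exists_aniso (hf : IsUnitaryForm σ f) {X : Submodule F (ι → F)}
    (hX : Fintype.card ι < 2 * Module.finrank F X) : ∃ t ∈ X, f t t ≠ 0 := by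
  by_contra h
  push Not at h
  have := ti_bound hf (ti_of_isotropic hf h)
  omega

/-- a subspace of dimension > n/2 + 1 contains an isotropic vector that is not in its radical -/
theorem exists_iso (hf : IsUnitaryForm σ f) {X : Submodule F (ι → F)}
    (hX : Fintype.card ι + 2 < 2 * Module.finrank F X) : ∃ e ∈ X, f e e = 0 ∧ ∃ x ∈ X, f x e ≠ 0 := by
  obtain ⟨t1, ht1, h1⟩ := exists_aniso hf (X := X) (by omega)
  have h2 := finrank_inf_perp hf X t1
  obtain ⟨t2, ht2, h3⟩ := exists_aniso hf (X := X ⊓ perp hf t1) (by omega)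
  have h4 : f t2 t1 = 0 := ht2.2
  have h5 : f t1 t2 = 0 := eq_zero_symm hf h4
  obtain ⟨c, hc0, hc⟩ := norm_surj hf (-(f t1 t1) / f t2 t2)
    (by rw [map_div₀, map_neg, fix_self hf, fix_self hf]) (div_ne_zero (neg_ne_zero.2 h1) h3)
  refine ⟨t1 + c • t2, X.add_mem ht1 (X.smul_mem c ht2.1), ?_, t1, ht1, ?_⟩
  · rw [hf.add_left, add_right hf, add_right hf, hf.smul_left, hf.smul_left, smul_right hf, smul_right hf, h4, h5]
    have : c * (σ c * f t2 t2) = - f t1 t1 := by
      rw [← mul_assoc, hc, div_mul_cancel₀ _ h3]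
    rw [this]; ring
  · rw [add_right hf, smul_right hf, h5, mul_zero, add_zero]; exact h1

/-- given an isotropic e and x with f x e ≠ 0, some x + c e is isotropic -/
theorem exists_shift (hf : IsUnitaryForm σ f) {x e : ι → F} (he : f e e = 0) (hx : f x e ≠ 0) :
    ∃ c : F, f (x + c • e) (x + c • e) = 0 ∧ f (x + c • e) e = f x e := by
  obtain ⟨y, hy⟩ := trace_surj hf (-(f x x)) (by rw [map_neg, fix_self hf])
  have hex : f e x ≠ 0 := ne_zero_symm hf hx
  refine ⟨y / f e x, ?_, ?_⟩
  · rw [hf.add_left, add_right hf, add_right hf, hf.smul_left, hf.smul_left, smul_right hf, smul_right hf, he,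
      map_div₀, ← hf.herm, div_mul_cancel₀ _ hex, div_mul_cancel₀ _ hx]
    linear_combination hy
  · rw [hf.add_left, hf.smul_left, he, mul_zero, add_zero]

/-- In a subspace X containing a non-radical isotropic vector, a subspace S containing all isotropic vectors y of X
with f y e ≠ 0, and e, contains X. -/
theorem le_of_isotropic (hf : IsUnitaryForm σ f) {X S : Submodule F (ι → F)} {e : ι → F} (he : e ∈ X)
    (hee : f e e = 0) (hrad : ∃ x ∈ X, f x e ≠ 0) (heS : e ∈ S)
    (hS : ∀ y ∈ X, f y y = 0 → f y e ≠ 0 → y ∈ S) : X ≤ S := by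
  have h1 : ∀ x ∈ X, f x e ≠ 0 → x ∈ S := by
    intro x hx hxe
    obtain ⟨c, hc1, hc2⟩ := exists_shift hf hee hxe
    have := hS (x + c • e) (X.add_mem hx (X.smul_mem c he)) hc1 (by rw [hc2]; exact hxe)
    exact (Submodule.add_mem_iff_left S (S.smul_mem c heS)).1 this
  intro x hx
  by_cases hxe : f x e = 0
  · obtain ⟨z, hz, hze⟩ := hrad
    have h2 := h1 (x + z) (X.add_mem hx hz) (by rw [hf.add_left, hxe, zero_add]; exact hze)
    have := S.sub_mem h2 (h1 z hz hze)
    rwa [add_sub_cancel_right] at this
  · exact h1 x hx hxe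

end fin

end H94.UnitForm
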