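import Cfsg.Agent.Lib.H94.UnitForm
import Cfsg.Agent.Lib.H94.Stab

/-!
Overgroups in SL of the similarity group of a non-degenerate unitary form over a finite field.
-/

set_option autoImplicit false
set_option linter.unusedSectionVars false

namespace H94.UnitOver

open Matrix Cfsg.Geo H94.Transv H94.FormRow H94.UnitForm
open scoped MatrixGroups

variable {ι : Type} [Fintype ι] [DecidableEq ι] {F : Type*} [Field F]

variable {σ : F ≃+* F} {f : (ι → F) → (ι → F) → F}

/-- unitary transvections are isometries -/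
theorem isometry_tm (hf : IsUnitaryForm σ f) {v : ι → F} (hv : f v v = 0) {a : F} (ha : a + σ a = 0) (x y : ι → F) :
    f (tm v (a • frow f v) *ᵥ x) (tm v (a • frow f v) *ᵥ y) = f x y := by
  rw [(linLeft hf).tm_frow_mulVec, (linLeft hf).tm_frow_mulVec, hf.add_left, add_right hf, add_right hf,
    hf.smul_left, smul_right hf, hf.smul_left, smul_right hf, hv, map_mul, ← hf.herm v y]
  linear_combination (f x v * f v y) * ha

theorem frow_dot_self (hf : IsUnitaryForm σ f) {v : ι → F} (hv : f v v = 0) (a : F) :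
    (a • frow f v) ⬝ᵥ v = 0 := by
  rw [smul_dotProduct, (linLeft hf).frow_dot, hv, smul_zero]

theorem tGL_mem_similarity (hf : IsUnitaryForm σ f) {v : ι → F} (hv : f v v = 0) {a : F} (ha : a + σ a = 0)
    (h : (a • frow f v) ⬝ᵥ v = 0) : tGL v (a • frow f v) h ∈ similarityGroup f :=
  ⟨1, fun x y => by rw [tGL_val, isometry_tm hf hv ha, Units.val_one, one_mul]⟩

theorem frow_add (hf : IsUnitaryForm σ f) (v w : ι → F) : frow f (v + w) = frow f v + frow f w := by
  ext i; exact add_right hf _ _ _

theorem frow_sub (hf : IsUnitaryForm σ f) (v w : ι → F) : frow f (v - w) = frow f v - frow f w := by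
  ext i; exact sub_right hf _ _ _

theorem frow_smul (hf : IsUnitaryForm σ f) (c : F) (v : ι → F) : frow f (c • v) = σ c • frow f v := by
  ext i; exact smul_right hf _ _ _

theorem exists_frow (hf : IsUnitaryForm σ f) (φ : ι → F) : ∃ y, frow f y = φ := by
  -- use the form f twisted by σ in the second variable: y ↦ σ⁻¹-twist; work with the linear map y ↦ σ ∘ frow
  let L : (ι → F) →ₗ[F] (ι → F) :=
    { toFun := fun y => fun i => σ (f (Pi.single i 1) y)
      map_add' := fun a b => by ext i; simp [add_right hf]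
      map_smul' := fun c a => by ext i; simp [smul_right hf, hf.involutive] }
  have hinj : Function.Injective L := by
    rw [← LinearMap.ker_eq_bot, LinearMap.ker_eq_bot']
    intro m hm
    apply nd hf
    intro x
    rw [← (linLeft hf).frow_dot]
    have : frow f m = 0 := by
      ext i
      have := congrFun hm i
      exact (map_eq_zero σ).1 this
    rw [this, zero_dotProduct]
  obtain ⟨y, hy⟩ := (LinearMap.injective_iff_surjective.1 hinj) (fun i => σ (φ i))
  refine ⟨y, ?_⟩
  ext i
  exact σ.injective (congrFun hy i)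

/-- M contains the unitary transvections of f -/
def HasU (M : Subgroup (GL ι F)) (σ : F ≃+* F) (f : (ι → F) → (ι → F) → F) : Prop :=
  ∀ (v : ι → F) (a : F), f v v = 0 → a + σ a = 0 → HasT M v (a • frow f v)

variable {M : Subgroup (GL ι F)}

/-- (★) -/
theorem star (hf : IsUnitaryForm σ f) (hM : HasU M σ f) {w φ y : ι → F} (hφ : HasT M w φ) (hyw : f y w = 0)
    (hy : f y y = 0) {a : F} (ha : a + σ a = 0) : HasT M w (((φ ⬝ᵥ y) * a) • frow f y) := by
  have h := (hM y a hy ha).comm_right hφ (by
    rw [smul_dotProduct, (linLeft hf).frow_dot, eq_zero_symm hf hyw, smul_zero])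
  rwa [smul_smul] at h

/-- (★★) -/
theorem star2 (hf : IsUnitaryForm σ f) (hM : HasU M σ f) {w y z : ι → F} {b : F} (hz : HasT M w (b • frow f z))
    (hyw : f y w = 0) (hy : f y y = 0) {a : F} (ha : a + σ a = 0) :
    HasT M w ((b * f y z * a) • frow f y) := by
  have := star hf hM hz hyw hy ha
  rwa [smul_dotProduct, (linLeft hf).frow_dot, smul_eq_mul] at this

/-- core lemma: from one multiple of frow z to all multiples of frow y, when f y z = 1 and there is an
anisotropic vector t orthogonal to w, y, z. -/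
theorem core (hf : IsUnitaryForm σ f) (hM : HasU M σ f) {w y z t : ι → F} {b : F} (hb0 : b ≠ 0)
    (hz : HasT M w (b • frow f z)) (hyw : f y w = 0) (hzw : f z w = 0) (htw : f t w = 0) (hy : f y y = 0)
    (hz0 : f z z = 0) (hyz : f y z = 1) (hty : f t y = 0) (htz : f t z = 0) (ht : f t t ≠ 0) (c : F) :
    HasT M w (c • frow f y) := by
  obtain ⟨α, hα0, hα⟩ := exists_alpha hf
  obtain ⟨lam, hlam⟩ := trace_surj hf (-(f t t)) (by rw [map_neg, fix_self hf])
  have hzy : f z y = 1 := by rw [hf.herm, hyz, map_one]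
  have hyt : f y t = 0 := eq_zero_symm hf hty
  have hzt : f z t = 0 := eq_zero_symm hf htz
  set u := y + lam • z + t with hu
  have huw : f u w = 0 := by
    rw [hu, hf.add_left, hf.add_left, hf.smul_left, hyw, hzw, htw]; ring
  have huz : f u z = 1 := by
    rw [hu, hf.add_left, hf.add_left, hf.smul_left, hyz, hz0, htz]; ring
  have hyu : f y u = σ lam := by
    rw [hu, add_right hf, add_right hf, smul_right hf, hy, hyz, hyt]; ring
  have huy : f u y = lam := by
    rw [hf.herm, hyu, hf.involutive]
  have hut : f u t = f t t := by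
    rw [hu, hf.add_left, hf.add_left, hf.smul_left, hyt, hzt]; ring
  have huu : f u u = 0 := by
    conv_lhs => rw [hu]
    rw [add_right hf, add_right hf, smul_right hf, ← hu, huy, huz, hut]
    linear_combination hlam
  have htr : lam + σ lam ≠ 0 := by rw [hlam]; exact neg_ne_zero.2 ht
  have hfix : σ (lam + σ lam) = lam + σ lam := by rw [map_add, hf.involutive]; ring
  -- x = c / b = a + e μ
  set x := c / b with hx
  set e := (x + σ x) / (lam + σ lam) with he
  have hefix : σ e = e := by
    rw [he, map_div₀, hfix, map_add, hf.involutive, add_comm (σ x)]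
  have hσα : σ α = -α := by linear_combination hα
  have h1 := star2 hf hM hz hyw hy (a := x - e * σ lam) (by
    rw [map_sub, map_mul, hf.involutive, hefix]
    have : e * (lam + σ lam) = x + σ x := by rw [he, div_mul_cancel₀ _ htr]
    linear_combination -this)
  have h2 := star2 hf hM hz huw huu (a := e / α) (by
    rw [map_div₀, hefix, hσα, div_neg]; ring)
  have h3 := star2 hf hM h2 hyw hy (a := α) hα
  have h4 := h1.add_right h3
  rw [← add_smul, hyz, huz, hyu] at h4
  convert h4 using 2
  have hxb : x * b = c := by rw [hx, div_mul_cancel₀ _ hb0]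
  field_simp
  linear_combination -hxb

section fin

variable [Finite F]

/-- vectors v all of whose multiples c • frow f v belong to the root functionals at w -/
def Sset (hf : IsUnitaryForm σ f) (M : Subgroup (GL ι F)) (w : ι → F) : Submodule F (ι → F) where
  carrier := {v | ∀ c : F, HasT M w (c • frow f v)}
  add_mem' {a b} ha hb := by
    intro c
    rw [frow_add hf, smul_add]
    exact (ha c).add_right (hb c)
  zero_mem' := by
    intro c
    have : frow f (0 : ι → F) = 0 := by
      have := frow_smul hf 0 (0 : ι → F)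
      simpa using this
    rw [this, smul_zero]; exact HasT.zero_right w
  smul_mem' d a ha := by
    intro c
    rw [frow_smul hf, smul_smul]
    exact ha _

theorem full_of (hf : IsUnitaryForm σ f) (hM : HasU M σ f) (hn : 7 ≤ Fintype.card ι) {w ψ y1 : ι → F}
    (hψ : HasT M w ψ) (hy1 : f y1 w = 0) (hψy : ψ ⬝ᵥ y1 ≠ 0) : Full M w := by
  have hdimN : Fintype.card ι ≤ Module.finrank F (perp hf w) + 1 := by
    have := finrank_inf_perp hf ⊤ w
    rw [top_inf_eq, finrank_top, Module.finrank_fintype_fun_eq_card] at this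
    exact this
  obtain ⟨e, heN, hee, hrad⟩ := exists_iso hf (X := perp hf w) (by omega)
  obtain ⟨α, hα0, hα⟩ := exists_alpha hf
  -- an isotropic z0 with ψ z0 ≠ 0
  obtain ⟨z0, hz0N, hz0, hψz⟩ : ∃ z0 ∈ perp hf w, f z0 z0 = 0 ∧ ψ ⬝ᵥ z0 ≠ 0 := by
    by_contra hcon
    push Not at hcon
    let S : Submodule F (ι → F) :=
      { carrier := {v | ψ ⬝ᵥ v = 0}
        add_mem' := fun {a b} ha hb => by
          have ha' : ψ ⬝ᵥ a = 0 := ha
          have hb' : ψ ⬝ᵥ b = 0 := hb
          show ψ ⬝ᵥ (a + b) = 0
          rw [dotProduct_add, ha', hb', add_zero]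
        zero_mem' := dotProduct_zero _
        smul_mem' := fun c a ha => by
          have ha' : ψ ⬝ᵥ a = 0 := ha
          show ψ ⬝ᵥ (c • a) = 0
          rw [dotProduct_smul, ha', smul_zero] }
    have hle := le_of_isotropic hf (X := perp hf w) (S := S) heN hee hrad (hcon e heN hee)
      (fun y hy hyy _ => hcon y hy hyy)
    exact hψy (hle hy1)
  have hz0w : f z0 w = 0 := hz0N
  obtain ⟨x, hxN, hxz⟩ : ∃ x ∈ perp hf w, f x z0 ≠ 0 := by
    by_contra hcon
    push Not at hcon
    have h1 : frow f z0 ∈ Submodule.span F {frow f w} := by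
      apply mem_span_of_ker_le
      intro x hx
      rw [(linLeft hf).frow_dot] at hx ⊢
      exact hcon x hx
    obtain ⟨c, hc⟩ := Submodule.mem_span_singleton.1 h1
    have h2 : z0 - σ c • w = 0 := by
      apply nd hf
      intro x
      rw [← (linLeft hf).frow_dot, frow_sub hf, frow_smul hf, hf.involutive, hc, sub_self, zero_dotProduct]
    apply hψz
    rw [sub_eq_zero.1 h2, dotProduct_smul, hψ.1, smul_zero]
  have hb0 : (ψ ⬝ᵥ z0) * α ≠ 0 := mul_ne_zero hψz hα0
  have hTz := star hf hM hψ hz0w hz0 hα
  -- t exists for all y, z in N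
  have ht : ∀ y z : ι → F, ∃ t, f t w = 0 ∧ f t y = 0 ∧ f t z = 0 ∧ f t t ≠ 0 := by
    intro y z
    have h1 := finrank_inf_perp hf (perp hf w) y
    have h2 := finrank_inf_perp hf (perp hf w ⊓ perp hf y) z
    obtain ⟨t, ht, htt⟩ := exists_aniso hf (X := perp hf w ⊓ perp hf y ⊓ perp hf z) (by omega)
    exact ⟨t, ht.1.1, ht.1.2, ht.2, htt⟩
  -- y0 with f y0 z0 = 1
  obtain ⟨c0, hc01, hc02⟩ := exists_shift hf hz0 hxz
  set y0 := (f x z0)⁻¹ • (x + c0 • z0) with hy0
  have hy0N : f y0 w = 0 := (perp hf w).smul_mem _ ((perp hf w).add_mem hxN ((perp hf w).smul_mem _ hz0N))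
  have hy0y0 : f y0 y0 = 0 := by rw [hy0, hf.smul_left, smul_right hf, hc01]; ring
  have hy0z0 : f y0 z0 = 1 := by rw [hy0, hf.smul_left, hc02, inv_mul_cancel₀ hxz]
  have hz0y0 : f z0 y0 = 1 := by rw [hf.herm, hy0z0, map_one]
  obtain ⟨t, ht1, ht2, ht3, ht4⟩ := ht y0 z0
  have hall0 : ∀ c, HasT M w (c • frow f y0) :=
    core hf hM hb0 hTz hy0N hz0w ht1 hy0y0 hz0 hy0z0 ht2 ht3 ht4
  have hallz : ∀ c, HasT M w (c • frow f z0) :=
    core hf hM one_ne_zero (hall0 1) hz0w hy0N ht1 hz0 hy0y0 hz0y0 ht3 ht2 ht4
  have hle : perp hf w ≤ Sset hf M w := by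
    refine le_of_isotropic hf (e := z0) hz0N hz0 ⟨x, hxN, hxz⟩ hallz ?_
    intro y hyN hyy hyz
    set y' := (f y z0)⁻¹ • y with hy'
    have hy'N : f y' w = 0 := (perp hf w).smul_mem _ hyN
    have hy'y' : f y' y' = 0 := by rw [hy', hf.smul_left, smul_right hf, hyy]; ring
    have hy'z : f y' z0 = 1 := by rw [hy', hf.smul_left, inv_mul_cancel₀ hyz]
    obtain ⟨t, ht1, ht2, ht3, ht4⟩ := ht y' z0
    have h1 : y' ∈ Sset hf M w :=
      core hf hM one_ne_zero (hallz 1) hy'N hz0w ht1 hy'y' hz0 hy'z ht2 ht3 ht4
    have h2 := (Sset hf M w).smul_mem (f y z0) h1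
    rwa [hy', smul_smul, mul_inv_cancel₀ hyz, one_smul] at h2
  intro φ hφ
  obtain ⟨y, rfl⟩ := exists_frow hf φ
  rw [(linLeft hf).frow_dot] at hφ
  have := hle (show y ∈ perp hf w from eq_zero_symm hf hφ) 1
  rwa [one_smul] at this

/-- isotropic vectors span: a subspace containing all isotropic vectors is everything -/
theorem eq_top_of_isotropic (hf : IsUnitaryForm σ f) (hn : 3 ≤ Fintype.card ι) {S : Submodule F (ι → F)}
    (hS : ∀ y, f y y = 0 → y ∈ S) : S = ⊤ := by
  obtain ⟨e, heN, hee, hrad⟩ := exists_iso hf (X := ⊤) (by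
    rw [finrank_top, Module.finrank_fintype_fun_eq_card]; omega)
  rw [eq_top_iff]
  exact le_of_isotropic hf heN hee hrad (hS e hee) (fun y _ hyy _ => hS y hyy)

/-- from one nonzero full centre -/
theorem specialLinear_le_of_full_centre (hf : IsUnitaryForm σ f) (hM : HasU M σ f) (hn : 3 ≤ Fintype.card ι)
    {w : ι → F} (hw0 : w ≠ 0) (hw : Full M w) : specialLinear ι F ≤ M := by
  obtain ⟨α, hα0, hα⟩ := exists_alpha hf
  apply specialLinear_le_of_full
  have hmem : ∀ u ∈ fullSubmodule M, ∀ y, f y y = 0 → f u y ≠ 0 → y ∈ fullSubmodule M := by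
    intro u hu y hy huy
    have h1 : (tGL y _ (hM y α hy hα).1 : Matrix ι ι F) *ᵥ u ∈ fullSubmodule M :=
      fullSubmodule_stable (hM y α hy hα).mem hu
    rw [tGL_val, (linLeft hf).tm_frow_mulVec] at h1
    have h2 := (fullSubmodule M).sub_mem h1 hu
    rw [add_sub_cancel_left] at h2
    have h3 := (fullSubmodule M).smul_mem (α * f u y)⁻¹ h2
    rwa [smul_smul, inv_mul_cancel₀ (mul_ne_zero hα0 huy), one_smul] at h3
  obtain ⟨y, hyy, hwy⟩ : ∃ y, f y y = 0 ∧ f w y ≠ 0 := by
    by_contra hcon
    push Not at hcon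
    have := eq_top_of_isotropic hf hn (S := perp hf w) (fun y hy => eq_zero_symm hf (hcon y hy))
    apply hw0
    apply nd hf
    intro x
    have hx : x ∈ perp hf w := by rw [this]; trivial
    exact hx
  have hy : y ∈ fullSubmodule M := hmem w hw y hyy hwy
  rw [eq_top_iff]
  refine le_of_isotropic hf (e := y) trivial hyy ⟨w, trivial, hwy⟩ hy ?_
  intro x _ hxx hxy
  exact hmem y hy x hxx (ne_zero_symm hf hxy)

/-- the form transported by g -/
def pull (g : GL ι F) (f : (ι → F) → (ι → F) → F) : (ι → F) → (ι → F) → F :=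
  fun x y => f (((g⁻¹ : GL ι F) : Matrix ι ι F) *ᵥ x) (((g⁻¹ : GL ι F) : Matrix ι ι F) *ᵥ y)

theorem pull_unitary (hf : IsUnitaryForm σ f) (g : GL ι F) : IsUnitaryForm σ (pull g f) where
  ne_refl := hf.ne_refl
  involutive := hf.involutive
  add_left x y v := by unfold pull; rw [mulVec_add, hf.add_left]
  smul_left c x v := by unfold pull; rw [mulVec_smul, hf.smul_left]
  herm v w := by unfold pull; rw [hf.herm]
  nondegenerate v hv := by
    have hv' : ((g⁻¹ : GL ι F) : Matrix ι ι F) *ᵥ v ≠ 0 := by
      intro h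
      apply hv
      have := mulVec_inv_mulVec g v
      rw [h, mulVec_zero] at this
      exact this.symm
    obtain ⟨⟨x, hx⟩, ⟨y, hy⟩⟩ := hf.nondegenerate _ hv'
    refine ⟨⟨(g : Matrix ι ι F) *ᵥ x, ?_⟩, ⟨(g : Matrix ι ι F) *ᵥ y, ?_⟩⟩
    · unfold pull; rwa [inv_mulVec_mulVec]
    · unfold pull; rwa [inv_mulVec_mulVec]

theorem specialLinear_le (hf : IsUnitaryForm σ f) (hM : HasU M σ f) (hn : 7 ≤ Fintype.card ι)
    {g : GL ι F} (hg : g ∈ M) (hgs : g ∉ similarityGroup f) : specialLinear ι F ≤ M := by
  obtain ⟨α, hα0, hα⟩ := exists_alpha hf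
  set f' := pull g f with hf'def
  have hf' : IsUnitaryForm σ f' := pull_unitary hf g
  have hM' : ∀ w, f' w w = 0 → HasT M w (α • frow f' w) := by
    intro w hw
    have h1 := (hM (((g⁻¹ : GL ι F) : Matrix ι ι F) *ᵥ w) α hw hα).conj hg
    rw [mulVec_inv_mulVec] at h1
    convert h1 using 1
    apply frow_ext
    intro x
    rw [smul_dotProduct, (linLeft hf').frow_dot, ← dotProduct_mulVec, smul_dotProduct, (linLeft hf).frow_dot]
    rfl
  by_cases hex : ∃ w, f' w w = 0 ∧ frow f' w ∉ Submodule.span F {frow f w}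
  · obtain ⟨w, hw, hnot⟩ := hex
    obtain ⟨y1, hy1, hy1'⟩ : ∃ y1, f y1 w = 0 ∧ (α • frow f' w) ⬝ᵥ y1 ≠ 0 := by
      by_contra hcon
      push Not at hcon
      apply hnot
      apply mem_span_of_ker_le
      intro x hx
      rw [(linLeft hf).frow_dot] at hx
      have := hcon x hx
      rw [smul_dotProduct, smul_eq_mul] at this
      exact (mul_eq_zero.1 this).resolve_left hα0
    have hfull := full_of hf hM hn (hM' w hw) hy1 hy1'
    have hw0 : w ≠ 0 := by
      rintro rfl
      apply hnot
      have : frow f' (0 : ι → F) = 0 := by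
        have := frow_smul hf' 0 (0 : ι → F)
        simpa using this
      rw [this]; exact Submodule.zero_mem _
    exact specialLinear_le_of_full_centre hf hM (by omega) hw0 hfull
  · exfalso
    push Not at hex
    -- each isotropic w gives a constant
    have hc : ∀ w, f' w w = 0 → ∃ c : F, ∀ x, f' x w = c * f x w := by
      intro w hw
      obtain ⟨c, hc⟩ := Submodule.mem_span_singleton.1 (hex w hw)
      refine ⟨c, fun x => ?_⟩
      rw [← (linLeft hf').frow_dot, ← hc, smul_dotProduct, (linLeft hf).frow_dot, smul_eq_mul]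
    obtain ⟨e, -, hee, x0, -, hx0⟩ := exists_iso hf' (X := ⊤) (by
      rw [finrank_top, Module.finrank_fintype_fun_eq_card]; omega)
    have he0 : e ≠ 0 := by
      rintro rfl
      exact hx0 (zero_right hf' _)
    obtain ⟨c, hce⟩ := hc e hee
    -- S = set of w with f' x w = c f x w
    let S : Submodule F (ι → F) :=
      { carrier := {w | ∀ x, f' x w = c * f x w}
        add_mem' := fun {a b} ha hb => by
          intro x
          rw [add_right hf', add_right hf, ha x, hb x, mul_add]
        zero_mem' := fun x => by rw [zero_right hf', zero_right hf, mul_zero]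
        smul_mem' := fun d a ha => by
          intro x
          rw [smul_right hf', smul_right hf, ha x]; ring }
    have hS : S = ⊤ := by
      apply eq_top_of_isotropic hf' (by omega)
      intro w hw
      by_cases hdep : w ∈ Submodule.span F {e}
      · obtain ⟨d, rfl⟩ := Submodule.mem_span_singleton.1 hdep
        exact S.smul_mem d hce
      · -- find lam ≠ 0 with w + lam e isotropic
        obtain ⟨lam, hlam0, hlam⟩ : ∃ lam : F, lam ≠ 0 ∧ f' (w + lam • e) (w + lam • e) = 0 := by
          by_cases hwe : f' w e = 0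
          · refine ⟨1, one_ne_zero, ?_⟩
            rw [hf'.add_left, add_right hf', add_right hf', hf'.smul_left, hf'.smul_left, smul_right hf',
              smul_right hf', hw, hwe, eq_zero_symm hf' hwe, hee]; ring
          · have hew : f' e w ≠ 0 := ne_zero_symm hf' hwe
            refine ⟨α / f' e w, div_ne_zero hα0 hew, ?_⟩
            rw [hf'.add_left, add_right hf', add_right hf', hf'.smul_left, hf'.smul_left, smul_right hf',
              smul_right hf', hw, hee, map_div₀, ← hf'.herm w e, div_mul_cancel₀ _ hew, div_mul_cancel₀ _ hwe]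
            linear_combination hα
        obtain ⟨c2, hc2⟩ := hc w hw
        obtain ⟨c3, hc3⟩ := hc _ hlam
        -- (c3 - c2) f(x,w) + σ lam (c3 - c) f(x,e) = 0
        have key : σ (c3 - c2) • w + (σ (c3 - c) * lam) • e = 0 := by
          apply nd hf
          intro y
          have h1 := hc3 y
          rw [add_right hf', add_right hf, smul_right hf', smul_right hf, hc2, hce] at h1
          rw [add_right hf, smul_right hf, smul_right hf, map_mul, hf.involutive, hf.involutive]
          linear_combination (-1) * h1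
        have h20 : σ (c3 - c2) = 0 := by
          by_contra h
          apply hdep
          refine Submodule.mem_span_singleton.2 ⟨-((σ (c3 - c2))⁻¹ * (σ (c3 - c) * lam)), ?_⟩
          have h4 : (σ (c3 - c2))⁻¹ • (σ (c3 - c2) • w + (σ (c3 - c) * lam) • e) = 0 := by rw [key, smul_zero]
          rw [smul_add, smul_smul, smul_smul, inv_mul_cancel₀ h, one_smul] at h4
          rw [neg_smul]
          exact (eq_neg_of_add_eq_zero_left h4).symm
        have h30 : σ (c3 - c) = 0 := by
          rw [h20, zero_smul, zero_add] at key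
          rcases smul_eq_zero.1 key with h | h
          · exact (mul_eq_zero.1 h).resolve_right hlam0
          · exact absurd h he0
        have e1 : c3 = c2 := sub_eq_zero.1 ((map_eq_zero σ).1 h20)
        have e2 : c3 = c := sub_eq_zero.1 ((map_eq_zero σ).1 h30)
        intro x
        rw [hc2 x, ← e1, e2]
    have hall : ∀ x w, f' x w = c * f x w := by
      intro x w
      have : w ∈ S := by rw [hS]; trivial
      exact this x
    have hc0 : c ≠ 0 := by
      rintro rfl
      apply hx0
      rw [hall, zero_mul]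
    have hinv : g⁻¹ ∈ similarityGroup f := ⟨Units.mk0 c hc0, fun u v => hall u v⟩
    have := (similarityGroup f).inv_mem hinv
    rw [inv_inv] at this
    exact hgs this

/-- the similarity group of a unitary form does not contain SL -/
theorem not_specialLinear_le (hf : IsUnitaryForm σ f) (hn : 3 ≤ Fintype.card ι) :
    ¬ specialLinear ι F ≤ similarityGroup f := by
  intro hle
  obtain ⟨v, -, hvv, x, -, hx⟩ := exists_iso hf (X := ⊤) (by
      rw [finrank_top, Module.finrank_fintype_fun_eq_card]; omega)
  have hv0 : v ≠ 0 := by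
    rintro rfl
    exact hx (zero_right hf _)
  obtain ⟨y, hy, hyv⟩ : ∃ y, f y v = 0 ∧ y ∉ Submodule.span F {v} := by
    by_contra hcon
    push Not at hcon
    have h1 : perp hf v ≤ Submodule.span F {v} := fun y hy => hcon y hy
    have h2 := Submodule.finrank_mono h1
    have h3 := finrank_inf_perp hf ⊤ v
    rw [top_inf_eq, finrank_top, Module.finrank_fintype_fun_eq_card] at h3
    have h5 : Module.finrank F (Submodule.span F {v}) ≤ 1 := finrank_span_singleton hv0 |>.le
    omega
  obtain ⟨φ, h1, h2⟩ := exists_functional hyv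
  obtain ⟨c, hc⟩ := hle (tGL_mem_specialLinear v φ h1)
  have e1 := hc x v
  have e2 := hc x y
  rw [tGL_val, tm_mulVec, tm_mulVec, h1, zero_smul, add_zero, hf.add_left, hf.smul_left,
    hvv, mul_zero, add_zero] at e1
  have hc1 : (c : F) = 1 := by
    have : ((c : F) - 1) * f x v = 0 := by linear_combination -e1
    exact sub_eq_zero.1 ((mul_eq_zero.1 this).resolve_right hx)
  rw [tGL_val, tm_mulVec, tm_mulVec, h2, one_smul, hf.add_left, add_right hf, add_right hf,
    hf.smul_left, hf.smul_left, hvv, eq_zero_symm hf hy, hc1] at e2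
  apply hx
  linear_combination e2

/-- The similarity group of a non-degenerate unitary form, intersected with SL, is maximal in SL (dimension ≥ 7). -/
theorem similarity_maximal (hf : IsUnitaryForm σ f) (hn : 7 ≤ Fintype.card ι) :
    IsMaximalIn (specialLinear ι F) (similarityGroup f ⊓ specialLinear ι F) := by
  refine ⟨lt_of_le_of_ne inf_le_right fun h => ?_, fun M hM1 hM2 => ?_⟩
  · apply not_specialLinear_le hf (by omega)
    rw [← h]; exact inf_le_left
  · by_cases hM : M ≤ similarityGroup f
    · exact Or.inl (le_antisymm (le_inf hM hM2) hM1)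
    · right
      apply le_antisymm hM2
      obtain ⟨g, hg, hgs⟩ := Set.not_subset.1 hM
      exact specialLinear_le hf (fun v a hv ha => HasT.mk (frow_dot_self hf hv a)
        (hM1 ⟨tGL_mem_similarity hf hv ha _, tGL_mem_specialLinear _ _ _⟩)) hn hg hgs

end fin

end H94.UnitOver
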